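import Mathlib
import Cfsg.Prelude.Def_GeometricClasses
import Cfsg.Prelude.Def_LieClassical
import Cfsg.Agent.Lib.Helper71.Asch0
import Cfsg.Agent.Lib.Helper71.Asch5
import Cfsg.Agent.Lib.Helper82.ASSA
import Cfsg.Agent.Lib.Helper66.ASSC
import Cfsg.Agent.Lib.Helper82.ASSG
import Cfsg.Agent.Lib.Helper83.ASB8BURN

/-!
# Project SPP (helper71, S5805 / S5844), piece SY

`SY`: there is no symplectic-type minimal normal subgroup in dimension `2p`, `p` an odd prime.
For `L` of symplectic type the coset representatives of `L ⊓ scalars` in `L` form a basis of the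
matrix algebra (they span it by Burnside's theorem and are independent as simultaneous
eigenvectors of the conjugation action of `L` with pairwise different characters), so the index
is `n ^ 2`; since `L` is an `r`-group, `n` is a power of a prime.
-/

set_option autoImplicit false
set_option linter.style.haveILetI false

namespace Cfsg.Agent.Lib.Helper63.SPPSY

open Matrix Cfsg.Geo Cfsg.Agent.Lib.Helper71.Asch
open scoped Kronecker commutatorElement

variable {n : ℕ} {F : Type*} [Field F]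

/-- simultaneous eigenvectors of a family of linear maps with pairwise different characters are
linearly independent -/
theorem sy_li {V ι κ : Type*} [AddCommGroup V] [Module F V] (T : κ → V →ₗ[F] V) (u : ι → V)
    (χ : ι → κ → F) (hu : ∀ q, u q ≠ 0) (hev : ∀ q k, T k (u q) = χ q k • u q)
    (hdist : ∀ q q', q ≠ q' → ∃ k, χ q k ≠ χ q' k) : LinearIndependent F u := by
  classical
  rw [linearIndependent_iff']
  intro s
  induction s using Finset.induction_on with
  | empty =>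
    intro g _ i hi
    exact absurd hi (Finset.notMem_empty i)
  | insert j s hj ih =>
    intro g hg
    rw [Finset.sum_insert hj] at hg
    have hs : ∀ i ∈ s, g i = 0 := by
      intro i hi
      have hij : i ≠ j := fun e => hj (e ▸ hi)
      obtain ⟨k, hne⟩ := hdist i j hij
      obtain ⟨T', hT⟩ : ∃ T' : V →ₗ[F] V, T' = T k - χ j k • LinearMap.id := ⟨_, rfl⟩
      have hTu : ∀ q, T' (u q) = (χ q k - χ j k) • u q := by
        intro q
        rw [hT, LinearMap.sub_apply, hev q k, LinearMap.smul_apply, LinearMap.id_apply, sub_smul]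
      have h2 := congrArg T' hg
      rw [map_add, map_smul, map_sum, map_zero, hTu j, sub_self, zero_smul, smul_zero,
        zero_add] at h2
      have h1 : ∑ q ∈ s, (g q * (χ q k - χ j k)) • u q = 0 := by
        rw [← h2]
        apply Finset.sum_congr rfl
        intro q _
        rw [map_smul, hTu q, smul_smul]
      have h3 := ih _ h1 i hi
      rcases mul_eq_zero.mp h3 with h | h
      · exact h
      · exact absurd (sub_eq_zero.mp h) hne
    intro i hi
    rcases Finset.mem_insert.mp hi with rfl | hi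
    · rw [Finset.sum_eq_zero (fun k hk => by rw [hs k hk, zero_smul]), add_zero] at hg
      exact (smul_eq_zero.mp hg).resolve_right (hu i)
    · exact hs i hi

variable [Fintype F]

/-- for `L` of symplectic type, the index of `L ⊓ scalars` in `L` is `n ^ 2` -/
theorem sy_index (hn : 1 ≤ n) (H L : Subgroup (GL (Fin n) F)) (h : SymT H L) :
    Nat.card (↥L ⧸ (scalars (Fin n) F).subgroupOf L) = n * n := by
  classical
  obtain ⟨Zs, hZs⟩ : ∃ Zs : Subgroup ↥L, Zs = (scalars (Fin n) F).subgroupOf L := ⟨_, rfl⟩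
  rw [← hZs]
  have hmemZ : ∀ x : ↥L, x ∈ Zs ↔ (x : GL (Fin n) F) ∈ scalars (Fin n) F := fun x => by
    rw [hZs]; exact Subgroup.mem_subgroupOf
  letI : Fintype (↥L ⧸ Zs) := Fintype.ofFinite _
  -- the representatives
  obtain ⟨u, hu⟩ : ∃ u : ↥L ⧸ Zs → Matrix (Fin n) (Fin n) F,
      ∀ q, u q = ((q.out : ↥L) : GL (Fin n) F).1 := ⟨fun q => ((q.out : ↥L) : GL (Fin n) F).1, fun _ => rfl⟩
  -- the conjugation maps
  obtain ⟨T, hT⟩ : ∃ T : ↥L → (Matrix (Fin n) (Fin n) F →ₗ[F] Matrix (Fin n) (Fin n) F),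
      ∀ y : ↥L, T y = (LinearMap.mulLeft F (y.1 : GL (Fin n) F).1).comp
        (LinearMap.mulRight F ((y.1)⁻¹ : GL (Fin n) F).1) := ⟨fun y : ↥L => (LinearMap.mulLeft F (y.1 : GL (Fin n) F).1).comp
        (LinearMap.mulRight F ((y.1)⁻¹ : GL (Fin n) F).1), fun _ => rfl⟩
  -- the characters
  have hex : ∀ (q : ↥L ⧸ Zs) (y : ↥L), ∃ c : Fˣ,
      (⁅(y : GL (Fin n) F), ((q.out : ↥L) : GL (Fin n) F)⁆ : GL (Fin n) F).1
        = (c : F) • (1 : Matrix (Fin n) (Fin n) F) := by
    intro q y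
    exact (mem_scalars_iff _).1 (h.comm (Subgroup.commutator_mem_commutator y.2 (q.out).2))
  choose χ hχ using hex
  have hconj : ∀ (q : ↥L ⧸ Zs) (y : ↥L),
      (y : GL (Fin n) F).1 * ((q.out : ↥L) : GL (Fin n) F).1 * ((y : GL (Fin n) F)⁻¹).1
        = (χ q y : F) • ((q.out : ↥L) : GL (Fin n) F).1 := by
    intro q y
    have h1 : (y : GL (Fin n) F) * ((q.out : ↥L) : GL (Fin n) F) * (y : GL (Fin n) F)⁻¹
        = ⁅(y : GL (Fin n) F), ((q.out : ↥L) : GL (Fin n) F)⁆ * ((q.out : ↥L) : GL (Fin n) F) := by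
      rw [commutatorElement_def]
      group
    have h2 := congrArg Units.val h1
    rw [Units.val_mul, Units.val_mul, Units.val_mul, hχ q y, Matrix.smul_mul, Matrix.one_mul]
      at h2
    exact h2
  have hu0 : ∀ q, u q ≠ 0 := by
    intro q h0
    rw [hu] at h0
    have h1 : (1 : Matrix (Fin n) (Fin n) F) = 0 := by
      rw [← Cfsg.Agent.Lib.Helper82.ASSG.mul_inv_val ((q.out : ↥L) : GL (Fin n) F), h0, zero_mul]
    have h2 := congrFun (congrFun h1 ⟨0, hn⟩) ⟨0, hn⟩
    simp at h2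
  have hev : ∀ (q : ↥L ⧸ Zs) (y : ↥L), T y (u q) = (χ q y : F) • u q := by
    intro q y
    rw [hT, hu]
    simp only [LinearMap.comp_apply, LinearMap.mulLeft_apply, LinearMap.mulRight_apply]
    rw [← Matrix.mul_assoc]
    exact hconj q y
  have hdist : ∀ q q' : ↥L ⧸ Zs, q ≠ q' → ∃ y : ↥L, (χ q y : F) ≠ (χ q' y : F) := by
    intro q q' hqq
    by_contra hcon
    push Not at hcon
    apply hqq
    have hcomm : ∀ y : ↥L, ⁅(y : GL (Fin n) F), ((q.out : ↥L) : GL (Fin n) F)⁆
        = ⁅(y : GL (Fin n) F), ((q'.out : ↥L) : GL (Fin n) F)⁆ := by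
      intro y
      apply Units.ext
      rw [hχ q y, hχ q' y, hcon y]
    have hcent : ∀ y ∈ L, y * (((q.out : ↥L) : GL (Fin n) F)⁻¹ * ((q'.out : ↥L) : GL (Fin n) F))
        = (((q.out : ↥L) : GL (Fin n) F)⁻¹ * ((q'.out : ↥L) : GL (Fin n) F)) * y := by
      intro y hy
      have h1 := hcomm ⟨y⁻¹, L.inv_mem hy⟩
      rw [commutatorElement_def, commutatorElement_def] at h1
      simp only [inv_inv] at h1
      obtain ⟨g, hg⟩ : ∃ g : GL (Fin n) F, g = ((q.out : ↥L) : GL (Fin n) F) := ⟨_, rfl⟩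
      obtain ⟨g', hg'⟩ : ∃ g' : GL (Fin n) F, g' = ((q'.out : ↥L) : GL (Fin n) F) := ⟨_, rfl⟩
      rw [← hg, ← hg'] at h1 ⊢
      calc y * (g⁻¹ * g') = g⁻¹ * (y * (y⁻¹ * g * y * g⁻¹)) * g' := by group
        _ = g⁻¹ * (y * (y⁻¹ * g' * y * g'⁻¹)) * g' := by rw [h1]
        _ = (g⁻¹ * g') * y := by group
    have hsc := Cfsg.Agent.Lib.Helper82.ASSG.mem_scalars_of_central L h.abs _ hcent
    have hmem : (q.out)⁻¹ * q'.out ∈ Zs := by
      rw [hmemZ]
      exact hsc
    have h3 : (QuotientGroup.mk (q.out) : ↥L ⧸ Zs) = QuotientGroup.mk (q'.out) :=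
      QuotientGroup.eq.mpr hmem
    rw [QuotientGroup.out_eq', QuotientGroup.out_eq'] at h3
    exact h3
  have hli : LinearIndependent F u :=
    sy_li T u (fun q y => (χ q y : F)) hu0 hev hdist
  have hsp : ⊤ ≤ Submodule.span F (Set.range u) := by
    rw [← Cfsg.Agent.Lib.Helper83.ASB8BURN.burnside L h.abs, Submodule.span_le]
    rintro _ ⟨x, hx, rfl⟩
    obtain ⟨z, hz⟩ := QuotientGroup.mk_out_eq_mul Zs (⟨x, hx⟩ : ↥L)
    have hzs : ((z : ↥L) : GL (Fin n) F) ∈ scalars (Fin n) F := (hmemZ _).1 z.2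
    obtain ⟨c, hc⟩ := (mem_scalars_iff _).1 hzs
    have h4 : u (QuotientGroup.mk (⟨x, hx⟩ : ↥L)) = (c : F) • x.1 := by
      rw [hu, hz, Subgroup.coe_mul, Units.val_mul, hc, Matrix.mul_smul, Matrix.mul_one]
    have h5 : x.1 = ((c : F)⁻¹) • u (QuotientGroup.mk (⟨x, hx⟩ : ↥L)) := by
      rw [h4, smul_smul, inv_mul_cancel₀ c.ne_zero, one_smul]
    show x.1 ∈ Submodule.span F (Set.range u)
    rw [h5]
    exact Submodule.smul_mem _ _ (Submodule.subset_span ⟨_, rfl⟩)
  have hbasis := Module.finrank_eq_card_basis (Module.Basis.mk hli hsp)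
  rw [Nat.card_eq_fintype_card, ← hbasis, Module.finrank_matrix]
  simp

/-- SY: no symplectic-type minimal normal subgroup in dimension `2p`, `p` an odd prime. -/
theorem SY (p : ℕ) (hp : p.Prime) (hp2 : p ≠ 2) (hn : n = 2 * p) (H L : Subgroup (GL (Fin n) F))
    (h : SymT H L) : False := by
  classical
  have hp0 := hp.pos
  obtain ⟨r, hr, hx⟩ := Cfsg.Agent.Lib.Helper82.ASSA.SA H L h
  have hpw := Cfsg.Agent.Lib.Helper66.ASSC.SC H L h r hr hx
  haveI : Fact r.Prime := ⟨hr⟩
  have hPG : IsPGroup r ↥L := by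
    intro g
    obtain ⟨j, hj⟩ := hpw g.1 g.2
    exact ⟨j, Subtype.ext (by rw [Subgroup.coe_pow, Subgroup.coe_one]; exact hj)⟩
  obtain ⟨a, ha⟩ := IsPGroup.iff_card.mp hPG
  have hidx := sy_index (by omega) H L h
  have hcard := Subgroup.card_eq_card_quotient_mul_card_subgroup ((scalars (Fin n) F).subgroupOf L)
  rw [hidx, ha] at hcard
  have hdvd : n * n ∣ r ^ a := ⟨_, hcard⟩
  have h2 : 2 ∣ r ^ a := Dvd.dvd.trans ⟨p * n, by rw [hn]; ring⟩ hdvd
  have hpd : p ∣ r ^ a := Dvd.dvd.trans ⟨2 * n, by rw [hn]; ring⟩ hdvd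
  have hr2 : 2 = r := (Nat.prime_dvd_prime_iff_eq Nat.prime_two hr).1 (Nat.prime_two.dvd_of_dvd_pow h2)
  have hrp : p = r := (Nat.prime_dvd_prime_iff_eq hp hr).1 (hp.dvd_of_dvd_pow hpd)
  exact hp2 (hrp.trans hr2.symm)

end Cfsg.Agent.Lib.Helper63.SPPSY
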