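import Cfsg.Agent.Lib.Helper47.QuadDefs

set_option autoImplicit false

namespace Cfsg.Agent.Lib.Helper63

open Polynomial Module
open Cfsg.Agent.Lib.Helper47

/-- the value of a quadratic form on a combination of three vectors -/
theorem quad_three {F : Type*} [Field F] {V : Type*} [AddCommGroup V] [Module F V]
    {Q : V → F} {B : V → V → F} (hQ : IsQuad Q B) (b₀ b₁ b₂ : V) (x y z : F) :
    Q (x • b₀ + y • b₁ + z • b₂) = Q b₀ * x ^ 2 + Q b₁ * y ^ 2 + Q b₂ * z ^ 2 +
      B b₀ b₁ * (x * y) + B b₀ b₂ * (x * z) + B b₁ b₂ * (y * z) := by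
  have hB := hQ.form
  simp only [hQ.polar, hQ.smul, hB.add_left, hB.smul_left, hB.smul_right, RingHom.id_apply]
  ring

/-- the total degree of the ternary quadratic polynomial is at most 2 -/
theorem quad_three_degree {F : Type*} [Field F] (a₀ a₁ a₂ c₀₁ c₀₂ c₁₂ : F) :
    (MvPolynomial.C a₀ * MvPolynomial.X (0 : Fin 3) ^ 2 +
      MvPolynomial.C a₁ * MvPolynomial.X (1 : Fin 3) ^ 2 +
      MvPolynomial.C a₂ * MvPolynomial.X (2 : Fin 3) ^ 2 +
      MvPolynomial.C c₀₁ * (MvPolynomial.X (0 : Fin 3) * MvPolynomial.X (1 : Fin 3)) +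
      MvPolynomial.C c₀₂ * (MvPolynomial.X (0 : Fin 3) * MvPolynomial.X (2 : Fin 3)) +
      MvPolynomial.C c₁₂ * (MvPolynomial.X (1 : Fin 3) * MvPolynomial.X (2 : Fin 3)) :
        MvPolynomial (Fin 3) F).totalDegree ≤ 2 := by
  have h2 : ∀ (a : F) (i : Fin 3),
      (MvPolynomial.C a * MvPolynomial.X i ^ 2 : MvPolynomial (Fin 3) F).totalDegree ≤ 2 := by
    intro a i
    refine (MvPolynomial.totalDegree_mul _ _).trans ?_
    rw [MvPolynomial.totalDegree_C, MvPolynomial.totalDegree_X_pow]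
  have hX : ∀ (a : F) (i j : Fin 3),
      (MvPolynomial.C a * (MvPolynomial.X i * MvPolynomial.X j) :
        MvPolynomial (Fin 3) F).totalDegree ≤ 2 := by
    intro a i j
    refine (MvPolynomial.totalDegree_mul _ _).trans ?_
    rw [MvPolynomial.totalDegree_C, zero_add]
    refine (MvPolynomial.totalDegree_mul _ _).trans ?_
    rw [MvPolynomial.totalDegree_X, MvPolynomial.totalDegree_X]
  refine (MvPolynomial.totalDegree_add _ _).trans (max_le ?_ (hX _ _ _))
  refine (MvPolynomial.totalDegree_add _ _).trans (max_le ?_ (hX _ _ _))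
  refine (MvPolynomial.totalDegree_add _ _).trans (max_le ?_ (hX _ _ _))
  refine (MvPolynomial.totalDegree_add _ _).trans (max_le ?_ (h2 _ _))
  exact (MvPolynomial.totalDegree_add _ _).trans (max_le (h2 _ _) (h2 _ _))

/-- S2674 piece CW: a quadratic form in at least three variables over a finite field has a
nonzero zero (Chevalley-Warning). -/
theorem exists_singular {F : Type*} [Field F] [Fintype F] {V : Type*} [AddCommGroup V]
    [Module F V] [FiniteDimensional F V] {Q : V → F} {B : V → V → F} (hQ : IsQuad Q B)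
    (hdim : 3 ≤ finrank F V) : ∃ v : V, v ≠ 0 ∧ Q v = 0 := by
  classical
  obtain ⟨n, hn⟩ : ∃ n, finrank F V = n := ⟨_, rfl⟩
  have b : Basis (Fin n) F V := hn ▸ Module.finBasis F V
  have hn3 : 3 ≤ n := hn ▸ hdim
  obtain ⟨i₀, hi₀⟩ : ∃ i : Fin n, i = ⟨0, by omega⟩ := ⟨_, rfl⟩
  obtain ⟨i₁, hi₁⟩ : ∃ i : Fin n, i = ⟨1, by omega⟩ := ⟨_, rfl⟩
  obtain ⟨i₂, hi₂⟩ : ∃ i : Fin n, i = ⟨2, by omega⟩ := ⟨_, rfl⟩
  have h01 : i₀ ≠ i₁ := by rw [hi₀, hi₁]; intro h; simpa using congrArg Fin.val h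
  have h02 : i₀ ≠ i₂ := by rw [hi₀, hi₂]; intro h; simpa using congrArg Fin.val h
  have h12 : i₁ ≠ i₂ := by rw [hi₁, hi₂]; intro h; simpa using congrArg Fin.val h
  obtain ⟨f, hf⟩ : ∃ f : MvPolynomial (Fin 3) F, f =
      MvPolynomial.C (Q (b i₀)) * MvPolynomial.X (0 : Fin 3) ^ 2 +
      MvPolynomial.C (Q (b i₁)) * MvPolynomial.X (1 : Fin 3) ^ 2 +
      MvPolynomial.C (Q (b i₂)) * MvPolynomial.X (2 : Fin 3) ^ 2 +
      MvPolynomial.C (B (b i₀) (b i₁)) * (MvPolynomial.X (0 : Fin 3) * MvPolynomial.X (1 : Fin 3)) +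
      MvPolynomial.C (B (b i₀) (b i₂)) * (MvPolynomial.X (0 : Fin 3) * MvPolynomial.X (2 : Fin 3)) +
      MvPolynomial.C (B (b i₁) (b i₂)) * (MvPolynomial.X (1 : Fin 3) * MvPolynomial.X (2 : Fin 3)) :=
    ⟨_, rfl⟩
  have hdeg : f.totalDegree < Fintype.card (Fin 3) := by
    rw [hf, Fintype.card_fin]
    exact lt_of_le_of_lt (quad_three_degree _ _ _ _ _ _) (by norm_num)
  have heval : ∀ x : Fin 3 → F, MvPolynomial.eval x f =
      Q (x 0 • b i₀ + x 1 • b i₁ + x 2 • b i₂) := by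
    intro x
    rw [quad_three hQ, hf]
    simp only [map_add, map_mul, map_pow, MvPolynomial.eval_C, MvPolynomial.eval_X]
  have := ringChar.charP F
  have hp : (ringChar F).Prime := CharP.char_is_prime F (ringChar F)
  have hdvd := char_dvd_card_solutions (ringChar F) hdeg
  rw [← Nat.card_eq_fintype_card] at hdvd
  have hzero : MvPolynomial.eval (0 : Fin 3 → F) f = 0 := by
    rw [heval]
    simp [hQ.map_zero]
  have hex : ∃ x : Fin 3 → F, x ≠ 0 ∧ MvPolynomial.eval x f = 0 := by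
    by_contra hcon
    push Not at hcon
    have hsub : Subsingleton {x : Fin 3 → F // MvPolynomial.eval x f = 0} := by
      refine ⟨fun x y => Subtype.ext ?_⟩
      have hx : x.1 = 0 := by
        by_contra hx
        exact hcon x.1 hx x.2
      have hy : y.1 = 0 := by
        by_contra hy
        exact hcon y.1 hy y.2
      rw [hx, hy]
    have hcard : Nat.card {x : Fin 3 → F // MvPolynomial.eval x f = 0} = 1 := by
      have : Nonempty {x : Fin 3 → F // MvPolynomial.eval x f = 0} := ⟨⟨0, hzero⟩⟩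
      exact Nat.card_eq_one_iff_unique.mpr ⟨hsub, inferInstance⟩
    rw [hcard, Nat.dvd_one] at hdvd
    exact hp.one_lt.ne' hdvd
  obtain ⟨x, hx0, hx⟩ := hex
  refine ⟨x 0 • b i₀ + x 1 • b i₁ + x 2 • b i₂, ?_, ?_⟩
  · intro hv
    apply hx0
    have hrepr := congrArg b.repr hv
    simp only [map_add, map_smul, Basis.repr_self, map_zero] at hrepr
    have e0 := DFunLike.congr_fun hrepr i₀
    have e1 := DFunLike.congr_fun hrepr i₁
    have e2 := DFunLike.congr_fun hrepr i₂
    simp only [Finsupp.coe_add, Finsupp.coe_smul, Pi.add_apply, Pi.smul_apply,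
      Finsupp.single_apply, smul_eq_mul, Finsupp.coe_zero, Pi.zero_apply] at e0 e1 e2
    simp only [h01, h02, h12, h01.symm, h02.symm, h12.symm, if_true, if_false, mul_one,
      mul_zero, add_zero, zero_add] at e0 e1 e2
    funext i
    fin_cases i
    · exact e0
    · exact e1
    · exact e2
  · rw [← heval]
    exact hx

end Cfsg.Agent.Lib.Helper63
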