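import Mathlib
import Cfsg.Agent.Lib.Helper22.BFDefs
import Cfsg.Agent.Lib.Helper57.BFFourier

/-!
# S4503 piece S1E (helper22): `a_stable`

The Fourier coefficients `a u` of `χ` on `⟨z⟩` are stable under multiplication by `Ef p z`.
-/

set_option autoImplicit false

namespace Cfsg.Agent.Lib.Helper63.BFT

open Cfsg Cfsg.Agent.Lib.Helper22.BFD
open scoped ComplexConjugate

universe u

section

variable {G : Type u} [Group G] [Fintype G]

/-- PIECE S1E -/
theorem a_stable (p : ℕ) [Fact p.Prime] (ζ : ℂ) (hζ : IsPrimitiveRoot ζ p) (z : G)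
    (hz : orderOf z = p) (χ : G → ℂ) (hχ : ∀ x h : G, χ (h * x * h⁻¹) = χ x)
    (a : ZMod p → ℕ)
    (ha : ∀ t : ZMod p, χ (z ^ t.val) = ∑ u : ZMod p, (a u : ℂ) * ζ ^ (u * t).val) :
    ∀ k ∈ Ef p z, ∀ u : ZMod p, a (k * u) = a u := by
  intro k hk u
  have hp : p.Prime := Fact.out
  have hconj : IsConj (z ^ k.val) z := by
    simpa [Ef] using hk
  have hz1 : z ≠ 1 := by
    intro h
    rw [h, orderOf_one] at hz
    exact hp.one_lt.ne hz
  have hk0 : k ≠ 0 := by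
    intro h0
    rw [h0] at hconj
    simp only [ZMod.val_zero, pow_zero] at hconj
    exact hz1 (isConj_one_right.mp hconj)
  obtain ⟨g, hg⟩ := isConj_iff.mp hconj
  have hχk : χ (z ^ k.val) = χ z :=
    calc χ (z ^ k.val) = χ (g * z ^ k.val * g⁻¹) := (hχ _ _).symm
      _ = χ z := by rw [hg]
  have h1 := ha k
  have h2 := ha 1
  rw [ZMod.val_one, pow_one] at h2
  rw [hχk, h2] at h1
  -- reindex
  have e1 : ∑ u : ZMod p, (a u : ℂ) * ζ ^ (u * k).val
      = ∑ w : ZMod p, (a (w * k⁻¹) : ℂ) * ζ ^ w.val := by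
    refine Fintype.sum_equiv (Equiv.mulRight₀ k hk0) _ _ (fun u => ?_)
    simp [hk0]
  have hsum : ∑ w : ZMod p, (((a (w * k⁻¹) : ℤ) - (a w : ℤ) : ℤ) : ℂ) * ζ ^ w.val = 0 := by
    have : ∑ w : ZMod p, (a (w * k⁻¹) : ℂ) * ζ ^ w.val - ∑ w : ZMod p, (a w : ℂ) * ζ ^ w.val = 0 := by
      rw [← e1, ← h1]
      simp
    rw [← Finset.sum_sub_distrib] at this
    rw [← this]
    refine Finset.sum_congr rfl fun w _ => ?_
    push_cast
    ring
  have hc := Cfsg.Agent.Lib.BF.bfF_const_of_sum_pow_eq_zero ζ hζ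
    (fun w => (a (w * k⁻¹) : ℤ) - (a w : ℤ)) hsum (k * u) 0
  simp only [zero_mul, sub_self] at hc
  have h3 : k * u * k⁻¹ = u := by
    rw [mul_comm k u, mul_assoc, mul_inv_cancel₀ hk0, mul_one]
  rw [h3] at hc
  have h4 : (a u : ℤ) = (a (k * u) : ℤ) := sub_eq_zero.mp hc
  exact_mod_cast h4.symm

end

end Cfsg.Agent.Lib.Helper63.BFT
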