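import Mathlib
import Cfsg.Agent.Lib.Helper22.TGDefs
import Cfsg.Agent.Lib.Helper83.Quot
import Cfsg.Agent.Lib.Helper92.DOCL5

/-! helper63: piece ORB (`card_orb`) of the DG project of helper79 (S4442 / S4507). -/

set_option autoImplicit false

namespace Cfsg.Agent.Lib.Helper63.DG

open Cfsg

/-- an element in the kernel of an irreducible character can be cancelled -/
theorem irr_ker_mul {H : Type*} [Group H] [Finite H] (χ : IrrCharacter H) (x c : H)
    (hx : χ.1 x = χ.1 1) : χ.1 (x * c) = χ.1 c := by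
  have hxk : x ∈ Cfsg.Agent.Lib.Helper83.irrKer χ :=
    (Cfsg.Agent.Lib.Helper83.mem_irrKer χ x).mpr hx
  obtain ⟨ψ, hψ⟩ := Cfsg.Agent.Lib.Helper83.exists_inflate_eq
    (Cfsg.Agent.Lib.Helper83.irrKer χ) χ
    (fun y hy => (Cfsg.Agent.Lib.Helper83.mem_irrKer χ y).mp hy)
  have h1 : ∀ g : H, χ.1 g = ψ.1 (g : H ⧸ Cfsg.Agent.Lib.Helper83.irrKer χ) := by
    intro g
    have h2 := congrArg (fun χ' : IrrCharacter H => χ'.1 g) hψ
    exact h2.symm
  rw [h1, h1, QuotientGroup.mk_mul, (QuotientGroup.eq_one_iff x).mpr hxk, one_mul]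

section Loc

variable {G : Type*} [Group G] [Fintype G]

/-- auxiliary form of `card_orb` with the centralizer and normalizer as variables -/
theorem card_orb_aux (p : ℕ) [Fact p.Prime] (P : Sylow p G) (hP : Nat.card P = p)
    (z : G) (hz : z ∈ (P : Subgroup G)) (hz1 : z ≠ 1)
    (K : Subgroup G) (hK : ∀ y : G, y ∈ K ↔ (y * z = z * y ∧ ¬ p ∣ orderOf y))
    (C N : Subgroup G) (hC : C = Subgroup.centralizer ((P : Subgroup G) : Set G))
    (hN : N = Subgroup.normalizer ((P : Subgroup G) : Set G))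
    (θ : IrrCharacter C)
    (hθP : ∀ x : C, (x : G) ∈ (P : Subgroup G) → θ.1 x = θ.1 1)
    (θK : IrrCharacter K)
    (hθK : ∀ (y : K) (hy : (y : G) ∈ C), θK.1 y = θ.1 ⟨(y : G), hy⟩)
    (T : Subgroup G)
    (hT : ∀ g : G, g ∈ T ↔ (g ∈ N ∧
      ∀ c c' : C, (c' : G) = g * c * g⁻¹ → θ.1 c' = θ.1 c)) :
    Nat.card (Cfsg.Agent.Lib.Helper22.TG.orb K θK.1 N) = T.relIndex N := by
  classical
  have hp : p.Prime := Fact.out
  have hPz : (P : Subgroup G) = Subgroup.zpowers z :=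
    Cfsg.Agent.Lib.Helper92.DO.cf_zpowers p P hP z hz hz1
  -- membership in C
  have hCmem : ∀ c : G, c ∈ C ↔ c * z = z * c := by
    intro c
    rw [hC, Subgroup.mem_centralizer_iff]
    constructor
    · intro h
      exact (h z hz).symm
    · intro h x hx
      have hx' : x ∈ Subgroup.zpowers z := by rw [← hPz]; exact hx
      obtain ⟨k, rfl⟩ := Subgroup.mem_zpowers_iff.mp hx'
      exact ((Commute.zpow_right (show Commute c z from h) k).eq).symm
  have hCP : ∀ c ∈ C, ∀ x ∈ (P : Subgroup G), x * c = c * x := by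
    intro c hc x hx
    rw [hC, Subgroup.mem_centralizer_iff] at hc
    exact hc x hx
  have hPC : (P : Subgroup G) ≤ C := by
    intro x hx
    rw [hCmem]
    have hx' : x ∈ Subgroup.zpowers z := by rw [← hPz]; exact hx
    obtain ⟨k, rfl⟩ := Subgroup.mem_zpowers_iff.mp hx'
    exact ((Commute.refl z).zpow_left k).eq
  have hKC : K ≤ C := fun y hy => (hCmem y).mpr ((hK y).mp hy).1
  have hNP : ∀ g ∈ N, ∀ x ∈ (P : Subgroup G), g * x * g⁻¹ ∈ (P : Subgroup G) := by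
    intro g hg x hx
    rw [hN, Subgroup.mem_normalizer_iff] at hg
    exact (hg x).mp hx
  have hNC : ∀ g ∈ N, ∀ c ∈ C, g * c * g⁻¹ ∈ C := by
    intro g hg c hc
    rw [hCmem]
    have h1 : g⁻¹ * z * g⁻¹⁻¹ ∈ (P : Subgroup G) := hNP g⁻¹ (N.inv_mem hg) z hz
    have h2 := hCP c hc _ h1
    calc g * c * g⁻¹ * z = g * (c * (g⁻¹ * z * g⁻¹⁻¹)) * g⁻¹ := by group
      _ = g * ((g⁻¹ * z * g⁻¹⁻¹) * c) * g⁻¹ := by rw [h2]
      _ = z * (g * c * g⁻¹) := by group
  have hNK : ∀ g ∈ N, ∀ y ∈ K, g * y * g⁻¹ ∈ K := by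
    intro g hg y hy
    rw [hK]
    refine ⟨(hCmem _).mp (hNC g hg y (hKC hy)), ?_⟩
    have h1 : g * y * g⁻¹ = MulAut.conj g y := by simp [MulAut.conj_apply]
    rw [h1, MulEquiv.orderOf_eq]
    exact ((hK y).mp hy).2
  have hp2 : ¬ p ^ 2 ∣ Nat.card G := by
    intro h
    have h1 := P.card_eq_multiplicity
    rw [hP] at h1
    have h2 : 2 ≤ (Nat.card G).factorization p :=
      (hp.pow_dvd_iff_le_factorization Nat.card_pos.ne').mp h
    have h3 : p ^ 1 < p ^ (Nat.card G).factorization p :=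
      Nat.pow_lt_pow_right hp.one_lt (by omega)
    rw [pow_one] at h3
    omega
  -- C = P K
  have hdecomp : ∀ c ∈ C, ∃ x ∈ (P : Subgroup G), ∃ y ∈ K, c = x * y := by
    intro c hc
    by_cases hpc : p ∣ orderOf c
    · obtain ⟨m', hm'⟩ := hpc
      have hpm' : ¬ p ∣ m' := by
        intro h
        obtain ⟨m'', rfl⟩ := h
        apply hp2
        have h1 : p ^ 2 ∣ orderOf c := ⟨m'', by rw [hm']; ring⟩
        exact dvd_trans h1 (orderOf_dvd_natCard c)
      have hcop : Nat.Coprime p m' := (Nat.Prime.coprime_iff_not_dvd hp).mpr hpm'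
      have hb := Nat.gcd_eq_gcd_ab p m'
      rw [hcop.gcd_eq_one, Nat.cast_one] at hb
      obtain ⟨A, hA⟩ : ∃ A : ℤ, A = Nat.gcdA p m' := ⟨_, rfl⟩
      obtain ⟨B, hB⟩ : ∃ B : ℤ, B = Nat.gcdB p m' := ⟨_, rfl⟩
      rw [← hA, ← hB] at hb
      obtain ⟨X, hX⟩ : ∃ X : G, X = c ^ ((m' : ℤ) * B) := ⟨_, rfl⟩
      have hx : X ∈ C := hX ▸ C.zpow_mem hc _
      have hy : c ^ ((p : ℤ) * A) ∈ C := C.zpow_mem hc _
      have hxp : X ^ p = 1 := by
        rw [hX, ← zpow_natCast, ← zpow_mul]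
        have h1 : (m' : ℤ) * B * (p : ℤ) = ((orderOf c : ℕ) : ℤ) * B := by
          rw [hm']; push_cast; ring
        rw [h1, zpow_mul, zpow_natCast, pow_orderOf_eq_one, one_zpow]
      have hym : (c ^ ((p : ℤ) * A)) ^ m' = 1 := by
        rw [← zpow_natCast, ← zpow_mul]
        have h1 : (p : ℤ) * A * (m' : ℤ) = ((orderOf c : ℕ) : ℤ) * A := by
          rw [hm']; push_cast; ring
        rw [h1, zpow_mul, zpow_natCast, pow_orderOf_eq_one, one_zpow]
      refine ⟨X, ?_, c ^ ((p : ℤ) * A), ?_, ?_⟩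
      · have hxpg : IsPGroup p (Subgroup.zpowers X) := by
          rintro ⟨g, hg⟩
          obtain ⟨j, rfl⟩ := Subgroup.mem_zpowers_iff.mp hg
          refine ⟨1, Subtype.ext ?_⟩
          show (X ^ j) ^ p ^ 1 = 1
          rw [pow_one, ← zpow_natCast, ← zpow_mul, mul_comm, zpow_mul, zpow_natCast, hxp,
            one_zpow]
        have hle : Subgroup.zpowers X ≤
            Subgroup.normalizer ((P : Subgroup G) : Set G) := by
          rw [Subgroup.zpowers_le]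
          exact Subgroup.centralizer_le_normalizer _ (hC ▸ hx)
        have hsup := IsPGroup.to_sup_of_normal_right' hxpg P.isPGroup' hle
        have heq := P.is_maximal' hsup le_sup_right
        have h1 : X ∈ Subgroup.zpowers X ⊔ (P : Subgroup G) :=
          Subgroup.mem_sup_left (Subgroup.mem_zpowers _)
        rw [heq] at h1
        exact h1
      · rw [hK]
        refine ⟨(hCmem _).mp hy, ?_⟩
        intro h
        exact hpm' (dvd_trans h (orderOf_dvd_of_pow_eq_one hym))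
      · rw [hX, ← zpow_add]
        have h1 : (m' : ℤ) * B + (p : ℤ) * A = 1 := by linarith
        rw [h1, zpow_one]
    · exact ⟨1, (P : Subgroup G).one_mem, c, (hK c).mpr ⟨(hCmem c).mp hc, hpc⟩,
        (one_mul c).symm⟩
  -- the character θ as a function on G
  let f : G → ℂ := fun g => if h : g ∈ C then θ.1 ⟨g, h⟩ else 0
  have hf : ∀ (c : G) (hc : c ∈ C), f c = θ.1 ⟨c, hc⟩ := fun c hc => dif_pos hc
  have hfP : ∀ x ∈ (P : Subgroup G), ∀ c ∈ C, f (x * c) = f c := by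
    intro x hx c hc
    rw [hf _ (C.mul_mem (hPC hx) hc), hf c hc]
    exact irr_ker_mul θ ⟨x, hPC hx⟩ ⟨c, hc⟩ (hθP ⟨x, hPC hx⟩ hx)
  have hTf : ∀ g ∈ T, ∀ c ∈ C, f (g * c * g⁻¹) = f c := by
    intro g hg c hc
    obtain ⟨hgN, hgT⟩ := (hT g).mp hg
    have hc' : g * c * g⁻¹ ∈ C := hNC g hgN c hc
    rw [hf _ hc', hf c hc]
    exact hgT ⟨c, hc⟩ ⟨g * c * g⁻¹, hc'⟩ rfl
  have hF6 : ∀ g ∈ N, (∀ y ∈ K, f (g * y * g⁻¹) = f y) → g ∈ T := by
    intro g hgN hg
    rw [hT]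
    refine ⟨hgN, fun c c' hcc' => ?_⟩
    obtain ⟨x, hx, y, hy, hxy⟩ := hdecomp (c : G) c.2
    have h1 : θ.1 c = f (c : G) := (hf (c : G) c.2).symm
    have h2 : θ.1 c' = f (c' : G) := (hf (c' : G) c'.2).symm
    rw [h1, h2, hcc', hxy]
    have h3 : g * (x * y) * g⁻¹ = (g * x * g⁻¹) * (g * y * g⁻¹) := by group
    rw [h3, hfP _ (hNP g hgN x hx) _ (hKC (hNK g hgN y hy)), hfP x hx y (hKC hy)]
    exact hg y hy
  have hcj : ∀ n ∈ N, ∀ y : K,
      Cfsg.Agent.Lib.Helper22.TG.cj K θK.1 n y = f (n⁻¹ * (y : G) * n) := by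
    intro n hn y
    have h1 : n⁻¹ * (y : G) * n ∈ K := by
      have h := hNK n⁻¹ (N.inv_mem hn) y y.2
      rwa [inv_inv] at h
    rw [Cfsg.Agent.Lib.Helper22.TG.cj_apply K θK.1 n y h1, hθK ⟨_, h1⟩ (hKC h1),
      hf _ (hKC h1)]
  have key : ∀ a ∈ N, ∀ b ∈ N,
      (Cfsg.Agent.Lib.Helper22.TG.cj K θK.1 a = Cfsg.Agent.Lib.Helper22.TG.cj K θK.1 b ↔
        a⁻¹ * b ∈ T) := by
    intro a ha b hb
    constructor
    · intro heq
      apply hF6 _ (N.mul_mem (N.inv_mem ha) hb)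
      intro y' hy'
      have hyK : b * y' * b⁻¹ ∈ K := hNK b hb y' hy'
      have h1 := congrFun heq ⟨b * y' * b⁻¹, hyK⟩
      rw [hcj a ha, hcj b hb] at h1
      have h2 : a⁻¹ * (b * y' * b⁻¹) * a = a⁻¹ * b * y' * (a⁻¹ * b)⁻¹ := by group
      have h3 : b⁻¹ * (b * y' * b⁻¹) * b = y' := by group
      calc f (a⁻¹ * b * y' * (a⁻¹ * b)⁻¹) = f (a⁻¹ * (b * y' * b⁻¹) * a) := by rw [h2]
        _ = f (b⁻¹ * (b * y' * b⁻¹) * b) := h1
        _ = f y' := by rw [h3]
    · intro hg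
      funext y
      rw [hcj a ha, hcj b hb]
      have hc : b⁻¹ * (y : G) * b ∈ C := by
        have h := hNK b⁻¹ (N.inv_mem hb) y y.2
        rw [inv_inv] at h
        exact hKC h
      have h1 := hTf _ hg _ hc
      have h2 : a⁻¹ * b * (b⁻¹ * (y : G) * b) * (a⁻¹ * b)⁻¹ = a⁻¹ * (y : G) * a := by group
      rw [h2] at h1
      exact h1
  let F : N ⧸ T.subgroupOf N → Cfsg.Agent.Lib.Helper22.TG.orb K θK.1 N :=
    Quotient.lift (fun n : N =>
      (⟨Cfsg.Agent.Lib.Helper22.TG.cj K θK.1 (n : G), ⟨(n : G), n.2, rfl⟩⟩ :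
        Cfsg.Agent.Lib.Helper22.TG.orb K θK.1 N)) (by
      intro a b hab
      have h1 : a⁻¹ * b ∈ T.subgroupOf N := QuotientGroup.leftRel_apply.mp hab
      apply Subtype.ext
      exact (key a a.2 b b.2).mpr (by simpa [Subgroup.mem_subgroupOf] using h1))
  have hFinj : Function.Injective F := by
    intro a b
    induction a using QuotientGroup.induction_on with | H a => ?_
    induction b using QuotientGroup.induction_on with | H b => ?_
    intro hab
    have h1 : Cfsg.Agent.Lib.Helper22.TG.cj K θK.1 (a : G) =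
        Cfsg.Agent.Lib.Helper22.TG.cj K θK.1 (b : G) := congrArg Subtype.val hab
    rw [QuotientGroup.eq, Subgroup.mem_subgroupOf]
    simpa using (key a a.2 b b.2).mp h1
  have hFsurj : Function.Surjective F := by
    rintro ⟨g, n, hn, rfl⟩
    exact ⟨QuotientGroup.mk ⟨n, hn⟩, rfl⟩
  rw [Subgroup.relIndex, Subgroup.index]
  exact (Nat.card_congr (Equiv.ofBijective F ⟨hFinj, hFsurj⟩)).symm

/-- PIECE ORB -/
theorem card_orb (p : ℕ) [Fact p.Prime] (P : Sylow p G) (hP : Nat.card P = p)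
    (z : G) (hz : z ∈ (P : Subgroup G)) (hz1 : z ≠ 1)
    (K : Subgroup G) (hK : ∀ y : G, y ∈ K ↔ (y * z = z * y ∧ ¬ p ∣ orderOf y))
    (θ : IrrCharacter (Subgroup.centralizer ((P : Subgroup G) : Set G)))
    (hθP : ∀ x : Subgroup.centralizer ((P : Subgroup G) : Set G),
      (x : G) ∈ (P : Subgroup G) → θ.1 x = θ.1 1)
    (θK : IrrCharacter K)
    (hθK : ∀ (y : K) (hy : (y : G) ∈ Subgroup.centralizer ((P : Subgroup G) : Set G)),
        θK.1 y = θ.1 ⟨(y : G), hy⟩)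
    (T : Subgroup G)
    (hT : ∀ g : G, g ∈ T ↔ (g ∈ Subgroup.normalizer ((P : Subgroup G) : Set G) ∧
      ∀ c c' : Subgroup.centralizer ((P : Subgroup G) : Set G), (c' : G) = g * c * g⁻¹ →
        θ.1 c' = θ.1 c)) :
    Nat.card (Cfsg.Agent.Lib.Helper22.TG.orb K θK.1
        (Subgroup.normalizer ((P : Subgroup G) : Set G))) =
      T.relIndex (Subgroup.normalizer ((P : Subgroup G) : Set G)) :=
  card_orb_aux p P hP z hz hz1 K hK _ _ rfl rfl θ hθP θK hθK T hT

end Loc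

end Cfsg.Agent.Lib.Helper63.DG
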