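import Mathlib

/-!
# J3M-IDX3 (piece for S2041, helper37): `card_closure_pair`

`⟨x, y⟩` with `a = [x,y]`, `t₁ = [x,a]`, `t₂ = [y,a]` central of order 3, `x^3, y^3 ∈ ⟨a,t₁,t₂⟩`
and independence of `a, t₁, t₂` has order `243`.
-/

set_option autoImplicit false

open scoped commutatorElement

universe u v

namespace Cfsg.Agent.Lib.Helper63.J3MIDX3

theorem pow_mod3 {M : Type*} [Monoid M] (g : M) (h : g ^ 3 = 1) (n : ℕ) :
    g ^ n = g ^ (n % 3) := by
  conv_lhs => rw [← Nat.div_add_mod n 3, pow_add, pow_mul, h, one_pow, one_mul]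

theorem pow_three_mul {M : Type*} [Monoid M] (g : M) (h : g ^ 3 = 1) (n : ℕ) :
    g ^ (n + 2 * n) = 1 := by
  have e : n + 2 * n = 3 * n := by ring
  rw [e, pow_mul, h, one_pow]

theorem nf_mul {M : Type*} [Monoid M] (a b c : M) (hab : Commute a b) (hac : Commute a c)
    (hbc : Commute b c) (k l m k' l' m' : ℕ) :
    (a ^ k * b ^ l * c ^ m) * (a ^ k' * b ^ l' * c ^ m')
      = a ^ (k + k') * b ^ (l + l') * c ^ (m + m') := by
  have e1 : c ^ m * a ^ k' = a ^ k' * c ^ m := ((hac.pow_pow k' m).symm).eq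
  have e2 : b ^ l * a ^ k' = a ^ k' * b ^ l := ((hab.pow_pow k' l).symm).eq
  have e3 : c ^ m * b ^ l' = b ^ l' * c ^ m := ((hbc.pow_pow l' m).symm).eq
  calc (a ^ k * b ^ l * c ^ m) * (a ^ k' * b ^ l' * c ^ m')
      = a ^ k * b ^ l * (c ^ m * a ^ k') * (b ^ l' * c ^ m') := by simp only [mul_assoc]
    _ = a ^ k * (b ^ l * a ^ k') * (c ^ m * b ^ l') * c ^ m' := by
        rw [e1]; simp only [mul_assoc]
    _ = a ^ k * a ^ k' * (b ^ l * b ^ l') * (c ^ m * c ^ m') := by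
        rw [e2, e3]; simp only [mul_assoc]
    _ = _ := by simp only [pow_add]

theorem conj_pow_eq {P : Type*} [Group P] (g a t : P) (hg : g * a * g⁻¹ = t * a)
    (hgt : g * t = t * g) (n : ℕ) : g ^ n * a * (g ^ n)⁻¹ = t ^ n * a := by
  induction n with
  | zero => simp
  | succ n ih =>
    have e0 : g ^ (n + 1) * a * (g ^ (n + 1))⁻¹ = g * (g ^ n * a * (g ^ n)⁻¹) * g⁻¹ := by
      rw [pow_succ']; group
    have hc : g * t ^ n = t ^ n * g := (Commute.pow_right (show Commute g t from hgt) n).eq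
    rw [e0, ih]
    calc g * (t ^ n * a) * g⁻¹ = (g * t ^ n) * a * g⁻¹ := by simp only [mul_assoc]
      _ = t ^ n * (g * a * g⁻¹) := by rw [hc]; simp only [mul_assoc]
      _ = t ^ (n + 1) * a := by rw [hg, pow_succ]; simp only [mul_assoc]

theorem card_aux {P : Type v} [Group P] [Finite P] (x y a t₁ t₂ : P)
    (hgen : Subgroup.closure ({x, y} : Set P) = ⊤)
    (ha : a = ⁅x, y⁆) (ht1 : t₁ = ⁅x, a⁆) (ht2 : t₂ = ⁅y, a⁆)
    (h1 : x * t₁ = t₁ * x) (h2 : y * t₁ = t₁ * y) (h3 : x * t₂ = t₂ * x) (h4 : y * t₂ = t₂ * y)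
    (hx3 : ∃ i j k : ℕ, x ^ 3 = a ^ i * t₁ ^ j * t₂ ^ k)
    (hy3 : ∃ i j k : ℕ, y ^ 3 = a ^ i * t₁ ^ j * t₂ ^ k)
    (ha3 : a ^ 3 = 1) (ht13 : t₁ ^ 3 = 1) (ht23 : t₂ ^ 3 = 1)
    (hind : ∀ i j k : ℕ, i < 3 → j < 3 → k < 3 → a ^ i * t₁ ^ j * t₂ ^ k = 1 →
      i = 0 ∧ j = 0 ∧ k = 0) :
    Nat.card P = 243 := by
  -- centrality of t₁, t₂
  have hcen : ∀ t : P, x * t = t * x → y * t = t * y → ∀ g : P, g * t = t * g := by
    intro t hxt hyt g
    have hle : Subgroup.closure ({x, y} : Set P) ≤ Subgroup.centralizer {t} := by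
      rw [Subgroup.closure_le]
      intro z hz
      rcases hz with hz | hz
      · rw [hz]
        exact Subgroup.mem_centralizer_iff.mpr (fun h hh => by
          rw [Set.mem_singleton_iff] at hh; rw [hh]; exact hxt.symm)
      · rw [Set.mem_singleton_iff] at hz
        rw [hz]
        exact Subgroup.mem_centralizer_iff.mpr (fun h hh => by
          rw [Set.mem_singleton_iff] at hh; rw [hh]; exact hyt.symm)
    have hg : g ∈ Subgroup.centralizer ({t} : Set P) := hle (by rw [hgen]; trivial)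
    exact ((Subgroup.mem_centralizer_iff.mp hg) t rfl).symm
  have hc1 := hcen t₁ h1 h2
  have hc2 := hcen t₂ h3 h4
  have cat1 : Commute a t₁ := hc1 a
  have cat2 : Commute a t₂ := hc2 a
  have ct12 : Commute t₁ t₂ := hc2 t₁
  -- relations
  have hxa : x * a * x⁻¹ = t₁ * a := by rw [ht1, commutatorElement_def]; group
  have hya : y * a * y⁻¹ = t₂ * a := by rw [ht2, commutatorElement_def]; group
  have hxy : x * y = a * y * x := by rw [ha, commutatorElement_def]; group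
  -- normal forms in D
  have hDform : ∀ d ∈ Subgroup.closure ({a, t₁, t₂} : Set P),
      ∃ k l m : ℕ, d = a ^ k * t₁ ^ l * t₂ ^ m := by
    intro d hd
    induction hd using Subgroup.closure_induction with
    | mem z hz =>
      simp only [Set.mem_insert_iff, Set.mem_singleton_iff] at hz
      rcases hz with hz | hz | hz
      · exact ⟨1, 0, 0, by simp [hz]⟩
      · exact ⟨0, 1, 0, by simp [hz]⟩
      · exact ⟨0, 0, 1, by simp [hz]⟩
    | one => exact ⟨0, 0, 0, by simp⟩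
    | mul u w _ _ hu hw =>
      obtain ⟨k, l, m, hu⟩ := hu
      obtain ⟨k', l', m', hw⟩ := hw
      exact ⟨k + k', l + l', m + m', by rw [hu, hw, nf_mul a t₁ t₂ cat1 cat2 ct12]⟩
    | inv u _ hu =>
      obtain ⟨k, l, m, hu⟩ := hu
      refine ⟨2 * k, 2 * l, 2 * m, ?_⟩
      rw [hu]
      apply inv_eq_of_mul_eq_one_right
      rw [nf_mul a t₁ t₂ cat1 cat2 ct12, pow_three_mul a ha3, pow_three_mul t₁ ht13,
        pow_three_mul t₂ ht23]
      simp
  obtain ⟨D, hD⟩ : ∃ D : Subgroup P, D = Subgroup.closure ({a, t₁, t₂} : Set P) := ⟨_, rfl⟩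
  rw [← hD] at hDform
  have haD : a ∈ D := by rw [hD]; exact Subgroup.subset_closure (by simp)
  have ht1D : t₁ ∈ D := by rw [hD]; exact Subgroup.subset_closure (by simp)
  have ht2D : t₂ ∈ D := by rw [hD]; exact Subgroup.subset_closure (by simp)
  have hnfD : ∀ k l m : ℕ, a ^ k * t₁ ^ l * t₂ ^ m ∈ D := fun k l m =>
    D.mul_mem (D.mul_mem (D.pow_mem haD k) (D.pow_mem ht1D l)) (D.pow_mem ht2D m)
  -- injectivity of normal forms
  have hinj : ∀ k l m k' l' m' : ℕ, k < 3 → l < 3 → m < 3 → k' < 3 → l' < 3 → m' < 3 →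
      a ^ k * t₁ ^ l * t₂ ^ m = a ^ k' * t₁ ^ l' * t₂ ^ m' → k = k' ∧ l = l' ∧ m = m' := by
    intro k l m k' l' m' hk hl hm hk' hl' hm' he
    have e1 : a ^ (k + 2 * k') * t₁ ^ (l + 2 * l') * t₂ ^ (m + 2 * m') = 1 := by
      rw [← nf_mul a t₁ t₂ cat1 cat2 ct12, he, nf_mul a t₁ t₂ cat1 cat2 ct12,
        pow_three_mul a ha3, pow_three_mul t₁ ht13, pow_three_mul t₂ ht23]
      simp
    rw [pow_mod3 a ha3, pow_mod3 t₁ ht13, pow_mod3 t₂ ht23] at e1
    obtain ⟨q1, q2, q3⟩ := hind _ _ _ (Nat.mod_lt _ (by norm_num)) (Nat.mod_lt _ (by norm_num))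
      (Nat.mod_lt _ (by norm_num)) e1
    omega
  -- elements of D commute with a
  have hDa : ∀ d ∈ D, d * a * d⁻¹ = a := by
    intro d hd
    obtain ⟨k, l, m, rfl⟩ := hDform d hd
    have e : (a ^ k * t₁ ^ l * t₂ ^ m) * a = a * (a ^ k * t₁ ^ l * t₂ ^ m) := by
      have := nf_mul a t₁ t₂ cat1 cat2 ct12 k l m 1 0 0
      have := nf_mul a t₁ t₂ cat1 cat2 ct12 1 0 0 k l m
      simp only [pow_one, pow_zero, mul_one, add_zero, zero_add] at *
      rw [‹(a ^ k * t₁ ^ l * t₂ ^ m) * a = _›, ‹a * (a ^ k * t₁ ^ l * t₂ ^ m) = _›, add_comm]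
    rw [e]; group
  -- D is normal
  have hDnorm : D.Normal := by
    rw [← Subgroup.normalizer_eq_top_iff, eq_top_iff, ← hgen, Subgroup.closure_le]
    have key : ∀ g : P, g * a * g⁻¹ ∈ D → g ∈ Subgroup.normalizer (D : Set P) := by
      intro g hg
      apply Subgroup.mem_normalizer_fintype
      intro n hn
      have hle : D ≤ D.comap (MulAut.conj g).toMonoidHom := by
        rw [hD, Subgroup.closure_le, ← hD]
        intro w hw
        simp only [Set.mem_insert_iff, Set.mem_singleton_iff] at hw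
        rcases hw with hw | hw | hw
        · rw [hw]; simpa using hg
        · rw [hw]
          have : g * t₁ * g⁻¹ = t₁ := by rw [hc1 g]; group
          simpa [this] using ht1D
        · rw [hw]
          have : g * t₂ * g⁻¹ = t₂ := by rw [hc2 g]; group
          simpa [this] using ht2D
      have := hle hn
      simpa using this
    intro z hz
    rcases hz with hz | hz
    · rw [hz]; exact key _ (by rw [hxa]; exact D.mul_mem ht1D haD)
    · rw [Set.mem_singleton_iff] at hz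
      rw [hz]; exact key _ (by rw [hya]; exact D.mul_mem ht2D haD)
  have := hDnorm
  have hcard := Subgroup.card_eq_card_quotient_mul_card_subgroup D
  -- |D| = 27
  have hD27 : Nat.card D = 27 := by
    have hbij : Function.Bijective (fun p : Fin 3 × Fin 3 × Fin 3 =>
        (⟨a ^ (p.1 : ℕ) * t₁ ^ (p.2.1 : ℕ) * t₂ ^ (p.2.2 : ℕ), hnfD _ _ _⟩ : D)) := by
      constructor
      · rintro ⟨k, l, m⟩ ⟨k', l', m'⟩ h
        have h' := congrArg Subtype.val h
        simp only at h'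
        obtain ⟨e1, e2, e3⟩ := hinj _ _ _ _ _ _ k.2 l.2 m.2 k'.2 l'.2 m'.2 h'
        simp only [Prod.mk.injEq]
        exact ⟨Fin.ext e1, Fin.ext e2, Fin.ext e3⟩
      · rintro ⟨d, hd⟩
        obtain ⟨k, l, m, rfl⟩ := hDform d hd
        refine ⟨(⟨k % 3, Nat.mod_lt _ (by norm_num)⟩, ⟨l % 3, Nat.mod_lt _ (by norm_num)⟩,
          ⟨m % 3, Nat.mod_lt _ (by norm_num)⟩), ?_⟩
        apply Subtype.ext
        simp only
        rw [← pow_mod3 a ha3, ← pow_mod3 t₁ ht13, ← pow_mod3 t₂ ht23]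
    rw [← Nat.card_eq_of_bijective _ hbij]
    simp
  -- |P/D| = 9
  have hQ9 : Nat.card (P ⧸ D) = 9 := by
    obtain ⟨π, hπ⟩ : ∃ π : P →* P ⧸ D, π = QuotientGroup.mk' D := ⟨_, rfl⟩
    have hπD : ∀ g : P, π g = 1 ↔ g ∈ D := by
      intro g; rw [hπ]; exact QuotientGroup.eq_one_iff g
    have hπa : π a = 1 := (hπD a).mpr haD
    have hcomm : Commute (π x) (π y) := by
      show π x * π y = π y * π x
      rw [← map_mul, hxy, map_mul, map_mul, hπa, one_mul]
    have hX3 : (π x) ^ 3 = 1 := by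
      rw [← map_pow]
      obtain ⟨i, j, k, e⟩ := hx3
      rw [e]; exact (hπD _).mpr (hnfD i j k)
    have hY3 : (π y) ^ 3 = 1 := by
      rw [← map_pow]
      obtain ⟨i, j, k, e⟩ := hy3
      rw [e]; exact (hπD _).mpr (hnfD i j k)
    have nf2 : ∀ i j i' j' : ℕ, (π x ^ i * π y ^ j) * (π x ^ i' * π y ^ j')
        = π x ^ (i + i') * π y ^ (j + j') := by
      intro i j i' j'
      have := nf_mul (π x) (π y) 1 hcomm (Commute.one_right _) (Commute.one_right _) i j 0 i' j' 0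
      simpa using this
    have hform : ∀ g : P, ∃ i j : ℕ, π g = π x ^ i * π y ^ j := by
      intro g
      have hg : g ∈ Subgroup.closure ({x, y} : Set P) := by rw [hgen]; trivial
      induction hg using Subgroup.closure_induction with
      | mem z hz =>
        rcases hz with hz | hz
        · exact ⟨1, 0, by simp [hz]⟩
        · rw [Set.mem_singleton_iff] at hz
          exact ⟨0, 1, by simp [hz]⟩
      | one => exact ⟨0, 0, by simp⟩
      | mul u w _ _ hu hw =>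
        obtain ⟨i, j, e⟩ := hu
        obtain ⟨i', j', e'⟩ := hw
        exact ⟨i + i', j + j', by rw [map_mul, e, e', nf2]⟩
      | inv u _ hu =>
        obtain ⟨i, j, e⟩ := hu
        refine ⟨2 * i, 2 * j, ?_⟩
        rw [map_inv, e]
        apply inv_eq_of_mul_eq_one_right
        rw [nf2, pow_three_mul _ hX3, pow_three_mul _ hY3, one_mul]
    -- conjugation formula
    have cf : ∀ i j : ℕ, (x ^ i * y ^ j) * a * (x ^ i * y ^ j)⁻¹ = t₁ ^ i * t₂ ^ j * a := by
      intro i j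
      have e0 : (x ^ i * y ^ j) * a * (x ^ i * y ^ j)⁻¹
          = x ^ i * (y ^ j * a * (y ^ j)⁻¹) * (x ^ i)⁻¹ := by group
      have hc : x ^ i * t₂ ^ j = t₂ ^ j * x ^ i := hc2 (x ^ i) |> fun h =>
        (Commute.pow_right (show Commute (x ^ i) t₂ from h) j).eq
      rw [e0, conj_pow_eq y a t₂ hya h4 j]
      calc x ^ i * (t₂ ^ j * a) * (x ^ i)⁻¹ = (x ^ i * t₂ ^ j) * a * (x ^ i)⁻¹ := by
            simp only [mul_assoc]
        _ = t₂ ^ j * (x ^ i * a * (x ^ i)⁻¹) := by rw [hc]; simp only [mul_assoc]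
        _ = t₂ ^ j * (t₁ ^ i * a) := by rw [conj_pow_eq x a t₁ hxa h1 i]
        _ = t₁ ^ i * t₂ ^ j * a := by
            rw [← mul_assoc, ((ct12.pow_pow i j).symm).eq]
    have hbij : Function.Bijective (fun p : Fin 3 × Fin 3 => π x ^ (p.1 : ℕ) * π y ^ (p.2 : ℕ)) := by
      constructor
      · rintro ⟨i, j⟩ ⟨i', j'⟩ h
        simp only at h
        have h' : π (x ^ (i : ℕ) * y ^ (j : ℕ)) = π (x ^ (i' : ℕ) * y ^ (j' : ℕ)) := by
          simpa [map_mul, map_pow] using h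
        have h'' : (x ^ (i : ℕ) * y ^ (j : ℕ))⁻¹ * (x ^ (i' : ℕ) * y ^ (j' : ℕ)) ∈ D := by
          rw [← hπD, map_mul, map_inv, h', inv_mul_cancel]
        have h3' := hDa _ h''
        have e1 : (x ^ (i' : ℕ) * y ^ (j' : ℕ)) * a * (x ^ (i' : ℕ) * y ^ (j' : ℕ))⁻¹
            = (x ^ (i : ℕ) * y ^ (j : ℕ)) * a * (x ^ (i : ℕ) * y ^ (j : ℕ))⁻¹ := by
          have : (x ^ (i' : ℕ) * y ^ (j' : ℕ)) * a * (x ^ (i' : ℕ) * y ^ (j' : ℕ))⁻¹
              = (x ^ (i : ℕ) * y ^ (j : ℕ)) * (((x ^ (i : ℕ) * y ^ (j : ℕ))⁻¹ *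
                (x ^ (i' : ℕ) * y ^ (j' : ℕ))) * a * ((x ^ (i : ℕ) * y ^ (j : ℕ))⁻¹ *
                (x ^ (i' : ℕ) * y ^ (j' : ℕ)))⁻¹) * (x ^ (i : ℕ) * y ^ (j : ℕ))⁻¹ := by group
          rw [this, h3']
        rw [cf, cf] at e1
        have e2 : a ^ 0 * t₁ ^ (i' : ℕ) * t₂ ^ (j' : ℕ) = a ^ 0 * t₁ ^ (i : ℕ) * t₂ ^ (j : ℕ) := by
          simpa using e1
        obtain ⟨-, q2, q3⟩ := hinj _ _ _ _ _ _ (by norm_num) i'.2 j'.2 (by norm_num) i.2 j.2 e2
        simp only [Prod.mk.injEq]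
        exact ⟨Fin.ext q2.symm, Fin.ext q3.symm⟩
      · intro q
        obtain ⟨g, rfl⟩ := QuotientGroup.mk_surjective q
        obtain ⟨i, j, e⟩ := hform g
        refine ⟨(⟨i % 3, Nat.mod_lt _ (by norm_num)⟩, ⟨j % 3, Nat.mod_lt _ (by norm_num)⟩), ?_⟩
        simp only
        rw [← pow_mod3 _ hX3, ← pow_mod3 _ hY3, ← e, hπ]
        rfl
    rw [← Nat.card_eq_of_bijective _ hbij]
    simp
  rw [hcard, hQ9, hD27]

theorem card_closure_pair {G : Type v} [Group G] [Finite G] (x y a t₁ t₂ : G)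
    (ha : a = ⁅x, y⁆) (ht1 : t₁ = ⁅x, a⁆) (ht2 : t₂ = ⁅y, a⁆)
    (h1 : x * t₁ = t₁ * x) (h2 : y * t₁ = t₁ * y) (h3 : x * t₂ = t₂ * x) (h4 : y * t₂ = t₂ * y)
    (hx3 : ∃ i j k : ℕ, x ^ 3 = a ^ i * t₁ ^ j * t₂ ^ k)
    (hy3 : ∃ i j k : ℕ, y ^ 3 = a ^ i * t₁ ^ j * t₂ ^ k)
    (ha3 : a ^ 3 = 1) (ht13 : t₁ ^ 3 = 1) (ht23 : t₂ ^ 3 = 1)
    (hind : ∀ i j k : ℕ, i < 3 → j < 3 → k < 3 → a ^ i * t₁ ^ j * t₂ ^ k = 1 →
      i = 0 ∧ j = 0 ∧ k = 0) :
    Nat.card ↥(Subgroup.closure ({x, y} : Set G)) = 243 := by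
  have hxP : x ∈ Subgroup.closure ({x, y} : Set G) := Subgroup.subset_closure (by simp)
  have hyP : y ∈ Subgroup.closure ({x, y} : Set G) := Subgroup.subset_closure (by simp)
  have haP : a ∈ Subgroup.closure ({x, y} : Set G) := by
    rw [ha, commutatorElement_def]
    exact mul_mem (mul_mem (mul_mem hxP hyP) (inv_mem hxP)) (inv_mem hyP)
  have ht1P : t₁ ∈ Subgroup.closure ({x, y} : Set G) := by
    rw [ht1, commutatorElement_def]
    exact mul_mem (mul_mem (mul_mem hxP haP) (inv_mem hxP)) (inv_mem haP)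
  have ht2P : t₂ ∈ Subgroup.closure ({x, y} : Set G) := by
    rw [ht2, commutatorElement_def]
    exact mul_mem (mul_mem (mul_mem hyP haP) (inv_mem hyP)) (inv_mem haP)
  refine card_aux (⟨x, hxP⟩ : Subgroup.closure ({x, y} : Set G)) ⟨y, hyP⟩ ⟨a, haP⟩ ⟨t₁, ht1P⟩
    ⟨t₂, ht2P⟩ ?_ ?_ ?_ ?_ ?_ ?_ ?_ ?_ ?_ ?_ ?_ ?_ ?_ ?_
  · have := Subgroup.closure_closure_coe_preimage (k := ({x, y} : Set G))
    convert this using 2
    ext ⟨z, hz⟩
    simp [Subtype.ext_iff]
  · apply Subtype.ext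
    rw [commutatorElement_def]
    simpa [commutatorElement_def] using ha
  · apply Subtype.ext
    rw [commutatorElement_def]
    simpa [commutatorElement_def] using ht1
  · apply Subtype.ext
    rw [commutatorElement_def]
    simpa [commutatorElement_def] using ht2
  · exact Subtype.ext (by simpa using h1)
  · exact Subtype.ext (by simpa using h2)
  · exact Subtype.ext (by simpa using h3)
  · exact Subtype.ext (by simpa using h4)
  · obtain ⟨i, j, k, e⟩ := hx3
    exact ⟨i, j, k, Subtype.ext (by simpa using e)⟩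
  · obtain ⟨i, j, k, e⟩ := hy3
    exact ⟨i, j, k, Subtype.ext (by simpa using e)⟩
  · exact Subtype.ext (by simpa using ha3)
  · exact Subtype.ext (by simpa using ht13)
  · exact Subtype.ext (by simpa using ht23)
  · intro i j k hi hj hk e
    exact hind i j k hi hj hk (by simpa using congrArg Subtype.val e)

end Cfsg.Agent.Lib.Helper63.J3MIDX3
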