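import Mathlib
import Cfsg.Agent.Lib.Helper22.HPDefs
import Cfsg.Agent.Lib.Helper22.HPDefs2

/-!
S4504 piece HP-STAR-VAN (helper22): `χ` vanishes on `N_G(⟨z⟩) ∖ C_G(z)`.
-/

set_option autoImplicit false
set_option linter.style.haveILetI false

namespace Cfsg.Agent.Lib.Helper63.HPT

open Cfsg Cfsg.Agent.Lib.Helper22.BFD Cfsg.Agent.Lib.Helper22.HPD
open scoped ComplexConjugate

universe u

open Classical in
/-- a sum over `ZMod p` of values at the powers of `z` is a sum over `⟨z⟩` -/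
private theorem sum_zmod_eq {G : Type u} [Group G] [Fintype G] (p : ℕ) [Fact p.Prime] (z : G)
    (hz : orderOf z = p) (g : G → ℂ) :
    ∑ t : ZMod p, g (z ^ t.val) = ∑ c : ↥(Subgroup.zpowers z), g (c : G) := by
  let e : ZMod p → ↥(Subgroup.zpowers z) := fun t => ⟨z ^ t.val, Subgroup.npow_mem_zpowers z _⟩
  have hinj : Function.Injective e := by
    intro a b hab
    have h1 : z ^ a.val = z ^ b.val := congrArg Subtype.val hab
    have h2 : a.val = b.val := by
      have ha : a.val < orderOf z := hz ▸ ZMod.val_lt a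
      have hb : b.val < orderOf z := hz ▸ ZMod.val_lt b
      exact pow_injOn_Iio_orderOf (Set.mem_Iio.2 ha) (Set.mem_Iio.2 hb) h1
    exact ZMod.val_injective p h2
  have hbij : Function.Bijective e := by
    rw [Fintype.bijective_iff_injective_and_card]
    refine ⟨hinj, ?_⟩
    rw [ZMod.card, Fintype.card_zpowers, hz]
  exact Fintype.sum_bijective e hbij _ _ (fun t => rfl)

/-- the Gauss periods sum to zero -/
private theorem sum_eta (p : ℕ) [Fact p.Prime] (ζ : ℂ) (hζ : IsPrimitiveRoot ζ p) :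
    ∑ t : ZMod p, eta p ζ t = 0 := by
  have hp := (Fact.out : p.Prime)
  unfold eta
  rw [Finset.sum_comm]
  refine Finset.sum_eq_zero (fun a ha => ?_)
  have ha0 : a ≠ 0 := by
    unfold Sq at ha
    exact (Finset.mem_filter.1 ha).2.1
  have h1 : ∑ t : ZMod p, ζ ^ (a * t).val = ∑ s : ZMod p, ζ ^ s.val :=
    Fintype.sum_bijective (fun t => a * t) (mulLeft_bijective₀ a ha0) _ _ (fun t => rfl)
  rw [h1]
  have h2 : ∑ s : ZMod p, ζ ^ s.val = ∑ i ∈ Finset.range p, ζ ^ i := by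
    haveI : NeZero p := ⟨hp.ne_zero⟩
    rw [← Fin.sum_univ_eq_sum_range (fun i => ζ ^ i) p]
    exact Fintype.sum_bijective (fun s : ZMod p => (⟨s.val, ZMod.val_lt s⟩ : Fin p))
      ⟨fun a b hab => ZMod.val_injective p (by simpa using congrArg Fin.val hab),
        fun i => ⟨(i.val : ZMod p), by ext; simp [ZMod.val_natCast, Nat.mod_eq_of_lt i.isLt]⟩⟩
      _ _ (fun s => rfl)
  rw [h2]
  exact hζ.geom_sum_eq_zero hp.one_lt

/-- PIECE VAN: `χ` vanishes on `N_G(⟨z⟩) ∖ C_G(z)` -/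
theorem hp_van {G : Type u} [Group G] [Fintype G] (p : ℕ) [Fact p.Prime]
    (χ : IrrCharacter G) (z : G) (ζ : ℂ) (hHP : HP p ζ z χ.1) (n : G)
    (hn : n ∈ Subgroup.normalizer ((Subgroup.zpowers z : Subgroup G) : Set G))
    (hnc : n * z ≠ z * n) : χ.1 n = 0 := by
  classical
  obtain ⟨d, ρ, -, hρ⟩ := χ.2
  have hp := (Fact.out : p.Prime)
  have hcardZ : Nat.card ↥(Subgroup.zpowers z) = p := by rw [Nat.card_zpowers, hHP.hz]
  have hcardZ' : Fintype.card ↥(Subgroup.zpowers z) = p := by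
    rw [← Nat.card_eq_fintype_card]; exact hcardZ
  -- the map `c ↦ n⁻¹ c n c⁻¹` of `⟨z⟩`
  have hn' : n⁻¹ ∈ Subgroup.normalizer ((Subgroup.zpowers z : Subgroup G) : Set G) :=
    inv_mem hn
  have hconj : ∀ c : ↥(Subgroup.zpowers z), n⁻¹ * (c : G) * n * (c : G)⁻¹ ∈ Subgroup.zpowers z := by
    intro c
    have h1 : n⁻¹ * (c : G) * n⁻¹⁻¹ ∈ Subgroup.zpowers z :=
      (Subgroup.mem_normalizer_iff.1 hn' (c : G)).1 c.2
    rw [inv_inv] at h1
    exact mul_mem h1 (inv_mem c.2)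
  obtain ⟨f, hf⟩ : ∃ f : ↥(Subgroup.zpowers z) → ↥(Subgroup.zpowers z),
      ∀ c, (f c : G) = n⁻¹ * (c : G) * n * (c : G)⁻¹ := ⟨fun c => ⟨_, hconj c⟩, fun c => rfl⟩
  have hfinj : Function.Injective f := by
    intro c c' hcc
    by_contra hne
    have h1 : n⁻¹ * (c : G) * n * (c : G)⁻¹ = n⁻¹ * (c' : G) * n * (c' : G)⁻¹ := by
      rw [← hf, ← hf, hcc]
    -- `c'⁻¹ c` commutes with `n`
    have h2 : ((c'⁻¹ * c : ↥(Subgroup.zpowers z)) : G) * n = n * ((c'⁻¹ * c : ↥(Subgroup.zpowers z)) : G) := by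
      have h3 : (c : G) * n * (c : G)⁻¹ = (c' : G) * n * (c' : G)⁻¹ := by
        have := congrArg (fun x => n * x) h1
        simpa [mul_assoc] using this
      have h4 : (c' : G)⁻¹ * ((c : G) * n * (c : G)⁻¹) * (c : G) = (c' : G)⁻¹ * ((c' : G) * n * (c' : G)⁻¹) * (c : G) := by
        rw [h3]
      simp only [Subgroup.coe_mul, Subgroup.coe_inv]
      simpa [mul_assoc] using h4
    have hne1 : (c'⁻¹ * c : ↥(Subgroup.zpowers z)) ≠ 1 := by
      intro h
      apply hne
      have := congrArg (fun x => c' * x) h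
      simpa using this
    have hgen : (⟨z, Subgroup.mem_zpowers z⟩ : ↥(Subgroup.zpowers z)) ∈
        Subgroup.zpowers (c'⁻¹ * c : ↥(Subgroup.zpowers z)) :=
      mem_zpowers_of_prime_card hcardZ hne1
    obtain ⟨a, ha⟩ := Subgroup.mem_zpowers_iff.1 hgen
    have ha' : ((c'⁻¹ * c : ↥(Subgroup.zpowers z)) : G) ^ a = z := by
      have := congrArg Subtype.val ha
      simpa using this
    apply hnc
    rw [← ha']
    exact ((Commute.zpow_left (show Commute ((c'⁻¹ * c : ↥(Subgroup.zpowers z)) : G) n from h2) a).eq).symm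
  have hfbij : Function.Bijective f := Finite.injective_iff_bijective.1 hfinj
  -- the sum of `χ (n c)` over `⟨z⟩`
  have hsum1 : ∑ c : ↥(Subgroup.zpowers z), χ.1 (n * (c : G)) = (p : ℂ) * χ.1 n := by
    rw [← Fintype.sum_bijective f hfbij (fun c => χ.1 (n * ((f c : ↥(Subgroup.zpowers z)) : G)))
      (fun c => χ.1 (n * (c : G))) (fun c => rfl)]
    have h1 : ∀ c : ↥(Subgroup.zpowers z), χ.1 (n * ((f c : ↥(Subgroup.zpowers z)) : G)) = χ.1 n := by
      intro c
      have e : n * ((f c : ↥(Subgroup.zpowers z)) : G) = (c : G) * n * (c : G)⁻¹ := by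
        rw [hf]; group
      rw [e, ← hρ]
      exact ρ.char_conj n (c : G)
    rw [Finset.sum_congr rfl (fun c _ => h1 c), Finset.sum_const, Finset.card_univ, hcardZ',
      nsmul_eq_mul]
  -- the averaging operator
  obtain ⟨S, hS⟩ : ∃ S : Module.End ℂ (Fin d → ℂ), S = ∑ c : ↥(Subgroup.zpowers z), ρ (c : G) :=
    ⟨_, rfl⟩
  have hS1 : ∀ c : ↥(Subgroup.zpowers z), ρ (c : G) * S = S := by
    intro c
    rw [hS, Finset.mul_sum]
    simp only [← map_mul]
    exact Fintype.sum_bijective (fun x => c * x) (Group.mulLeft_bijective c) _ _ (fun x => rfl)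
  have hSS : S * S = (p : ℂ) • S := by
    have h1 : S * S = ∑ c : ↥(Subgroup.zpowers z), ρ (c : G) * S := by
      conv_lhs => rw [hS, Finset.sum_mul]
      rw [← hS]
    rw [h1, Finset.sum_congr rfl (fun c _ => hS1 c), Finset.sum_const, Finset.card_univ, hcardZ',
      ← Nat.cast_smul_eq_nsmul ℂ]
  have htr : LinearMap.trace ℂ (Fin d → ℂ) S = 0 := by
    rw [hS, map_sum]
    have h1 : ∀ c : ↥(Subgroup.zpowers z), LinearMap.trace ℂ (Fin d → ℂ) (ρ (c : G)) = χ.1 (c : G) := by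
      intro c
      rw [← hρ]; rfl
    rw [Finset.sum_congr rfl (fun c _ => h1 c), ← sum_zmod_eq p z hHP.hz χ.1]
    simp only [hHP.hval]
    exact sum_eta p ζ hHP.hζ
  have hp0 : (p : ℂ) ≠ 0 := Nat.cast_ne_zero.2 hp.ne_zero
  have hS0 : S = 0 := by
    have hidem : IsIdempotentElem ((p : ℂ)⁻¹ • S) := by
      unfold IsIdempotentElem
      rw [smul_mul_smul_comm, hSS, smul_smul, mul_assoc, inv_mul_cancel₀ hp0, mul_one]
    have h0 : (p : ℂ)⁻¹ • S = 0 := by
      apply LinearMap.IsIdempotentElem.eq_zero_of_trace_eq_zero hidem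
      rw [map_smul, htr, smul_zero]
    have := congrArg (fun T => (p : ℂ) • T) h0
    simpa [smul_smul, hp0] using this
  have hfinal : ∑ c : ↥(Subgroup.zpowers z), χ.1 (n * (c : G)) =
      LinearMap.trace ℂ (Fin d → ℂ) (ρ n * S) := by
    rw [hS, Finset.mul_sum, map_sum]
    refine Finset.sum_congr rfl (fun c _ => ?_)
    rw [← map_mul, ← hρ]; rfl
  rw [hsum1, hS0, mul_zero, map_zero] at hfinal
  exact (mul_eq_zero.1 hfinal).resolve_left hp0

end Cfsg.Agent.Lib.Helper63.HPT
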