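import Mathlib

set_option autoImplicit false

universe u

namespace Cfsg.Agent.Lib.Helper63

open scoped commutatorElement

theorem comb_units_two :
    ∀ e₁ e₂ : ℤˣ, (-1 : ℤˣ) = (-1 * e₁) * (e₂ * -1) → e₁ * e₂ = -1 := by decide

theorem comb_units_three :
    ∀ e₁ e₂ e₃ : ℤˣ, e₂ * e₃ = -1 → e₃ * e₁ = -1 → e₁ * e₂ = -1 → False := by decide

theorem comb_comm_left {H : Type u} [Group H] (g a b : H) (hga : Commute g a)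
    (hgb : Commute g b) : ⁅g * a, b⁆ = ⁅a, b⁆ := by
  have hc : Commute g (a * b * a⁻¹) := (hga.mul_right hgb).mul_right hga.inv_right
  rw [commutatorElement_def, commutatorElement_def]
  calc g * a * b * (g * a)⁻¹ * b⁻¹ = g * (a * b * a⁻¹) * g⁻¹ * b⁻¹ := by group
    _ = (a * b * a⁻¹) * g * g⁻¹ * b⁻¹ := by rw [hc.eq]
    _ = a * b * a⁻¹ * b⁻¹ := by group

theorem comb_comm_right {H : Type u} [Group H] (g a b : H) (hga : Commute g a)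
    (hgb : Commute g b) : ⁅a, g * b⁆ = ⁅a, b⁆ := by
  have hc : Commute g (a * b * a⁻¹ * b⁻¹) :=
    ((hga.mul_right hgb).mul_right hga.inv_right).mul_right hgb.inv_right
  rw [commutatorElement_def, commutatorElement_def]
  calc a * (g * b) * a⁻¹ * (g * b)⁻¹ = (a * g) * b * a⁻¹ * b⁻¹ * g⁻¹ := by group
    _ = (g * a) * b * a⁻¹ * b⁻¹ * g⁻¹ := by rw [hga.eq]
    _ = g * (a * b * a⁻¹ * b⁻¹) * g⁻¹ := by group
    _ = (a * b * a⁻¹ * b⁻¹) * g * g⁻¹ := by rw [hc.eq]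
    _ = a * b * a⁻¹ * b⁻¹ := by group

/-- S3789 piece COMB. -/
theorem comb_contra {H : Type u} [Group H] (R Q₀ : Subgroup H) (x : H)
    (hxRR : x ∈ ⁅R, R⁆) (hxc : ∀ r ∈ R, r * x = x * r) (hx3 : x ^ 3 = 1)
    (hRQ : ∀ r ∈ R, ∀ u ∈ Q₀, r * u * r⁻¹ ∈ Q₀)
    (ε : H → H → ℤˣ)
    (hmul : ∀ a ∈ Q₀, ∀ b ∈ Q₀, ∀ u ∈ Q₀, ε (a * b) u = ε a u * ε b u)
    (hsymm : ∀ a ∈ Q₀, ∀ b ∈ Q₀, ε a b = ε b a)
    (hself : ∀ a ∈ Q₀, ε a a = 1)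
    (hinv : ∀ r ∈ R, ∀ a ∈ Q₀, ∀ b ∈ Q₀, ε (r * a * r⁻¹) (r * b * r⁻¹) = ε a b)
    (hA : ∀ q ∈ Q₀, ε q (x * q * x⁻¹) = 1 → ∀ u ∈ Q₀, ε q u = 1)
    (hne : ∃ a ∈ Q₀, ∃ b ∈ Q₀, ε a b ≠ 1) : False := by
  have hxR : x ∈ R := Subgroup.commutator_le_self R hxRR
  have hxiR : x⁻¹ ∈ R := R.inv_mem hxR
  have hxx : x * x = x⁻¹ := by
    apply eq_inv_of_mul_eq_one_left
    rw [← hx3, pow_succ, pow_two]
  have hxixi : x⁻¹ * x⁻¹ = x := by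
    have h1 := congrArg (fun t => t⁻¹) hxx
    simpa [mul_inv_rev] using h1
  have hsq : ∀ e : ℤˣ, e * e = 1 := Int.units_mul_self
  have hci : ∀ r ∈ R, ∀ a ∈ Q₀, r⁻¹ * a * r ∈ Q₀ := by
    intro r hr a ha
    simpa using hRQ r⁻¹ (R.inv_mem hr) a ha
  have hmulr : ∀ w ∈ Q₀, ∀ a ∈ Q₀, ∀ b ∈ Q₀, ε w (a * b) = ε w a * ε w b := by
    intro w hw a ha b hb
    rw [hsymm w hw (a * b) (Q₀.mul_mem ha hb), hmul a ha b hb w hw, hsymm a ha w hw,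
      hsymm b hb w hw]
  have hmove : ∀ r ∈ R, ∀ a ∈ Q₀, ∀ w ∈ Q₀, ε (r * a * r⁻¹) w = ε a (r⁻¹ * w * r) := by
    intro r hr a ha w hw
    have h1 := hinv r hr a ha (r⁻¹ * w * r) (hci r hr w hw)
    have h2 : r * (r⁻¹ * w * r) * r⁻¹ = w := by group
    rw [h2] at h1
    exact h1
  have hmove' : ∀ r ∈ R, ∀ a ∈ Q₀, ∀ w ∈ Q₀, ε (r⁻¹ * a * r) w = ε a (r * w * r⁻¹) := by
    intro r hr a ha w hw
    have h1 := hinv r hr (r⁻¹ * a * r) (hci r hr a ha) w hw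
    have h2 : r * (r⁻¹ * a * r) * r⁻¹ = a := by group
    rw [h2] at h1
    exact h1.symm
  obtain ⟨q, hq, u₀, hu₀, hqu₀⟩ := hne
  have hZconj : ∀ r ∈ R, ∀ a ∈ Q₀, (∀ w ∈ Q₀, ε (r * a * r⁻¹) w = 1) →
      ∀ w ∈ Q₀, ε a w = 1 := by
    intro r hr a ha h w hw
    rw [← hinv r hr a ha w hw]
    exact h _ (hRQ r hr w hw)
  have hZconj' : ∀ r ∈ R, ∀ a ∈ Q₀, (∀ w ∈ Q₀, ε (r⁻¹ * a * r) w = 1) →
      ∀ w ∈ Q₀, ε a w = 1 := by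
    intro r hr a ha h w hw
    exact hZconj r⁻¹ (R.inv_mem hr) a ha (by simpa using h) w hw
  have hqZ : ¬ ∀ w ∈ Q₀, ε q w = 1 := fun h => hqu₀ (h u₀ hu₀)
  have hβ : ∀ a ∈ Q₀, (¬ ∀ w ∈ Q₀, ε a w = 1) → ε a (x * a * x⁻¹) = -1 := by
    intro a ha hZ
    rcases Int.units_eq_one_or (ε a (x * a * x⁻¹)) with h | h
    · exact absurd (hA a ha h) hZ
    · exact h
  have hdag : ∀ u ∈ Q₀, (¬ ∀ w ∈ Q₀, ε u w = 1) → ∀ b ∈ Q₀, (¬ ∀ w ∈ Q₀, ε b w = 1) →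
      (¬ ∀ w ∈ Q₀, ε (u * b) w = 1) → ε u (x * b * x⁻¹) * ε u (x⁻¹ * b * x) = -1 := by
    intro u hu hZu b hb hZb hZub
    have h1 := hβ u hu hZu
    have h2 := hβ b hb hZb
    have h3 := hβ (u * b) (Q₀.mul_mem hu hb) hZub
    have hxu : x * u * x⁻¹ ∈ Q₀ := hRQ x hxR u hu
    have hxb : x * b * x⁻¹ ∈ Q₀ := hRQ x hxR b hb
    have e1 : x * (u * b) * x⁻¹ = (x * u * x⁻¹) * (x * b * x⁻¹) := by group
    rw [e1, hmul u hu b hb _ (Q₀.mul_mem hxu hxb), hmulr u hu _ hxu _ hxb,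
      hmulr b hb _ hxu _ hxb, h1, h2, hsymm b hb _ hxu, hmove x hxR u hu b hb] at h3
    exact comb_units_two _ _ h3.symm
  have hB : ∀ u ∈ Q₀, (∀ w ∈ Q₀, ε u w = 1) ∨ (∀ w ∈ Q₀, ε (u * q) w = 1) ∨
      (∀ w ∈ Q₀, ε (u * (x * q * x⁻¹)) w = 1) ∨
      (∀ w ∈ Q₀, ε (u * (x⁻¹ * q * x)) w = 1) := by
    intro u hu
    by_cases h0 : ∀ w ∈ Q₀, ε u w = 1
    · exact Or.inl h0
    by_cases h1 : ∀ w ∈ Q₀, ε (u * q) w = 1
    · exact Or.inr (Or.inl h1)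
    by_cases h2 : ∀ w ∈ Q₀, ε (u * (x * q * x⁻¹)) w = 1
    · exact Or.inr (Or.inr (Or.inl h2))
    by_cases h3 : ∀ w ∈ Q₀, ε (u * (x⁻¹ * q * x)) w = 1
    · exact Or.inr (Or.inr (Or.inr h3))
    exfalso
    have hq2 : x * q * x⁻¹ ∈ Q₀ := hRQ x hxR q hq
    have hq3 : x⁻¹ * q * x ∈ Q₀ := hci x hxR q hq
    have hZ2 : ¬ ∀ w ∈ Q₀, ε (x * q * x⁻¹) w = 1 := fun h => hqZ (hZconj x hxR q hq h)
    have hZ3 : ¬ ∀ w ∈ Q₀, ε (x⁻¹ * q * x) w = 1 := fun h => hqZ (hZconj' x hxR q hq h)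
    have d1 := hdag u hu h0 q hq hqZ h1
    have d2 := hdag u hu h0 _ hq2 hZ2 h2
    have d3 := hdag u hu h0 _ hq3 hZ3 h3
    have e2a : x * (x * q * x⁻¹) * x⁻¹ = x⁻¹ * q * x := by
      calc x * (x * q * x⁻¹) * x⁻¹ = (x * x) * q * (x⁻¹ * x⁻¹) := by group
        _ = x⁻¹ * q * x := by rw [hxx, hxixi]
    have e2b : x⁻¹ * (x * q * x⁻¹) * x = q := by group
    have e3a : x * (x⁻¹ * q * x) * x⁻¹ = q := by group
    have e3b : x⁻¹ * (x⁻¹ * q * x) * x = x * q * x⁻¹ := by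
      calc x⁻¹ * (x⁻¹ * q * x) * x = (x⁻¹ * x⁻¹) * q * (x * x) := by group
        _ = x * q * x⁻¹ := by rw [hxx, hxixi]
    rw [e2a, e2b] at d2
    rw [e3a, e3b] at d3
    exact comb_units_three _ _ _ d1 d2 d3
  have hsim : ∀ a ∈ Q₀, ∀ b ∈ Q₀, (∀ w ∈ Q₀, ε (a * b) w = 1) →
      ∀ w ∈ Q₀, ε a w = ε b w := by
    intro a ha b hb h w hw
    have h1 := h w hw
    rw [hmul a ha b hb w hw] at h1
    calc ε a w = ε a w * (ε b w * ε b w) := by rw [hsq, mul_one]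
      _ = (ε a w * ε b w) * ε b w := by rw [mul_assoc]
      _ = ε b w := by rw [h1, one_mul]
  let N : Subgroup H :=
    { carrier := {r | r ∈ R ∧ ∀ w ∈ Q₀, ε (r * q * r⁻¹) w = ε q w}
      one_mem' := ⟨R.one_mem, fun w _ => by simp⟩
      mul_mem' := by
        rintro r s ⟨hr, hr2⟩ ⟨hs, hs2⟩
        refine ⟨R.mul_mem hr hs, fun w hw => ?_⟩
        have e : r * s * q * (r * s)⁻¹ = r * (s * q * s⁻¹) * r⁻¹ := by group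
        rw [e, hmove r hr _ (hRQ s hs q hq) w hw, hs2 _ (hci r hr w hw),
          ← hmove r hr q hq w hw, hr2 w hw]
      inv_mem' := by
        rintro r ⟨hr, hr2⟩
        refine ⟨R.inv_mem hr, fun w hw => ?_⟩
        have e : r⁻¹ * q * r⁻¹⁻¹ = r⁻¹ * q * r := by group
        rw [e, hmove' r hr q hq w hw, ← hr2 _ (hRQ r hr w hw), hinv r hr q hq w hw] }
  have hN_mem : ∀ r, r ∈ N ↔ r ∈ R ∧ ∀ w ∈ Q₀, ε (r * q * r⁻¹) w = ε q w := fun r => Iff.rfl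
  have hcoset : ∀ r ∈ R, ∃ g : H, g ∈ R ∧ (∀ s ∈ R, Commute g s) ∧ g * r ∈ N := by
    intro r hr
    have ha : r * q * r⁻¹ ∈ Q₀ := hRQ r hr q hq
    have hZa : ¬ ∀ w ∈ Q₀, ε (r * q * r⁻¹) w = 1 := fun h => hqZ (hZconj r hr q hq h)
    rcases hB _ ha with h | h | h | h
    · exact absurd h hZa
    · refine ⟨1, R.one_mem, fun s _ => Commute.one_left s, ?_⟩
      rw [hN_mem]
      refine ⟨by simpa using hr, fun w hw => ?_⟩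
      rw [one_mul]
      exact hsim _ ha q hq h w hw
    · refine ⟨x⁻¹, hxiR, fun s hs => (show Commute s x from hxc s hs).symm.inv_left, ?_⟩
      rw [hN_mem]
      refine ⟨R.mul_mem hxiR hr, fun w hw => ?_⟩
      have e : x⁻¹ * r * q * (x⁻¹ * r)⁻¹ = x⁻¹ * (r * q * r⁻¹) * x := by group
      rw [e, hmove' x hxR _ ha w hw, hsim _ ha _ (hRQ x hxR q hq) h _ (hRQ x hxR w hw),
        hinv x hxR q hq w hw]
    · refine ⟨x, hxR, fun s hs => (show Commute s x from hxc s hs).symm, ?_⟩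
      rw [hN_mem]
      refine ⟨R.mul_mem hxR hr, fun w hw => ?_⟩
      have e : x * r * q * (x * r)⁻¹ = x * (r * q * r⁻¹) * x⁻¹ := by group
      rw [e, hmove x hxR _ ha w hw, hsim _ ha _ (hci x hxR q hq) h _ (hci x hxR w hw)]
      have h1 := hinv x⁻¹ hxiR q hq w hw
      simpa using h1
  have hRN : ⁅R, R⁆ ≤ N := by
    rw [Subgroup.commutator_le]
    intro r hr s hs
    obtain ⟨g₁, hg₁R, hg₁c, hg₁N⟩ := hcoset r hr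
    obtain ⟨g₂, hg₂R, hg₂c, hg₂N⟩ := hcoset s hs
    have h1 : ⁅g₁ * r, g₂ * s⁆ = ⁅r, s⁆ := by
      rw [comb_comm_left g₁ r (g₂ * s) (hg₁c r hr) (hg₁c _ (R.mul_mem hg₂R hs)),
        comb_comm_right g₂ r s (hg₂c r hr) (hg₂c s hs)]
    rw [← h1, commutatorElement_def]
    exact N.mul_mem (N.mul_mem (N.mul_mem hg₁N hg₂N) (N.inv_mem hg₁N)) (N.inv_mem hg₂N)
  have hxN : x ∈ N := hRN hxRR
  obtain ⟨_, hxN2⟩ := (hN_mem x).mp hxN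
  have h1 := hxN2 q hq
  rw [hself q hq, hsymm _ (hRQ x hxR q hq) q hq] at h1
  exact hqZ (hA q hq h1)

end Cfsg.Agent.Lib.Helper63
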