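import Mathlib

set_option autoImplicit false

universe u

namespace Cfsg.Agent.Lib.Helper63

open scoped commutatorElement

/-- S3789 piece MIN: a minimal `R`-invariant 2-subgroup not centralized by `x`. -/
theorem exists_min_config {H : Type u} [Group H] [Finite H] {p : ℕ} (hp : Odd p)
    (R : Subgroup H) (x : H) (hxR : x ∈ R) (hxc : ∀ r ∈ R, r * x = x * r) (hxp : x ^ p = 1)
    (Q : Subgroup H) (hQ : IsPGroup 2 Q) (hRQ : ∀ r ∈ R, ∀ u ∈ Q, r * u * r⁻¹ ∈ Q)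
    (hxQ : ∃ u ∈ Q, x * u ≠ u * x)
    (hab : ∀ E : Subgroup H, E ≤ Q → (∀ e ∈ E, x * e * x⁻¹ ∈ E) →
      (∀ e₁ ∈ E, ∀ e₂ ∈ E, e₁ * e₂ = e₂ * e₁) → ∀ e ∈ E, x * e = e * x) :
    ∃ Q₀ : Subgroup H, Q₀ ≤ Q ∧ (∀ r ∈ R, ∀ u ∈ Q₀, r * u * r⁻¹ ∈ Q₀) ∧
      ⁅Q₀, Subgroup.zpowers x⁆ = Q₀ ∧
      (∀ y ∈ ⁅Q₀, Q₀⁆, ∀ u ∈ Q₀, y * u = u * y) ∧
      (∀ y ∈ ⁅Q₀, Q₀⁆, x * y = y * x) ∧
      (∀ a ∈ Q₀, ∀ u ∈ Q₀, a * a * u = u * (a * a)) ∧
      ⁅Q₀, Q₀⁆ ≠ ⊥ := by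
  classical
  have hex : ∃ n : ℕ, ∃ M : Subgroup H, Nat.card M = n ∧ M ≤ Q ∧
      (∀ r ∈ R, ∀ u ∈ M, r * u * r⁻¹ ∈ M) ∧ ∃ u ∈ M, x * u ≠ u * x :=
    ⟨_, Q, rfl, le_refl _, hRQ, hxQ⟩
  obtain ⟨Q₀, hcard, hQ₀Q, hRQ₀, hxQ₀⟩ := Nat.find_spec hex
  have hmin : ∀ M : Subgroup H, M ≤ Q₀ → (∀ r ∈ R, ∀ u ∈ M, r * u * r⁻¹ ∈ M) →
      (∃ u ∈ M, x * u ≠ u * x) → M = Q₀ := by
    intro M hM hRM hxM
    have h1 : Nat.find hex ≤ Nat.card M :=
      Nat.find_min' hex ⟨M, rfl, hM.trans hQ₀Q, hRM, hxM⟩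
    exact Subgroup.eq_of_le_of_card_ge hM (by rw [hcard]; exact h1)
  obtain ⟨X, hX⟩ : ∃ X : Subgroup H, X = Subgroup.zpowers x := ⟨_, rfl⟩
  have hxX : x ∈ X := hX ▸ Subgroup.mem_zpowers x
  have hXR : X ≤ R := by
    rw [hX]
    exact (Subgroup.zpowers_le).mpr hxR
  have hXpow : ∀ g ∈ X, ∃ k : ℤ, x ^ k = g := by
    intro g hg
    rw [hX] at hg
    exact Subgroup.mem_zpowers_iff.mp hg
  have hcommX : ∀ r ∈ R, ∀ g ∈ X, r * g = g * r := by
    intro r hr g hg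
    obtain ⟨k, rfl⟩ := hXpow g hg
    exact ((show Commute r x from hxc r hr).zpow_right k).eq
  have hmapQ : ∀ r ∈ R, Q₀.map (MulAut.conj r).toMonoidHom ≤ Q₀ := by
    intro r hr
    rintro _ ⟨u, hu, rfl⟩
    simpa [MulAut.conj_apply] using hRQ₀ r hr u hu
  have hmapX : ∀ r ∈ R, X.map (MulAut.conj r).toMonoidHom ≤ X := by
    intro r hr
    rintro _ ⟨g, hg, rfl⟩
    have h1 : r * g * r⁻¹ = g := by rw [hcommX r hr g hg, mul_inv_cancel_right]
    simpa [MulAut.conj_apply, h1] using hg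
  have hconj : ∀ r ∈ R, ∀ (A B : Subgroup H), A.map (MulAut.conj r).toMonoidHom ≤ A →
      B.map (MulAut.conj r).toMonoidHom ≤ B → ∀ c ∈ ⁅A, B⁆, r * c * r⁻¹ ∈ ⁅A, B⁆ := by
    intro r hr A B hA hB c hc
    have h1 : (⁅A, B⁆).map (MulAut.conj r).toMonoidHom ≤ ⁅A, B⁆ := by
      rw [Subgroup.map_commutator]
      exact Subgroup.commutator_mono hA hB
    have h2 : (MulAut.conj r).toMonoidHom c ∈ (⁅A, B⁆).map (MulAut.conj r).toMonoidHom :=
      Subgroup.mem_map_of_mem _ hc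
    simpa [MulAut.conj_apply] using h1 h2
  -- (1)
  have hC_le : ⁅Q₀, X⁆ ≤ Q₀ := by
    rw [Subgroup.commutator_le]
    intro u hu g hg
    have h1 : g * u⁻¹ * g⁻¹ ∈ Q₀ := hRQ₀ g (hXR hg) u⁻¹ (Q₀.inv_mem hu)
    have h2 : ⁅u, g⁆ = u * (g * u⁻¹ * g⁻¹) := by
      rw [commutatorElement_def]
      group
    rw [h2]
    exact Q₀.mul_mem hu h1
  have hC_R : ∀ r ∈ R, ∀ c ∈ ⁅Q₀, X⁆, r * c * r⁻¹ ∈ ⁅Q₀, X⁆ :=
    fun r hr => hconj r hr Q₀ X (hmapQ r hr) (hmapX r hr)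
  have h2tors : ∀ c ∈ Q, c ^ p = 1 → c = 1 := by
    intro c hc hcp
    obtain ⟨k, hk⟩ := hQ ⟨c, hc⟩
    have hk' : c ^ 2 ^ k = 1 := by simpa using congrArg Subtype.val hk
    have h1 : orderOf c ∣ 2 ^ k := orderOf_dvd_of_pow_eq_one hk'
    have h2 : orderOf c ∣ p := orderOf_dvd_of_pow_eq_one hcp
    have h3 : orderOf c ∣ Nat.gcd (2 ^ k) p := Nat.dvd_gcd h1 h2
    have h4 : Nat.gcd (2 ^ k) p = 1 := by
      apply Nat.Coprime.pow_left
      exact Nat.coprime_two_left.mpr hp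
    rw [h4, Nat.dvd_one] at h3
    exact orderOf_eq_one_iff.mp h3
  have hC_x : ∃ c ∈ ⁅Q₀, X⁆, x * c ≠ c * x := by
    by_contra hcon
    push Not at hcon
    obtain ⟨u, hu, hux⟩ := hxQ₀
    apply hux
    have hcC : ⁅u, x⁆ ∈ ⁅Q₀, X⁆ := Subgroup.commutator_mem_commutator hu hxX
    have hcx := hcon _ hcC
    have hc1 : ⁅u, x⁆ = 1 := by
      apply h2tors _ (hQ₀Q (hC_le hcC))
      have h1 : (⁅u, x⁆ * x) ^ p = ⁅u, x⁆ ^ p * x ^ p :=
        (show Commute ⁅u, x⁆ x from hcx.symm).mul_pow p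
      have h2 : ⁅u, x⁆ * x = u * x * u⁻¹ := by
        rw [commutatorElement_def]
        group
      rw [h2, hxp, mul_one] at h1
      rw [← h1, conj_pow, hxp, mul_one, mul_inv_cancel]
    rw [commutatorElement_eq_one_iff_mul_comm] at hc1
    exact hc1.symm
  have hC : ⁅Q₀, X⁆ = Q₀ := hmin _ hC_le hC_R hC_x
  -- (2)
  have hQ₀2 : IsPGroup 2 Q₀ := hQ.to_le hQ₀Q
  have hD_le : ⁅Q₀, Q₀⁆ ≤ Q₀ := Subgroup.commutator_le_self Q₀
  have hD_R : ∀ r ∈ R, ∀ c ∈ ⁅Q₀, Q₀⁆, r * c * r⁻¹ ∈ ⁅Q₀, Q₀⁆ :=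
    fun r hr => hconj r hr Q₀ Q₀ (hmapQ r hr) (hmapQ r hr)
  have hD_ne : ⁅Q₀, Q₀⁆ ≠ Q₀ := by
    intro h
    obtain ⟨u, hu, hux⟩ := hxQ₀
    have : Nontrivial Q₀ := ⟨⟨⟨u, hu⟩, 1, fun h1 => hux (by
      have h2 : u = 1 := congrArg Subtype.val h1
      rw [h2, mul_one, one_mul])⟩⟩
    have : Fact (Nat.Prime 2) := ⟨Nat.prime_two⟩
    have : Group.IsNilpotent Q₀ := hQ₀2.isNilpotent
    have h1 := Group.IsSolvable.commutator_lt_top_of_nontrivial Q₀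
    have h2 : (commutator Q₀).map Q₀.subtype = ⁅Q₀, Q₀⁆ := Subgroup.map_subtype_commutator Q₀
    rw [h] at h2
    have h3 : commutator Q₀ = ⊤ := by
      apply Subgroup.map_injective Q₀.subtype_injective
      rw [h2, ← MonoidHom.range_eq_map, Subgroup.range_subtype]
    exact (ne_of_lt h1) h3
  have hDx : ∀ y ∈ ⁅Q₀, Q₀⁆, x * y = y * x := by
    by_contra hcon
    push Not at hcon
    exact hD_ne (hmin _ hD_le hD_R hcon)
  -- (3)
  have hcent : ∀ M : Subgroup H, M ≤ Q₀ → (∀ u ∈ Q₀, ∀ m ∈ M, u * m * u⁻¹ ∈ M) →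
      (∀ m ∈ M, x * m = m * x) → ∀ m ∈ M, ∀ u ∈ Q₀, m * u = u * m := by
    intro M hM hnorm hxM m hm
    have h1 : ⁅Q₀, X⁆ ≤ Subgroup.centralizer {m} := by
      rw [Subgroup.commutator_le]
      intro u hu g hg
      rw [Subgroup.mem_centralizer_iff]
      intro h hh
      rw [Set.mem_singleton_iff] at hh
      subst hh
      have hgm : ∀ m' ∈ M, g * m' = m' * g := by
        intro m' hm'
        obtain ⟨k, rfl⟩ := hXpow g hg
        exact ((show Commute x m' from hxM m' hm').zpow_left k).eq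
      have h2 := hgm h hm
      have h3 := hgm (u⁻¹ * h * u) (by simpa using hnorm u⁻¹ (Q₀.inv_mem hu) h hm)
      rw [commutatorElement_def]
      have h4 : h * (u * g * u⁻¹) = (u * g * u⁻¹) * h := by
        calc h * (u * g * u⁻¹) = u * ((u⁻¹ * h * u) * g) * u⁻¹ := by group
          _ = u * (g * (u⁻¹ * h * u)) * u⁻¹ := by rw [h3]
          _ = (u * g * u⁻¹) * h := by group
      have h5 : h * g⁻¹ = g⁻¹ * h := by
        calc h * g⁻¹ = g⁻¹ * (g * h) * g⁻¹ := by group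
          _ = g⁻¹ * (h * g) * g⁻¹ := by rw [h2]
          _ = g⁻¹ * h := by group
      calc h * (u * g * u⁻¹ * g⁻¹) = (h * (u * g * u⁻¹)) * g⁻¹ := by group
        _ = (u * g * u⁻¹) * h * g⁻¹ := by rw [h4]
        _ = (u * g * u⁻¹) * (h * g⁻¹) := by group
        _ = (u * g * u⁻¹) * (g⁻¹ * h) := by rw [h5]
        _ = u * g * u⁻¹ * g⁻¹ * h := by group
    intro u hu
    have hu' : u ∈ ⁅Q₀, X⁆ := by rw [hC]; exact hu
    have h2 := h1 hu'
    rw [Subgroup.mem_centralizer_iff] at h2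
    exact h2 m rfl
  have hD_norm : ∀ u ∈ Q₀, ∀ d ∈ ⁅Q₀, Q₀⁆, u * d * u⁻¹ ∈ ⁅Q₀, Q₀⁆ := by
    intro u hu d hd
    have h1 : ⁅u, d⁆ ∈ ⁅Q₀, Q₀⁆ := Subgroup.commutator_mem_commutator hu (hD_le hd)
    have h2 : u * d * u⁻¹ = ⁅u, d⁆ * d := by
      rw [commutatorElement_def]
      group
    rw [h2]
    exact Subgroup.mul_mem _ h1 hd
  have hDc : ∀ y ∈ ⁅Q₀, Q₀⁆, ∀ u ∈ Q₀, y * u = u * y := hcent _ hD_le hD_norm hDx
  -- (4)
  have hD_bot : ⁅Q₀, Q₀⁆ ≠ ⊥ := by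
    intro h
    obtain ⟨u, hu, hux⟩ := hxQ₀
    apply hux
    apply hab Q₀ hQ₀Q (fun e he => hRQ₀ x hxR e he) _ u hu
    intro e₁ he₁ e₂ he₂
    have h1 : ⁅e₁, e₂⁆ ∈ ⁅Q₀, Q₀⁆ := Subgroup.commutator_mem_commutator he₁ he₂
    rw [h, Subgroup.mem_bot] at h1
    exact commutatorElement_eq_one_iff_mul_comm.mp h1
  -- (5)
  have hsq : ∀ a ∈ Q₀, ∀ u ∈ Q₀, a * a * u = u * (a * a) := by
    let M₂ : Subgroup H :=
      { carrier := {a | a ∈ Q₀ ∧ ∀ u ∈ Q₀, a * a * u = u * (a * a)}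
        one_mem' := ⟨Q₀.one_mem, fun u _ => by simp⟩
        mul_mem' := by
          rintro a b ⟨ha, ha2⟩ ⟨hb, hb2⟩
          refine ⟨Q₀.mul_mem ha hb, fun u hu => ?_⟩
          have hd : ⁅a⁻¹, b⁆ ∈ ⁅Q₀, Q₀⁆ :=
            Subgroup.commutator_mem_commutator (Q₀.inv_mem ha) hb
          have hdu := hDc _ hd u hu
          have e : a * b * (a * b) = (a * a) * ⁅a⁻¹, b⁆ * (b * b) := by
            rw [commutatorElement_def]
            group
          obtain ⟨d, hd_def⟩ : ∃ d, d = ⁅a⁻¹, b⁆ := ⟨_, rfl⟩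
          rw [← hd_def] at hdu e
          rw [e]
          calc a * a * d * (b * b) * u = a * a * d * (b * b * u) := by group
            _ = a * a * d * (u * (b * b)) := by rw [hb2 u hu]
            _ = a * a * (d * u) * (b * b) := by group
            _ = a * a * (u * d) * (b * b) := by rw [hdu]
            _ = (a * a * u) * d * (b * b) := by group
            _ = (u * (a * a)) * d * (b * b) := by rw [ha2 u hu]
            _ = u * (a * a * d * (b * b)) := by group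
        inv_mem' := by
          rintro a ⟨ha, ha2⟩
          refine ⟨Q₀.inv_mem ha, fun u hu => ?_⟩
          have h1 := ha2 u hu
          calc a⁻¹ * a⁻¹ * u = (a * a)⁻¹ * (u * (a * a)) * (a * a)⁻¹ := by group
            _ = (a * a)⁻¹ * (a * a * u) * (a * a)⁻¹ := by rw [h1]
            _ = u * (a⁻¹ * a⁻¹) := by group }
    have hM₂_mem : ∀ a, a ∈ M₂ ↔ a ∈ Q₀ ∧ ∀ u ∈ Q₀, a * a * u = u * (a * a) := fun a => Iff.rfl
    have hM₂_le : M₂ ≤ Q₀ := fun a ha => ((hM₂_mem a).mp ha).1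
    have hM₂_R : ∀ r ∈ R, ∀ a ∈ M₂, r * a * r⁻¹ ∈ M₂ := by
      intro r hr a ha
      obtain ⟨ha, ha2⟩ := (hM₂_mem a).mp ha
      rw [hM₂_mem]
      refine ⟨hRQ₀ r hr a ha, fun u hu => ?_⟩
      have h1 : r⁻¹ * u * r ∈ Q₀ := by simpa using hRQ₀ r⁻¹ (R.inv_mem hr) u hu
      have h2 := ha2 _ h1
      calc r * a * r⁻¹ * (r * a * r⁻¹) * u = r * (a * a * (r⁻¹ * u * r)) * r⁻¹ := by group
        _ = r * ((r⁻¹ * u * r) * (a * a)) * r⁻¹ := by rw [h2]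
        _ = u * (r * a * r⁻¹ * (r * a * r⁻¹)) := by group
    by_contra hcon
    have hM₂_ne : M₂ ≠ Q₀ := by
      intro h
      apply hcon
      intro a ha u hu
      have h1 : a ∈ M₂ := by rw [h]; exact ha
      exact ((hM₂_mem a).mp h1).2 u hu
    have hM₂x : ∀ a ∈ M₂, x * a = a * x := by
      by_contra hc2
      push Not at hc2
      exact hM₂_ne (hmin _ hM₂_le hM₂_R hc2)
    have hZ : ∀ z ∈ Q₀, x * z = z * x → ∀ u ∈ Q₀, z * u = u * z := by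
      have key := hcent (Q₀ ⊓ Subgroup.centralizer {x}) inf_le_left (by
        intro u hu m hm
        obtain ⟨hm, hmx0⟩ := hm
        have hmx : m ∈ Subgroup.centralizer {x} := hmx0
        have h1 : ⁅u, m⁆ ∈ ⁅Q₀, Q₀⁆ := Subgroup.commutator_mem_commutator hu hm
        have h2 : u * m * u⁻¹ = ⁅u, m⁆ * m := by
          rw [commutatorElement_def]
          group
        rw [h2]
        refine ⟨Q₀.mul_mem (hD_le h1) hm, ?_⟩
        show ⁅u, m⁆ * m ∈ Subgroup.centralizer {x}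
        rw [Subgroup.mem_centralizer_iff] at hmx ⊢
        intro h hh
        rw [Set.mem_singleton_iff] at hh
        subst hh
        have h3 := hDx _ h1
        have h4 := hmx h rfl
        rw [← mul_assoc, h3, mul_assoc, h4, mul_assoc]) (by
        intro m hm
        obtain ⟨hm, hmx0⟩ := hm
        have hmx : m ∈ Subgroup.centralizer {x} := hmx0
        rw [Subgroup.mem_centralizer_iff] at hmx
        exact hmx x rfl)
      intro z hz hxz u hu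
      refine key z ⟨hz, ?_⟩ u hu
      show z ∈ Subgroup.centralizer {x}
      rw [Subgroup.mem_centralizer_iff]
      intro h hh
      rw [Set.mem_singleton_iff] at hh
      subst hh
      exact hxz
    have hstep : ∀ a ∈ Q₀, (∀ u ∈ Q₀, a * a * u = u * (a * a)) →
        ∀ u ∈ Q₀, a * u = u * a := by
      intro a ha ha2
      have h1 : a ∈ M₂ := (hM₂_mem a).mpr ⟨ha, ha2⟩
      exact hZ a ha (hM₂x a h1)
    have hind : ∀ j : ℕ, ∀ a ∈ Q₀, (∀ u ∈ Q₀, a ^ 2 ^ j * u = u * a ^ 2 ^ j) →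
        ∀ u ∈ Q₀, a * u = u * a := by
      intro j
      induction j with
      | zero =>
        intro a ha h
        simpa using h
      | succ j ih =>
        intro a ha h
        apply hstep a ha
        apply ih (a * a) (Q₀.mul_mem ha ha)
        intro u hu
        have h1 := h u hu
        have e : (a * a) ^ 2 ^ j = a ^ 2 ^ (j + 1) := by
          rw [← pow_two, ← pow_mul, ← pow_succ']
        rw [e]
        exact h1
    have hcomm : ∀ a ∈ Q₀, ∀ u ∈ Q₀, a * u = u * a := by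
      intro a ha
      obtain ⟨k, hk⟩ := hQ₀2 ⟨a, ha⟩
      have hk' : a ^ 2 ^ k = 1 := by simpa using congrArg Subtype.val hk
      apply hind k a ha
      intro u hu
      rw [hk', one_mul, mul_one]
    apply hD_bot
    rw [eq_bot_iff, Subgroup.commutator_le]
    intro a ha b hb
    rw [Subgroup.mem_bot, commutatorElement_eq_one_iff_mul_comm]
    exact hcomm a ha b hb
  refine ⟨Q₀, hQ₀Q, hRQ₀, ?_, hDc, hDx, hsq, hD_bot⟩
  rw [← hX]
  exact hC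

end Cfsg.Agent.Lib.Helper63
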