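import Mathlib
import Cfsg.Prelude.Def_GeometricClasses
import Cfsg.Prelude.Def_LieClassical

/-! OMP piece TRb (helper63 for helper71; S5814/S5859): transport of a fixed unitary form along
`glReindex`. -/

set_option autoImplicit false

namespace Cfsg.Agent.Lib.Helper63.OMPTRb

open Matrix Cfsg.Geo

variable {n : ℕ} {F : Type*} [Field F] [Fintype F]

variable {κ : Type} [Fintype κ] [DecidableEq κ]

/-- TRb -/
theorem TRb (e : κ ≃ Fin n) (P' : Subgroup (GL (Fin n) F))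
    (h : ∃ (σ : F ≃+* F) (f : (κ → F) → (κ → F) → F), IsUnitaryForm σ f ∧
      FixesForm (matrixSet (P'.comap (glReindex e).toMonoidHom)) f) :
    ∃ (σ : F ≃+* F) (f' : (Fin n → F) → (Fin n → F) → F), IsUnitaryForm σ f' ∧
      FixesForm (matrixSet P') f' := by
  obtain ⟨σ, f, hf, hfix⟩ := h
  have hcomp : ∀ v : Fin n → F, v ≠ 0 → v ∘ e ≠ 0 := by
    intro v hv h0
    apply hv
    funext i
    have := congrFun h0 (e.symm i)
    simpa using this
  have hsurj : ∀ x : κ → F, (x ∘ e.symm) ∘ e = x := by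
    intro x
    funext i
    simp
  refine ⟨σ, fun u v => f (u ∘ e) (v ∘ e), ?_, ?_⟩
  · refine ⟨hf.ne_refl, hf.involutive, ?_, ?_, ?_, ?_⟩
    · intro x y v
      exact hf.add_left (x ∘ e) (y ∘ e) (v ∘ e)
    · intro c x v
      exact hf.smul_left c (x ∘ e) (v ∘ e)
    · intro v w
      exact hf.herm (v ∘ e) (w ∘ e)
    · intro v hv
      obtain ⟨⟨x, hx⟩, ⟨y, hy⟩⟩ := hf.nondegenerate (v ∘ e) (hcomp v hv)
      refine ⟨⟨x ∘ e.symm, ?_⟩, ⟨y ∘ e.symm, ?_⟩⟩
      · show f ((x ∘ e.symm) ∘ e) (v ∘ e) ≠ 0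
        rw [hsurj]; exact hx
      · show f (v ∘ e) ((y ∘ e.symm) ∘ e) ≠ 0
        rw [hsurj]; exact hy
  · rintro s ⟨g', hg', rfl⟩ u v
    obtain ⟨g, hg⟩ : ∃ g : GL κ F, glReindex e g = g' :=
      ⟨(glReindex e).symm g', (glReindex e).apply_symm_apply g'⟩
    have hgmem : (g : Matrix κ κ F) ∈ matrixSet (P'.comap (glReindex e).toMonoidHom) := by
      refine ⟨g, ?_, rfl⟩
      show glReindex e g ∈ P'
      rw [hg]; exact hg'
    have hval : (g' : Matrix (Fin n) (Fin n) F) = (g : Matrix κ κ F).submatrix e.symm e.symm := by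
      rw [← hg]; rfl
    have hmv : ∀ w : Fin n → F, ((g' : Matrix (Fin n) (Fin n) F) *ᵥ w) ∘ e =
        (g : Matrix κ κ F) *ᵥ (w ∘ e) := by
      intro w
      rw [hval, Matrix.submatrix_mulVec_equiv]
      funext i
      simp
    show f (((g' : Matrix (Fin n) (Fin n) F) *ᵥ u) ∘ e) (((g' : Matrix (Fin n) (Fin n) F) *ᵥ v) ∘ e) =
      f (u ∘ e) (v ∘ e)
    rw [hmv, hmv]
    exact hfix _ hgmem (u ∘ e) (v ∘ e)

end Cfsg.Agent.Lib.Helper63.OMPTRb
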