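import Mathlib

set_option autoImplicit false

namespace Cfsg.Agent.Lib.Helper63.AltSpec

open MulAction

/-- lifting an element order along a surjective homomorphism -/
theorem exists_orderOf_of_surjective {G K : Type*} [Group G] [Finite G] [Group K] (f : G →* K)
    (hf : Function.Surjective f) (k : K) {m : ℕ} (hk : orderOf k = m) :
    ∃ g : G, orderOf g = m := by
  obtain ⟨g, rfl⟩ := hf k
  have hdvd : m ∣ orderOf g := hk ▸ orderOf_map_dvd f g
  obtain ⟨d, hd⟩ := hdvd
  have hpos : 0 < orderOf g := orderOf_pos g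
  have hd0 : d ≠ 0 := by
    rintro rfl
    rw [mul_zero] at hd
    omega
  refine ⟨g ^ d, ?_⟩
  rw [orderOf_pow_of_dvd hd0 ⟨m, by rw [hd, mul_comm]⟩, hd]
  exact Nat.mul_div_cancel _ (Nat.pos_of_ne_zero hd0)

/-- commuting elements of distinct prime orders -/
theorem exists_orderOf_mul {G : Type*} [Group G] {p q : ℕ} (hp : p.Prime) (hq : q.Prime)
    (hpq : p ≠ q) (x y : G) (hx : orderOf x = p) (hy : orderOf y = q) (hxy : x * y = y * x) :
    ∃ g : G, orderOf g = p * q := by
  refine ⟨x * y, ?_⟩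
  rw [(show Commute x y from hxy).orderOf_mul_eq_mul_orderOf_of_coprime
    (by rw [hx, hy]; exact (Nat.coprime_primes hp hq).mpr hpq), hx, hy]

/-- order formula for a join with a normal subgroup -/
theorem card_sup_mul_card_inf {G : Type*} [Group G] [Finite G] (A B : Subgroup G) [B.Normal] :
    Nat.card ↥(A ⊔ B) * Nat.card ↥(A ⊓ B) = Nat.card A * Nat.card B := by
  have h1 := Nat.card_congr (QuotientGroup.quotientInfEquivProdNormalQuotient A B).toEquiv
  have h2 := Subgroup.card_eq_card_quotient_mul_card_subgroup (B.subgroupOf A)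
  have h3 := Subgroup.card_eq_card_quotient_mul_card_subgroup (B.subgroupOf (A ⊔ B))
  have h4 : Nat.card (B.subgroupOf A) = Nat.card ↥(A ⊓ B) := by
    rw [← Subgroup.inf_subgroupOf_left B A]
    exact Nat.card_congr (Subgroup.subgroupOfEquivOfLe inf_le_left).toEquiv
  have h5 : Nat.card (B.subgroupOf (A ⊔ B)) = Nat.card B :=
    Nat.card_congr (Subgroup.subgroupOfEquivOfLe le_sup_right).toEquiv
  rw [h3, h5, ← h1, ← h4, h2]
  ring

/-- Frattini argument: a normal subgroup of order divisible by `q` and index divisible by `p`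
gives an element of order `p q`, unless `p ∣ q ^ j - 1` for some admissible `j`. -/
theorem exists_pq_of_normal {G : Type*} [Group G] [Finite G] (N : Subgroup G) [N.Normal]
    {p q : ℕ} (hp : p.Prime) (hq : q.Prime) (hpq : p ≠ q)
    (hpN : p ∣ N.index) (hqN : q ∣ Nat.card N)
    (hj : ∀ j : ℕ, 1 ≤ j → q ^ j ∣ Nat.card G → ¬ p ∣ q ^ j - 1) :
    ∃ g : G, orderOf g = p * q := by
  have := Fact.mk hp
  have := Fact.mk hq
  obtain ⟨Q⟩ : Nonempty (Sylow q N) := inferInstance
  have hfr := Sylow.normalizer_sup_eq_top Q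
  obtain ⟨Q₀, hQ₀⟩ : ∃ Q₀ : Subgroup G, Q₀ = (Q : Subgroup N).map N.subtype := ⟨_, rfl⟩
  rw [← hQ₀] at hfr
  have hcardQ : Nat.card Q₀ = q ^ (Nat.card N).factorization q := by
    rw [hQ₀, Subgroup.card_map_of_injective N.subtype_injective]
    exact Q.card_eq_multiplicity
  have hj1 : 1 ≤ (Nat.card N).factorization q :=
    hq.factorization_pos_of_dvd Nat.card_pos.ne' hqN
  have hQ₀q : IsPGroup q Q₀ := IsPGroup.of_card hcardQ
  obtain ⟨L, hL⟩ : ∃ L : Subgroup G, L = Subgroup.normalizer (Q₀ : Set G) := ⟨_, rfl⟩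
  rw [← hL] at hfr
  have hQL : Q₀ ≤ L := hL ▸ Subgroup.le_normalizer
  have hnorm : (Q₀.subgroupOf L).Normal := hL ▸ Subgroup.normal_in_normalizer
  have hsurj : Function.Surjective ((QuotientGroup.mk' N).comp L.subtype) := by
    intro z
    obtain ⟨g, rfl⟩ := QuotientGroup.mk'_surjective N z
    have hg : g ∈ L ⊔ N := by rw [hfr]; exact Subgroup.mem_top g
    rw [← SetLike.mem_coe, Subgroup.mul_normal] at hg
    obtain ⟨l, hl, n, hn, rfl⟩ := Set.mem_mul.mp hg
    refine ⟨⟨l, hl⟩, ?_⟩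
    simp only [MonoidHom.comp_apply, Subgroup.coe_subtype, QuotientGroup.mk'_apply]
    rw [QuotientGroup.eq]
    simpa using hn
  have hpL : p ∣ Nat.card L :=
    dvd_trans hpN (Subgroup.card_dvd_of_surjective _ hsurj)
  obtain ⟨x, hx⟩ := exists_prime_orderOf_dvd_card' (G := L) p hpL
  let P : Subgroup L := Subgroup.zpowers x
  let _ : MulAction P (Q₀.subgroupOf L) :=
    MulAction.compHom (Q₀.subgroupOf L)
      ((MulAut.conjNormal (H := Q₀.subgroupOf L)).comp P.subtype)
  have hP : IsPGroup p P := IsPGroup.of_card (n := 1) (by rw [Nat.card_zpowers, hx, pow_one])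
  have hmod := hP.card_modEq_card_fixedPoints (Q₀.subgroupOf L)
  have hcard1 : Nat.card (Q₀.subgroupOf L) = q ^ (Nat.card N).factorization q := by
    rw [← hcardQ]
    exact Nat.card_congr (Subgroup.subgroupOfEquivOfLe hQL).toEquiv
  have hex : ∃ y : Q₀.subgroupOf L, y ∈ fixedPoints P (Q₀.subgroupOf L) ∧ y ≠ 1 := by
    by_contra hcon
    push Not at hcon
    have hone : (1 : Q₀.subgroupOf L) ∈ fixedPoints P (Q₀.subgroupOf L) := by
      intro g
      show (MulAut.conjNormal (H := Q₀.subgroupOf L) (g : L)) 1 = 1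
      exact map_one _
    have hc1 : Nat.card (fixedPoints P (Q₀.subgroupOf L)) = 1 := by
      refine Nat.card_eq_one_iff_unique.mpr ⟨⟨fun a b => Subtype.ext ?_⟩, ⟨⟨1, hone⟩⟩⟩
      rw [hcon a.1 a.2, hcon b.1 b.2]
    rw [hc1, hcard1] at hmod
    have hdvd : p ∣ q ^ (Nat.card N).factorization q - 1 :=
      (Nat.modEq_iff_dvd' (Nat.one_le_pow _ _ hq.pos)).mp hmod.symm
    refine hj _ hj1 ?_ hdvd
    rw [← hcardQ]
    exact Subgroup.card_subgroup_dvd_card Q₀
  obtain ⟨y, hyfix, hy1⟩ := hex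
  have hxy : (x : G) * ((y : L) : G) * (x : G)⁻¹ = ((y : L) : G) := by
    have h1 := hyfix ⟨x, Subgroup.mem_zpowers x⟩
    have h2 : (MulAut.conjNormal (H := Q₀.subgroupOf L) x) y = y := h1
    have h3 := congrArg (fun t : Q₀.subgroupOf L => ((t : L) : G)) h2
    simpa [MulAut.conjNormal_apply] using h3
  obtain ⟨C, hC⟩ : ∃ C : Subgroup G, C = Q₀ ⊓ Subgroup.centralizer {(x : G)} := ⟨_, rfl⟩
  have hyC : ((y : L) : G) ∈ C := by
    rw [hC]
    refine ⟨Subgroup.mem_subgroupOf.mp y.2, ?_⟩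
    show ((y : L) : G) ∈ Subgroup.centralizer {(x : G)}
    rw [Subgroup.mem_centralizer_iff]
    intro h hh
    rw [Set.mem_singleton_iff] at hh
    subst hh
    calc (x : G) * ((y : L) : G)
        = ((x : G) * ((y : L) : G) * (x : G)⁻¹) * (x : G) := by group
      _ = ((y : L) : G) * (x : G) := by rw [hxy]
  have hCq : IsPGroup q C := hQ₀q.to_le (by rw [hC]; exact inf_le_left)
  obtain ⟨k, hk⟩ := IsPGroup.iff_card.mp hCq
  have hk0 : k ≠ 0 := by
    rintro rfl
    rw [pow_zero] at hk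
    have hCbot : C = ⊥ := Subgroup.card_eq_one.mp hk
    rw [hCbot, Subgroup.mem_bot] at hyC
    apply hy1
    apply Subtype.ext
    apply Subtype.ext
    simpa using hyC
  have hqC : q ∣ Nat.card C := by
    rw [hk]
    exact dvd_pow_self q hk0
  obtain ⟨y', hy'⟩ := exists_prime_orderOf_dvd_card' (G := C) q hqC
  have hy'C : (y' : G) ∈ Q₀ ⊓ Subgroup.centralizer {(x : G)} := hC ▸ y'.2
  have hcomm : (x : G) * (y' : G) = (y' : G) * (x : G) := by
    have h1 : (y' : G) ∈ Subgroup.centralizer {(x : G)} := hy'C.2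
    rw [Subgroup.mem_centralizer_iff] at h1
    exact h1 _ rfl
  exact exists_orderOf_mul hp hq hpq (x : G) (y' : G) (by rw [Subgroup.orderOf_coe]; exact hx)
    (by rw [Subgroup.orderOf_coe]; exact hy') hcomm

/-- coprime action on the Sylow `p`-subgroups of a normal subgroup -/
theorem exists_pq_of_coprime_normal {K : Type*} [Group K] [Finite K] (S : Subgroup K)
    [S.Normal] {p q : ℕ} (hp : p.Prime) (hq : q.Prime) (hpq : p ≠ q)
    (hpS : p ∣ Nat.card S) (hp2 : ¬ p ^ 2 ∣ Nat.card K) (hqK : q ∣ Nat.card K)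
    (hqS : ¬ q ∣ Nat.card S) (hqp : ¬ q ∣ p - 1) : ∃ g : K, orderOf g = p * q := by
  have := Fact.mk hp
  have := Fact.mk hq
  obtain ⟨y, hy⟩ := exists_prime_orderOf_dvd_card' (G := K) q hqK
  let Y : Subgroup K := Subgroup.zpowers y
  have hY : IsPGroup q Y := IsPGroup.of_card (n := 1) (by rw [Nat.card_zpowers, hy, pow_one])
  let _ : MulAction Y (Sylow p S) :=
    MulAction.compHom (Sylow p S) ((MulAut.conjNormal (H := S)).comp Y.subtype)
  have hnd : ¬ q ∣ Nat.card (Sylow p S) := by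
    intro h
    obtain ⟨P⟩ : Nonempty (Sylow p S) := inferInstance
    exact hqS (dvd_trans h (dvd_trans P.card_dvd_index (Subgroup.index_dvd_card _)))
  obtain ⟨P₁, hP₁⟩ := hY.nonempty_fixed_point_of_prime_not_dvd_card (Sylow p S) hnd
  obtain ⟨P₂, hP₂⟩ : ∃ P₂ : Subgroup K, P₂ = (P₁ : Subgroup S).map S.subtype := ⟨_, rfl⟩
  have hfact : (Nat.card S).factorization p = 1 := by
    have h1 : 1 ≤ (Nat.card S).factorization p :=
      hp.factorization_pos_of_dvd Nat.card_pos.ne' hpS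
    have h2 : (Nat.card S).factorization p < 2 := by
      by_contra h
      push Not at h
      have h3 : p ^ 2 ∣ Nat.card S :=
        (hp.pow_dvd_iff_le_factorization Nat.card_pos.ne').mpr h
      exact hp2 (dvd_trans h3 (Subgroup.card_subgroup_dvd_card S))
    omega
  have hcardP : Nat.card P₂ = p := by
    rw [hP₂, Subgroup.card_map_of_injective S.subtype_injective, P₁.card_eq_multiplicity,
      hfact, pow_one]
  have hnormY : ∀ g ∈ Y, ∀ u ∈ P₂, g * u * g⁻¹ ∈ P₂ := by
    intro g hg u hu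
    rw [hP₂] at hu ⊢
    obtain ⟨u', hu', rfl⟩ := hu
    have h1 : (⟨g, hg⟩ : Y) • P₁ = P₁ := hP₁ ⟨g, hg⟩
    have h2 : (MulAut.conjNormal (H := S) g) • P₁ = P₁ := h1
    have h4 := Subgroup.smul_mem_pointwise_smul u' (MulAut.conjNormal (H := S) g)
      (P₁ : Subgroup S) hu'
    rw [← Sylow.pointwise_smul_def, h2] at h4
    refine ⟨_, h4, ?_⟩
    simp [MulAut.smul_def, MulAut.conjNormal_apply]
  have hyY : y ∈ Y := Subgroup.mem_zpowers y
  obtain ⟨L, hL⟩ : ∃ L : Subgroup K, L = Subgroup.normalizer (P₂ : Set K) := ⟨_, rfl⟩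
  have hyL : y ∈ L := by
    rw [hL, Subgroup.mem_normalizer_iff]
    intro u
    constructor
    · exact hnormY y hyY u
    · intro h
      have h1 := hnormY y⁻¹ (Y.inv_mem hyY) _ h
      have h2 : y⁻¹ * (y * u * y⁻¹) * y⁻¹⁻¹ = u := by group
      rwa [h2] at h1
  have hPL : P₂ ≤ L := hL ▸ Subgroup.le_normalizer
  have hnorm : (P₂.subgroupOf L).Normal := hL ▸ Subgroup.normal_in_normalizer
  have hcard' : Nat.card (P₂.subgroupOf L) = p := by
    rw [← hcardP]
    exact Nat.card_congr (Subgroup.subgroupOfEquivOfLe hPL).toEquiv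
  have hcyc : IsCyclic (P₂.subgroupOf L) := isCyclic_of_prime_card hcard'
  have hord1 : orderOf (MulAut.conjNormal (H := P₂.subgroupOf L) (⟨y, hyL⟩ : L)) ∣ q := by
    have h1 := orderOf_map_dvd (MulAut.conjNormal (H := P₂.subgroupOf L)) (⟨y, hyL⟩ : L)
    rwa [Subgroup.orderOf_mk, hy] at h1
  have hord2 : orderOf (MulAut.conjNormal (H := P₂.subgroupOf L) (⟨y, hyL⟩ : L)) ∣ p - 1 := by
    have h1 := orderOf_dvd_natCard (MulAut.conjNormal (H := P₂.subgroupOf L) (⟨y, hyL⟩ : L))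
    rwa [IsCyclic.card_mulAut, hcard', Nat.totient_prime hp] at h1
  have hcop : Nat.Coprime q (p - 1) := (Nat.Prime.coprime_iff_not_dvd hq).mpr hqp
  have hone : MulAut.conjNormal (H := P₂.subgroupOf L) (⟨y, hyL⟩ : L) = 1 :=
    orderOf_eq_one_iff.mp (Nat.eq_one_of_dvd_coprimes hcop hord1 hord2)
  obtain ⟨x, hx⟩ := exists_prime_orderOf_dvd_card' (G := P₂) p (by rw [hcardP])
  have hxy : y * (x : K) * y⁻¹ = (x : K) := by
    have h1 := DFunLike.congr_fun hone (⟨⟨(x : K), hPL x.2⟩, Subgroup.mem_subgroupOf.mpr x.2⟩ :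
      P₂.subgroupOf L)
    have h2 := congrArg (fun t : P₂.subgroupOf L => ((t : L) : K)) h1
    simpa [MulAut.conjNormal_apply] using h2
  refine exists_orderOf_mul hp hq hpq (x : K) y (by rw [Subgroup.orderOf_coe]; exact hx) hy ?_
  calc (x : K) * y = (y * (x : K) * y⁻¹) * y := by rw [hxy]
    _ = y * (x : K) := by group

end Cfsg.Agent.Lib.Helper63.AltSpec
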