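import Mathlib
import Cfsg.Agent.Lib.Helper63.AltSpecA

set_option autoImplicit false

namespace Cfsg.Agent.Lib.Helper63.AltSpec

/-- a subgroup of a normal subgroup `M` invariant under all conjugations gives a normal
subgroup of the whole group -/
theorem normal_map_of_conj_invariant {K : Type*} [Group K] (M : Subgroup K) [M.Normal]
    (T : Subgroup M)
    (h : ∀ g : K, T.map (MulAut.conjNormal (H := M) g).toMonoidHom ≤ T) :
    (T.map M.subtype).Normal := by
  refine ⟨fun t ht g => ?_⟩
  obtain ⟨t', ht', rfl⟩ := ht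
  refine ⟨MulAut.conjNormal (H := M) g t', h g ⟨t', ht', rfl⟩, ?_⟩
  simp [MulAut.conjNormal_apply]

/-- In a finite group whose nontrivial normal subgroups all have order divisible by `p`, with
`p ^ 2` not dividing the order, a minimal normal subgroup is simple. -/
theorem exists_simple_normal {K : Type*} [Group K] [Finite K] [Nontrivial K] {p : ℕ}
    (hp : p.Prime) (hp2 : ¬ p ^ 2 ∣ Nat.card K)
    (hmin : ∀ A : Subgroup K, A.Normal → A ≠ ⊥ → p ∣ Nat.card A) :
    ∃ M : Subgroup K, M.Normal ∧ M ≠ ⊥ ∧ IsSimpleGroup M := by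
  classical
  -- a nontrivial normal subgroup of minimal order
  have hex : ∃ n : ℕ, ∃ M : Subgroup K, M.Normal ∧ M ≠ ⊥ ∧ Nat.card M = n :=
    ⟨_, ⊤, inferInstance, top_ne_bot, rfl⟩
  obtain ⟨M, hMn, hMbot, hMcard⟩ := Nat.find_spec hex
  have hMmin : ∀ A : Subgroup K, A.Normal → A ≠ ⊥ → A ≤ M → A = M := by
    intro A hA hAbot hAM
    have h1 : Nat.find hex ≤ Nat.card A := Nat.find_min' hex ⟨A, hA, hAbot, rfl⟩
    exact Subgroup.eq_of_le_of_card_ge hAM (by rw [hMcard]; exact h1)
  have := hMn
  have hMnt : Nontrivial M := (Subgroup.nontrivial_iff_ne_bot M).mpr hMbot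
  have hcardmap : ∀ T : Subgroup M, Nat.card (T.map M.subtype) = Nat.card T := fun T =>
    Subgroup.card_map_of_injective M.subtype_injective
  have hconjcard : ∀ (g : K) (T : Subgroup M),
      Nat.card (T.map (MulAut.conjNormal (H := M) g).toMonoidHom) = Nat.card T := fun g T =>
    Subgroup.card_map_of_injective (MulAut.conjNormal (H := M) g).injective
  have hconjnormal : ∀ (g : K) (T : Subgroup M), T.Normal →
      (T.map (MulAut.conjNormal (H := M) g).toMonoidHom).Normal := fun g T hT =>
    hT.map _ (MulAut.conjNormal (H := M) g).surjective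
  -- (a) every nontrivial normal subgroup of `M` has order divisible by `p`
  have ha : ∀ A : Subgroup M, A.Normal → A ≠ ⊥ → p ∣ Nat.card A := by
    have hne : Nonempty {A : Subgroup M // A.Normal ∧ ¬ p ∣ Nat.card A} :=
      ⟨⟨⊥, inferInstance, by rw [Subgroup.card_bot]; exact hp.not_dvd_one⟩⟩
    obtain ⟨A₀, hA₀⟩ := Finite.exists_max
      (fun A : {A : Subgroup M // A.Normal ∧ ¬ p ∣ Nat.card A} => Nat.card (A : Subgroup M))
    have hA₀n : (A₀ : Subgroup M).Normal := A₀.2.1
    have hA₀p : ¬ p ∣ Nat.card (A₀ : Subgroup M) := A₀.2.2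
    have hle : ∀ A : Subgroup M, A.Normal → ¬ p ∣ Nat.card A → A ≤ (A₀ : Subgroup M) := by
      intro A hA hAp
      have := hA
      have := hA₀n
      have h1 := card_sup_mul_card_inf A (A₀ : Subgroup M)
      have h2 : ¬ p ∣ Nat.card ↥(A ⊔ (A₀ : Subgroup M)) := by
        intro h
        have h3 : p ∣ Nat.card A * Nat.card (A₀ : Subgroup M) := by
          rw [← h1]
          exact dvd_mul_of_dvd_left h _
        rcases hp.dvd_mul.mp h3 with h4 | h4
        · exact hAp h4
        · exact hA₀p h4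
      have h5 := hA₀ ⟨A ⊔ (A₀ : Subgroup M), inferInstance, h2⟩
      have h6 : (A₀ : Subgroup M) = A ⊔ (A₀ : Subgroup M) :=
        Subgroup.eq_of_le_of_card_ge le_sup_right h5
      rw [h6]
      exact le_sup_left
    have hinv : ∀ g : K, (A₀ : Subgroup M).map (MulAut.conjNormal (H := M) g).toMonoidHom ≤
        (A₀ : Subgroup M) := by
      intro g
      apply hle _ (hconjnormal g _ hA₀n)
      rw [hconjcard]
      exact hA₀p
    have hnK : ((A₀ : Subgroup M).map M.subtype).Normal :=
      normal_map_of_conj_invariant M _ hinv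
    have hbot : (A₀ : Subgroup M).map M.subtype = ⊥ := by
      by_contra hne
      have := hmin _ hnK hne
      rw [hcardmap] at this
      exact hA₀p this
    have hbot' : (A₀ : Subgroup M) = ⊥ := by
      rw [eq_bot_iff]
      intro a ha
      have h1 : (a : K) ∈ (A₀ : Subgroup M).map M.subtype := ⟨a, ha, rfl⟩
      rw [hbot, Subgroup.mem_bot] at h1
      rw [Subgroup.mem_bot]
      exact Subtype.ext h1
    intro A hA hAbot
    by_contra hAp
    have := hle A hA hAp
    rw [hbot'] at this
    exact hAbot (le_bot_iff.mp this)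
  -- a nontrivial normal subgroup of `M` of minimal order
  have hex2 : ∃ n : ℕ, ∃ T : Subgroup M, T.Normal ∧ T ≠ ⊥ ∧ Nat.card T = n :=
    ⟨_, ⊤, inferInstance, top_ne_bot, rfl⟩
  obtain ⟨T, hTn, hTbot, hTcard⟩ := Nat.find_spec hex2
  have hTmin : ∀ A : Subgroup M, A.Normal → A ≠ ⊥ → Nat.card T ≤ Nat.card A := by
    intro A hA hAbot
    rw [hTcard]
    exact Nat.find_min' hex2 ⟨A, hA, hAbot, rfl⟩
  have hpT : p ∣ Nat.card T := ha T hTn hTbot
  -- (b) `T` is invariant under conjugation by `K`
  have hTinv : ∀ g : K, T.map (MulAut.conjNormal (H := M) g).toMonoidHom ≤ T := by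
    intro g
    obtain ⟨B, hB⟩ : ∃ B : Subgroup M, B = T.map (MulAut.conjNormal (H := M) g).toMonoidHom :=
      ⟨_, rfl⟩
    rw [← hB]
    have hBn : B.Normal := hB ▸ hconjnormal g T hTn
    have hBcard : Nat.card B = Nat.card T := by rw [hB, hconjcard]
    have := hTn
    have := hBn
    by_cases hX : T ⊓ B = ⊥
    · exfalso
      have h1 := card_sup_mul_card_inf T B
      rw [hX, Subgroup.card_bot, mul_one, hBcard] at h1
      have h2 : p ^ 2 ∣ Nat.card ↥(T ⊔ B) := by
        rw [h1, pow_two]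
        exact mul_dvd_mul hpT hpT
      have h3 : Nat.card ↥(T ⊔ B) ∣ Nat.card K :=
        dvd_trans (Subgroup.card_subgroup_dvd_card _) (Subgroup.card_subgroup_dvd_card M)
      exact hp2 (dvd_trans h2 h3)
    · have h1 := hTmin (T ⊓ B) inferInstance hX
      have h2 : T ⊓ B = T := Subgroup.eq_of_le_of_card_ge inf_le_left h1
      have h3 : T ≤ B := by
        rw [← h2]
        exact inf_le_right
      have h4 : T = B := Subgroup.eq_of_le_of_card_ge h3 (le_of_eq hBcard)
      rw [← h4]
  have hTK : (T.map M.subtype).Normal := normal_map_of_conj_invariant M T hTinv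
  have hTtop : T = ⊤ := by
    have h1 : T.map M.subtype = M := by
      apply hMmin _ hTK
      · intro h
        apply hTbot
        rw [eq_bot_iff]
        intro a ha
        have h2 : (a : K) ∈ T.map M.subtype := ⟨a, ha, rfl⟩
        rw [h, Subgroup.mem_bot] at h2
        rw [Subgroup.mem_bot]
        exact Subtype.ext h2
      · rintro _ ⟨a, _, rfl⟩
        exact a.2
    rw [eq_top_iff]
    intro a _
    have h2 : (a : K) ∈ T.map M.subtype := by rw [h1]; exact a.2
    obtain ⟨b, hb, hab⟩ := h2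
    have : b = a := Subtype.ext hab
    rw [← this]
    exact hb
  refine ⟨M, hMn, hMbot, ⟨fun A hA => ?_⟩⟩
  by_cases hAbot : A = ⊥
  · exact Or.inl hAbot
  · right
    have h1 := hTmin A hA hAbot
    rw [hTtop] at h1
    exact (Subgroup.eq_of_le_of_card_ge le_top h1)

/-- a simple commutative finite group has prime order -/
theorem prime_card_of_simple_comm {Q : Type*} [Group Q] [IsSimpleGroup Q]
    (h : ∀ a b : Q, a * b = b * a) : (Nat.card Q).Prime := by
  let _ : CommGroup Q := { (inferInstance : Group Q) with mul_comm := h }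
  exact IsSimpleGroup.prime_card

/-- If `p` exactly divides the order of a finite group `G`, then `G` has a simple chief factor
`H / N` of order divisible by `p`, and its order is divisible by every prime `q` such that `G`
has no element of order `p q` (under two mild arithmetic conditions). -/
theorem core {G : Type*} [Group G] [Finite G] {p : ℕ} (hp : p.Prime)
    (hpG : p ∣ Nat.card G) (hp2 : ¬ p ^ 2 ∣ Nat.card G) :
    ∃ (N H : Subgroup G) (_ : N.Normal), H.Normal ∧ N < H ∧
      IsSimpleGroup (↥H ⧸ N.subgroupOf H) ∧ p ∣ Nat.card (↥H ⧸ N.subgroupOf H) ∧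
      ∀ q : ℕ, q.Prime → q ≠ p → q ∣ Nat.card G → (∀ g : G, orderOf g ≠ p * q) →
        ¬ q ∣ p - 1 → (∀ j : ℕ, 1 ≤ j → q ^ j ∣ Nat.card G → ¬ p ∣ q ^ j - 1) →
        q ∣ Nat.card (↥H ⧸ N.subgroupOf H) := by
  classical
  have hne : Nonempty {A : Subgroup G // A.Normal ∧ ¬ p ∣ Nat.card A} :=
    ⟨⟨⊥, inferInstance, by rw [Subgroup.card_bot]; exact hp.not_dvd_one⟩⟩
  obtain ⟨N₀, hN₀⟩ := Finite.exists_max
    (fun A : {A : Subgroup G // A.Normal ∧ ¬ p ∣ Nat.card A} => Nat.card (A : Subgroup G))
  obtain ⟨N, hN⟩ : ∃ N : Subgroup G, N = (N₀ : Subgroup G) := ⟨_, rfl⟩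
  have hNn : N.Normal := hN ▸ N₀.2.1
  have hNp : ¬ p ∣ Nat.card N := hN ▸ N₀.2.2
  have hNmax : ∀ A : Subgroup G, A.Normal → ¬ p ∣ Nat.card A → Nat.card A ≤ Nat.card N := by
    intro A hA hAp
    rw [hN]
    exact hN₀ ⟨A, hA, hAp⟩
  have hcardK : Nat.card G = Nat.card (G ⧸ N) * Nat.card N :=
    Subgroup.card_eq_card_quotient_mul_card_subgroup N
  have hpK : p ∣ Nat.card (G ⧸ N) := by
    rw [hcardK] at hpG
    rcases hp.dvd_mul.mp hpG with h | h
    · exact h
    · exact absurd h hNp
  have hp2K : ¬ p ^ 2 ∣ Nat.card (G ⧸ N) := fun h => hp2 (hcardK ▸ dvd_mul_of_dvd_left h _)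
  have hKnt : Nontrivial (G ⧸ N) := by
    rw [← Finite.one_lt_card_iff_nontrivial]
    exact lt_of_lt_of_le hp.one_lt (Nat.le_of_dvd Nat.card_pos hpK)
  have hcomap : ∀ A : Subgroup (G ⧸ N),
      Nat.card (A.comap (QuotientGroup.mk' N)) = Nat.card N * Nat.card A := by
    intro A
    have h1 := Subgroup.index_comap_of_surjective A (QuotientGroup.mk'_surjective N)
    have h2 := Subgroup.index_mul_card (A.comap (QuotientGroup.mk' N))
    have h3 := Subgroup.index_mul_card A
    have hpos : 0 < A.index := Nat.pos_of_ne_zero Subgroup.index_ne_zero_of_finite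
    apply Nat.eq_of_mul_eq_mul_left hpos
    rw [h1] at h2
    rw [h2, hcardK, ← h3]
    ring
  have hminK : ∀ A : Subgroup (G ⧸ N), A.Normal → A ≠ ⊥ → p ∣ Nat.card A := by
    intro A hA hAbot
    by_contra hAp
    have h1 : (A.comap (QuotientGroup.mk' N)).Normal := hA.comap _
    have h2 : ¬ p ∣ Nat.card (A.comap (QuotientGroup.mk' N)) := by
      rw [hcomap]
      intro h
      rcases hp.dvd_mul.mp h with h | h
      · exact hNp h
      · exact hAp h
    have h3 := hNmax _ h1 h2
    rw [hcomap] at h3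
    have hNpos : 0 < Nat.card N := Nat.card_pos
    have hApos : 0 < Nat.card A := Nat.card_pos
    have h4 : Nat.card A ≤ 1 := by
      by_contra h
      push Not at h
      nlinarith
    have h5 : Nat.card A = 1 := le_antisymm h4 hApos
    exact hAbot (Subgroup.card_eq_one.mp h5)
  obtain ⟨M, hMn, hMbot, hMs⟩ := exists_simple_normal hp hp2K hminK
  have hpM : p ∣ Nat.card M := hminK M hMn hMbot
  obtain ⟨H, hH⟩ : ∃ H : Subgroup G, H = M.comap (QuotientGroup.mk' N) := ⟨_, rfl⟩
  have hHn : H.Normal := hH ▸ hMn.comap _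
  have hNH : N ≤ H := by
    intro x hx
    apply hH.ge
    rw [Subgroup.mem_comap]
    have h1 : QuotientGroup.mk' N x = 1 := (QuotientGroup.eq_one_iff x).mpr hx
    rw [h1]
    exact M.one_mem
  have hNltH : N < H := by
    refine lt_of_le_of_ne hNH ?_
    intro h
    apply hMbot
    rw [eq_bot_iff]
    intro k hk
    obtain ⟨g, rfl⟩ := QuotientGroup.mk'_surjective N k
    have h1 : g ∈ H := hH.ge hk
    rw [← h] at h1
    rw [Subgroup.mem_bot]
    exact (QuotientGroup.eq_one_iff g).mpr h1
  let φ : H →* M := ((QuotientGroup.mk' N).comp H.subtype).codRestrict M (fun x => hH.le x.2)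
  have hφ : Function.Surjective φ := by
    rintro ⟨k, hk⟩
    obtain ⟨g, rfl⟩ := QuotientGroup.mk'_surjective N k
    exact ⟨⟨g, hH.ge hk⟩, Subtype.ext rfl⟩
  have hker : φ.ker = N.subgroupOf H := by
    ext x
    rw [MonoidHom.mem_ker, Subgroup.mem_subgroupOf]
    constructor
    · intro h
      have h1 : QuotientGroup.mk' N (x : G) = 1 := congrArg Subtype.val h
      exact (QuotientGroup.eq_one_iff _).mp h1
    · intro h
      apply Subtype.ext
      exact (QuotientGroup.eq_one_iff _).mpr h
  let e : (↥H ⧸ N.subgroupOf H) ≃* M :=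
    (QuotientGroup.quotientMulEquivOfEq hker.symm).trans
      (QuotientGroup.quotientKerEquivOfSurjective φ hφ)
  have hsimple : IsSimpleGroup (↥H ⧸ N.subgroupOf H) := e.isSimpleGroup
  have hcardHN : Nat.card (↥H ⧸ N.subgroupOf H) = Nat.card M := Nat.card_congr e.toEquiv
  refine ⟨N, H, hNn, hHn, hNltH, hsimple, hcardHN ▸ hpM, ?_⟩
  intro q hq hqp hqG hno hqp1 hj
  rw [hcardHN]
  by_contra hqM
  by_cases hqN : q ∣ Nat.card N
  · have hpidx : p ∣ N.index := by
      rw [Subgroup.index_eq_card]
      exact hpK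
    obtain ⟨g, hg⟩ := exists_pq_of_normal N hp hq hqp.symm hpidx hqN hj
    exact hno g hg
  · have hqK : q ∣ Nat.card (G ⧸ N) := by
      rw [hcardK] at hqG
      rcases hq.dvd_mul.mp hqG with h | h
      · exact h
      · exact absurd h hqN
    have := hMn
    obtain ⟨k, hk⟩ := exists_pq_of_coprime_normal M hp hq hqp.symm hpM hp2K hqK hqM hqp1
    obtain ⟨g, hg⟩ := exists_orderOf_of_surjective (QuotientGroup.mk' N)
      (QuotientGroup.mk'_surjective N) k hk
    exact hno g hg

end Cfsg.Agent.Lib.Helper63.AltSpec
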