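import Mathlib
import Cfsg.Agent.Lib.Helper63.AltSpecB
import Cfsg.Agent.Lib.Helper4.TwoPrNT

set_option autoImplicit false

namespace Cfsg.Agent.Lib.Helper63.AltSpec

/-- no permutation of `Fin n` has order `p * s` for distinct primes with `n < p + s` -/
theorem perm_orderOf_ne {n p s : ℕ} (hp : p.Prime) (hs : s.Prime) (hps : p ≠ s)
    (hn : n < p + s) (σ : Equiv.Perm (Fin n)) : orderOf σ ≠ p * s := by
  intro h
  have hlcm : σ.cycleType.lcm = p * s := by rw [Equiv.Perm.lcm_cycleType, h]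
  have hsum : σ.cycleType.sum ≤ n := by
    have := σ.sum_cycleType_le
    rwa [Fintype.card_fin] at this
  have hprod : σ.cycleType.lcm ∣ σ.cycleType.prod :=
    Multiset.lcm_dvd.mpr (fun a ha => Multiset.dvd_prod ha)
  have hpdvd : p ∣ σ.cycleType.prod := dvd_trans (hlcm ▸ dvd_mul_right p s) hprod
  have hsdvd : s ∣ σ.cycleType.prod := dvd_trans (hlcm ▸ dvd_mul_left s p) hprod
  obtain ⟨a, ha, hpa⟩ := (Nat.Prime.prime hp).exists_mem_multiset_dvd hpdvd
  obtain ⟨b, hb, hsb⟩ := (Nat.Prime.prime hs).exists_mem_multiset_dvd hsdvd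
  have ha0 : 0 < a := by
    have := Equiv.Perm.two_le_of_mem_cycleType ha
    omega
  have hb0 : 0 < b := by
    have := Equiv.Perm.two_le_of_mem_cycleType hb
    omega
  have hpa' : p ≤ a := Nat.le_of_dvd ha0 hpa
  have hsb' : s ≤ b := Nat.le_of_dvd hb0 hsb
  by_cases hab : a = b
  · subst hab
    have h1 : p * s ∣ a :=
      Nat.Coprime.mul_dvd_of_dvd_of_dvd ((Nat.coprime_primes hp hs).mpr hps) hpa hsb
    have h2 : p * s ≤ a := Nat.le_of_dvd ha0 h1
    have h3 : a ≤ σ.cycleType.sum := Multiset.le_sum_of_mem ha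
    have hp2 := hp.two_le
    have hs2 := hs.two_le
    nlinarith
  · obtain ⟨m', hm'⟩ := Multiset.exists_cons_of_mem ha
    rw [hm'] at hb hsum
    rw [Multiset.mem_cons] at hb
    rcases hb with hb | hb
    · exact hab hb.symm
    · have h3 : b ≤ m'.sum := Multiset.le_sum_of_mem hb
      rw [Multiset.sum_cons] at hsum
      omega

/-- a group with the spectrum of `A_n` has no element of order `p * s` -/
theorem no_pq {G : Type*} [Group G] (n : ℕ)
    (hspec : Set.range (orderOf : G → ℕ) =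
      Set.range (orderOf : ↥(alternatingGroup (Fin n)) → ℕ))
    {p s : ℕ} (hp : p.Prime) (hs : s.Prime) (hps : p ≠ s) (hn : n < p + s) :
    ∀ g : G, orderOf g ≠ p * s := by
  intro g hg
  have h1 : p * s ∈ Set.range (orderOf : G → ℕ) := ⟨g, hg⟩
  rw [hspec] at h1
  obtain ⟨σ, hσ⟩ := h1
  exact perm_orderOf_ne hp hs hps hn (σ : Equiv.Perm (Fin n))
    (by rw [Subgroup.orderOf_coe]; exact hσ)

/-- the order of `A_n` -/
theorem two_mul_card_alt (n : ℕ) (hn : 2 ≤ n) :
    2 * Nat.card ↥(alternatingGroup (Fin n)) = n.factorial := by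
  have : Nontrivial (Fin n) := Fin.nontrivial_iff_two_le.mpr hn
  rw [two_mul_nat_card_alternatingGroup, Nat.card_perm, Nat.card_eq_fintype_card,
    Fintype.card_fin]

/-- a prime in `(n/2, n]` divides the order of `A_n` exactly once -/
theorem prime_exact_dvd {n p : ℕ} (hn : 5 ≤ n) (hp : p.Prime) (hp1 : n < 2 * p) (hp2 : p ≤ n) :
    p ∣ Nat.card ↥(alternatingGroup (Fin n)) ∧
      ¬ p ^ 2 ∣ Nat.card ↥(alternatingGroup (Fin n)) := by
  have hc := two_mul_card_alt n (by omega)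
  have hp3 : 3 ≤ p := by omega
  constructor
  · have h1 : p ∣ 2 * Nat.card ↥(alternatingGroup (Fin n)) := by
      rw [hc]
      exact (Nat.Prime.dvd_factorial hp).mpr hp2
    rcases hp.dvd_mul.mp h1 with h | h
    · have := Nat.le_of_dvd (by norm_num) h
      omega
    · exact h
  · intro h
    have h1 : p ^ 2 ∣ n.factorial := by
      rw [← hc]
      exact dvd_mul_of_dvd_right h 2
    have hlog : Nat.log p n < 2 := Nat.log_lt_of_lt_pow (by omega) (by nlinarith)
    rw [hp.pow_dvd_factorial_iff hlog] at h1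
    have h2 : Finset.Ico 1 2 = {1} := by decide
    rw [h2, Finset.sum_singleton, pow_one] at h1
    have h3 : n / p < 2 := Nat.div_lt_of_lt_mul (by omega)
    omega

/-- for odd primes `p ≤ n < 2 s`, `s` does not divide `p - 1` -/
theorem not_dvd_pred {n p s : ℕ} (hp : p.Prime) (hs : s.Prime) (hp3 : 3 ≤ p) (hs3 : 3 ≤ s)
    (hs1 : n < 2 * s) (hp2 : p ≤ n) : ¬ s ∣ p - 1 := by
  intro h
  have hpodd : ¬ 2 ∣ p := fun h2 => by
    have := (Nat.prime_dvd_prime_iff_eq Nat.prime_two hp).mp h2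
    omega
  have h2 : 2 ∣ p - 1 := by omega
  have hcop : Nat.Coprime 2 s := by
    rw [Nat.coprime_primes Nat.prime_two hs]
    omega
  have h3 : 2 * s ∣ p - 1 := Nat.Coprime.mul_dvd_of_dvd_of_dvd hcop h2 h
  have := Nat.le_of_dvd (by omega) h3
  omega

/-- the hypotheses of the clause of `core` for two distinct primes in `(n/2, n]` -/
theorem alt_conditions {G : Type*} [Group G] (n : ℕ) (hn : 5 ≤ n)
    (hcard : Nat.card G = Nat.card ↥(alternatingGroup (Fin n)))
    (hspec : Set.range (orderOf : G → ℕ) =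
      Set.range (orderOf : ↥(alternatingGroup (Fin n)) → ℕ))
    {p s : ℕ} (hp : p.Prime) (hp1 : n < 2 * p) (hp2 : p ≤ n)
    (hs : s.Prime) (hs1 : n < 2 * s) (hs2 : s ≤ n) (hsp : s ≠ p) :
    s ∣ Nat.card G ∧ (∀ g : G, orderOf g ≠ p * s) ∧ ¬ s ∣ p - 1 ∧
      (∀ j : ℕ, 1 ≤ j → s ^ j ∣ Nat.card G → ¬ p ∣ s ^ j - 1) := by
  obtain ⟨hsG, hs2G⟩ := prime_exact_dvd hn hs hs1 hs2
  rw [← hcard] at hsG hs2G
  have hp3 : 3 ≤ p := by omega
  have hs3 : 3 ≤ s := by omega
  refine ⟨hsG, no_pq n hspec hp hs hsp.symm (by omega),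
    not_dvd_pred hp hs hp3 hs3 hs1 hp2, ?_⟩
  intro j hj hdvd hpd
  have hj1 : j = 1 := by
    by_contra hne
    have h1 : s ^ 2 ∣ s ^ j := pow_dvd_pow s (by omega)
    exact hs2G (dvd_trans h1 hdvd)
  subst hj1
  rw [pow_one] at hpd
  exact not_dvd_pred hs hp hs3 hp3 hp1 hs2 hpd

/-- two primes in `(n/2, n]` -/
theorem exists_two_primes (n : ℕ) (hn : 5 ≤ n) (h6 : n ≠ 6) (h10 : n ≠ 10) :
    ∃ p s : ℕ, p.Prime ∧ s.Prime ∧ s ≠ p ∧ n < 2 * p ∧ p ≤ n ∧ n < 2 * s ∧ s ≤ n := by
  by_cases h17 : 17 ≤ n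
  · obtain ⟨p, q, hp, hq, h1, h2, h3⟩ := Cfsg.Agent.Lib.Helper4.TwoPr.exists_primes n h17
    exact ⟨p, q, hp, hq, by omega, h1, by omega, by omega, h3⟩
  · have hcases : n = 5 ∨ n = 7 ∨ n = 8 ∨ n = 9 ∨ n = 11 ∨ n = 12 ∨ n = 13 ∨ n = 14 ∨
        n = 15 ∨ n = 16 := by omega
    rcases hcases with rfl | rfl | rfl | rfl | rfl | rfl | rfl | rfl | rfl | rfl
    · exact ⟨3, 5, by norm_num, by norm_num, by omega, by omega, by omega, by omega, by omega⟩
    · exact ⟨5, 7, by norm_num, by norm_num, by omega, by omega, by omega, by omega, by omega⟩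
    · exact ⟨5, 7, by norm_num, by norm_num, by omega, by omega, by omega, by omega, by omega⟩
    · exact ⟨5, 7, by norm_num, by norm_num, by omega, by omega, by omega, by omega, by omega⟩
    · exact ⟨7, 11, by norm_num, by norm_num, by omega, by omega, by omega, by omega, by omega⟩
    · exact ⟨7, 11, by norm_num, by norm_num, by omega, by omega, by omega, by omega, by omega⟩
    · exact ⟨7, 11, by norm_num, by norm_num, by omega, by omega, by omega, by omega, by omega⟩
    · exact ⟨11, 13, by norm_num, by norm_num, by omega, by omega, by omega, by omega,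
        by omega⟩
    · exact ⟨11, 13, by norm_num, by norm_num, by omega, by omega, by omega, by omega,
        by omega⟩
    · exact ⟨11, 13, by norm_num, by norm_num, by omega, by omega, by omega, by omega,
        by omega⟩

/-- simple section whose order is divisible by all primes in `(n/2, n]`, for `n ≠ 6, 10` -/
theorem exists_section_all_primes {G : Type*} [Group G] [Finite G] (n : ℕ) (hn : 5 ≤ n)
    (h6 : n ≠ 6) (h10 : n ≠ 10)
    (hcard : Nat.card G = Nat.card ↥(alternatingGroup (Fin n)))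
    (hspec : Set.range (orderOf : G → ℕ) =
      Set.range (orderOf : ↥(alternatingGroup (Fin n)) → ℕ)) :
    ∃ (N H : Subgroup G) (_ : N.Normal), H.Normal ∧ N < H ∧
      IsSimpleGroup (↥H ⧸ N.subgroupOf H) ∧
      (∃ p s : ℕ, p.Prime ∧ s.Prime ∧ s ≠ p ∧ n < 2 * p ∧ p ≤ n ∧ n < 2 * s ∧ s ≤ n) ∧
      ∀ p : ℕ, p.Prime → n < 2 * p → p ≤ n → p ∣ Nat.card (↥H ⧸ N.subgroupOf H) := by
  obtain ⟨p, s, hp, hs, hsp, hp1, hp2, hs1, hs2⟩ := exists_two_primes n hn h6 h10
  obtain ⟨hpG, hp2G⟩ := prime_exact_dvd hn hp hp1 hp2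
  rw [← hcard] at hpG hp2G
  obtain ⟨N, H, hN, hH, hlt, hsimp, hpdvd, hcl⟩ := core hp hpG hp2G
  refine ⟨N, H, hN, hH, hlt, hsimp, ⟨p, s, hp, hs, hsp, hp1, hp2, hs1, hs2⟩, ?_⟩
  intro r hr hr1 hr2
  by_cases hrp : r = p
  · rw [hrp]
    exact hpdvd
  · obtain ⟨h1, h2, h3, h4⟩ := alt_conditions n hn hcard hspec hp hp1 hp2 hr hr1 hr2 hrp
    exact hcl r hr hrp h1 h2 h3 h4

/-- simple section whose order is divisible by two distinct primes -/
theorem exists_section_two_primes {G : Type*} [Group G] [Finite G] (n : ℕ) (hn : 5 ≤ n)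
    (hcard : Nat.card G = Nat.card ↥(alternatingGroup (Fin n)))
    (hspec : Set.range (orderOf : G → ℕ) =
      Set.range (orderOf : ↥(alternatingGroup (Fin n)) → ℕ)) :
    ∃ (N H : Subgroup G) (_ : N.Normal), H.Normal ∧ N < H ∧
      IsSimpleGroup (↥H ⧸ N.subgroupOf H) ∧
      ∃ p s : ℕ, p.Prime ∧ s.Prime ∧ s ≠ p ∧ p ∣ Nat.card (↥H ⧸ N.subgroupOf H) ∧
        s ∣ Nat.card (↥H ⧸ N.subgroupOf H) := by
  by_cases h6 : n = 6
  · subst h6
    have hc := two_mul_card_alt 6 (by omega)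
    rw [← hcard] at hc
    have hG : Nat.card G = 360 := by
      have : Nat.factorial 6 = 720 := by decide
      omega
    obtain ⟨N, H, hN, hH, hlt, hsimp, hpdvd, hcl⟩ :=
      core (G := G) (p := 5) (by norm_num) (by rw [hG]; norm_num) (by rw [hG]; norm_num)
    refine ⟨N, H, hN, hH, hlt, hsimp, 5, 3, by norm_num, by norm_num, by omega, hpdvd, ?_⟩
    refine hcl 3 (by norm_num) (by omega) (by rw [hG]; norm_num)
      (no_pq 6 hspec (by norm_num) (by norm_num) (by omega) (by omega)) (by norm_num) ?_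
    intro j hj hdvd
    rw [hG] at hdvd
    have hj2 : j ≤ 2 := by
      by_contra hcon
      have h1 : 3 ^ 3 ∣ 3 ^ j := pow_dvd_pow 3 (by omega)
      have h2 : 3 ^ 3 ∣ 360 := dvd_trans h1 hdvd
      norm_num at h2
    interval_cases j <;> norm_num
  by_cases h10 : n = 10
  · subst h10
    have hc := two_mul_card_alt 10 (by omega)
    rw [← hcard] at hc
    have hG : Nat.card G = 1814400 := by
      have : Nat.factorial 10 = 3628800 := by decide
      omega
    obtain ⟨N, H, hN, hH, hlt, hsimp, hpdvd, hcl⟩ :=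
      core (G := G) (p := 7) (by norm_num) (by rw [hG]; norm_num) (by rw [hG]; norm_num)
    refine ⟨N, H, hN, hH, hlt, hsimp, 7, 5, by norm_num, by norm_num, by omega, hpdvd, ?_⟩
    refine hcl 5 (by norm_num) (by omega) (by rw [hG]; norm_num)
      (no_pq 10 hspec (by norm_num) (by norm_num) (by omega) (by omega)) (by norm_num) ?_
    intro j hj hdvd
    rw [hG] at hdvd
    have hj2 : j ≤ 2 := by
      by_contra hcon
      have h1 : 5 ^ 3 ∣ 5 ^ j := pow_dvd_pow 5 (by omega)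
      have h2 : 5 ^ 3 ∣ 1814400 := dvd_trans h1 hdvd
      norm_num at h2
    interval_cases j <;> norm_num
  obtain ⟨N, H, hN, hH, hlt, hsimp, ⟨p, s, hp, hs, hsp, hp1, hp2, hs1, hs2⟩, hall⟩ :=
    exists_section_all_primes n hn h6 h10 hcard hspec
  exact ⟨N, H, hN, hH, hlt, hsimp, p, s, hp, hs, hsp, hall p hp hp1 hp2, hall s hs hs1 hs2⟩

end Cfsg.Agent.Lib.Helper63.AltSpec
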