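import Mathlib
import Cfsg.Agent.Lib.Helper5.BQ0
import Cfsg.Agent.Lib.Helper82.CharCore

/-!
S0996 piece BQ-T2 (poster helper5): integrality of the central characters summed over `Y`
gives `x₀ ∣ (1 + n p) e`.  (Adapted from `Cfsg.Agent.Lib.Helper10.BR.x0_dvd_of`, Helper6/BRT2.)
-/

set_option autoImplicit false

namespace Cfsg.Agent.Lib.Helper5.BQ

open Cfsg
open Cfsg.Agent.Lib.Helper83 (trivIrr)
open Cfsg.Agent.Lib.Helper10.BR (psum DOut)
open scoped ComplexConjugate

section T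

variable {G : Type*} [Group G] [Fintype G] {p e t n : ℕ} {P : Subgroup G} {ε : ℤ} {x₀ : ℕ}
  {A B Y D : Finset (IrrCharacter G)}

namespace BQT2

omit [Fintype G] in
/-- the centralizer of a nontrivial element of `P` is `P` -/
theorem cent_elt (h : GTab G p e t n P ε x₀ A B Y D) {x : G} (hx : x ∈ P) (hx1 : x ≠ 1) :
    Subgroup.centralizer ({x} : Set G) = P := by
  have hp := h.hp
  have : Fact p.Prime := ⟨hp⟩
  apply le_antisymm
  · have h1 : Subgroup.centralizer ({x} : Set G) ≤ Subgroup.centralizer (P : Set G) := by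
      intro y hy
      rw [Subgroup.mem_centralizer_iff] at hy ⊢
      intro z hz
      have hg : (⟨x, hx⟩ : P) ≠ 1 := fun h1 => hx1 (congrArg Subtype.val h1)
      have hz' : (⟨z, hz⟩ : P) ∈ Subgroup.zpowers (⟨x, hx⟩ : P) :=
        mem_zpowers_of_prime_card h.cardP hg
      obtain ⟨k, hk⟩ := Subgroup.mem_zpowers_iff.mp hz'
      have hzk : z = x ^ k := by
        have := congrArg Subtype.val hk
        simpa using this.symm
      have hxy : Commute x y := hy x (Set.mem_singleton x)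
      rw [hzk]
      exact (hxy.zpow_left k).eq
    exact h1.trans_eq h.cent
  · have h2 := Subgroup.centralizer_le (show ({x} : Set G) ⊆ (P : Set G) from by
      intro y hy
      rw [Set.mem_singleton_iff.mp hy]
      exact hx)
    exact h.cent.symm.le.trans h2

end BQT2

/-- BQ-T2 -/
theorem gx0_dvd (h : GTab G p e t n P ε x₀ A B Y D)
    (hF1 : ∀ x ∈ P, x ≠ 1 → ∑ θ ∈ Y, (θ : G → ℂ) x = -(ε : ℂ)) :
    x₀ ∣ (1 + n * p) * e := by
  classical
  have hp := h.hp
  have : Fact p.Prime := ⟨hp⟩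
  obtain ⟨x, hx, hx1⟩ : ∃ x ∈ P, x ≠ 1 := by
    have hnt : Nontrivial P := by
      apply (Finite.one_lt_card_iff_nontrivial).mp
      rw [h.cardP]
      exact hp.one_lt
    obtain ⟨⟨y, hy⟩, hne⟩ := exists_ne (1 : P)
    exact ⟨y, hy, fun h1 => hne (Subtype.ext h1)⟩
  have hcent := BQT2.cent_elt h hx hx1
  -- the index
  have hidx : (Subgroup.centralizer ({x} : Set G)).index = (1 + n * p) * e := by
    have h1 := Subgroup.index_mul_card (Subgroup.centralizer ({x} : Set G))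
    rw [hcent, h.cardP, h.cardG] at h1
    have h2 : P.index * p = ((1 + n * p) * e) * p := by rw [h1]; ring
    have h3 := Nat.eq_of_mul_eq_mul_right hp.pos h2
    rw [hcent, h3]
  have hx0 : x₀ ≠ 0 := by
    have := h.x₀_ge
    omega
  have hx0C : (x₀ : ℂ) ≠ 0 := by exact_mod_cast hx0
  -- integrality of the sum of the central characters
  have hint : IsIntegral ℤ (∑ θ ∈ Y, centralChar (θ : G → ℂ) x) :=
    IsIntegral.sum _ (fun θ _ => Cfsg.Agent.Lib.Helper82.irr_centralChar_isIntegral θ x)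
  have hsum : ∑ θ ∈ Y, centralChar (θ : G → ℂ) x
      = -(ε : ℂ) * ((((1 + n * p) * e : ℕ) : ℂ) / (x₀ : ℂ)) := by
    have h1 : ∀ θ ∈ Y, centralChar (θ : G → ℂ) x
        = (((1 + n * p) * e : ℕ) : ℂ) / (x₀ : ℂ) * (θ : G → ℂ) x := by
      intro θ hθ
      unfold centralChar
      rw [hidx, h.degY θ hθ]
      field_simp
    rw [Finset.sum_congr rfl h1, ← Finset.mul_sum, hF1 x hx hx1]
    ring
  rw [hsum] at hint
  have hint2 : IsIntegral ℤ
      (-(ε : ℂ) * (-(ε : ℂ) * ((((1 + n * p) * e : ℕ) : ℂ) / (x₀ : ℂ)))) := by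
    apply IsIntegral.mul _ hint
    have h1 : IsIntegral ℤ (algebraMap ℤ ℂ (-ε)) := isIntegral_algebraMap
    simpa using h1
  have hεsq : (ε : ℂ) * (ε : ℂ) = 1 := by
    rcases h.hε with h1 | h1 <;> rw [h1] <;> norm_num
  have hint3 : IsIntegral ℤ ((((1 + n * p) * e : ℕ) : ℂ) / (x₀ : ℂ)) := by
    have h1 : -(ε : ℂ) * (-(ε : ℂ) * ((((1 + n * p) * e : ℕ) : ℂ) / (x₀ : ℂ)))
        = ((ε : ℂ) * (ε : ℂ)) * ((((1 + n * p) * e : ℕ) : ℂ) / (x₀ : ℂ)) := by ring
    rw [h1, hεsq, one_mul] at hint2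
    exact hint2
  exact Cfsg.Agent.Lib.Helper82.isIntegral_div_imp_dvd _ _ hx0 hint3

end T

end Cfsg.Agent.Lib.Helper5.BQ
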