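import Mathlib
import Cfsg.Agent.Lib.Helper92.DOCL5

/-! helper63: piece POW (`pow_facts`) of the DG project of helper79 (S4507). -/

set_option autoImplicit false

namespace Cfsg.Agent.Lib.Helper63.DG

open Cfsg

section

variable {G : Type*} [Group G] [Fintype G]

/-- PIECE POW -/
theorem pow_facts (p : ℕ) [Fact p.Prime] (P : Sylow p G) (hP : Nat.card P = p)
    (z : G) (hz : z ∈ (P : Subgroup G)) (hz1 : z ≠ 1) (k : ℕ)
    (hk1 : k ≡ 1 [MOD Nat.card G / p ^ (Nat.card G).factorization p]) :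
    (∀ g : G, ¬ p ∣ orderOf g → g ^ k = g) ∧
    (∀ (t : ZMod p) (s : Subgroup.centralizer ((P : Subgroup G) : Set G)), ¬ p ∣ orderOf s →
      (z ^ t.val * (s : G)) ^ k = z ^ (t * (k : ZMod p)).val * (s : G)) := by
  have hp : p.Prime := Fact.out
  have ha : ∀ g : G, ¬ p ∣ orderOf g → g ^ k = g := by
    intro g hg
    have h1 : orderOf g ∣ Nat.card G := orderOf_dvd_natCard g
    have h2 : p ^ (Nat.card G).factorization p * (Nat.card G / p ^ (Nat.card G).factorization p)
        = Nat.card G := Nat.ordProj_mul_ordCompl_eq_self (Nat.card G) p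
    rw [← h2] at h1
    have hcop : Nat.Coprime (orderOf g) (p ^ (Nat.card G).factorization p) :=
      Nat.Coprime.pow_right _ ((Nat.Prime.coprime_iff_not_dvd hp).mpr hg).symm
    have h3 : orderOf g ∣ Nat.card G / p ^ (Nat.card G).factorization p :=
      hcop.dvd_of_dvd_mul_left h1
    have h4 : k ≡ 1 [MOD orderOf g] := hk1.of_dvd h3
    have h5 := (pow_eq_pow_iff_modEq (x := g)).mpr h4
    rw [pow_one] at h5
    exact h5
  refine ⟨ha, ?_⟩
  intro t s hs
  have hord : orderOf z = p := Cfsg.Agent.Lib.Helper92.DO.cf_order p P hP z hz hz1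
  have hsz : z * (s : G) = (s : G) * z := by
    have h1 := s.2
    rw [Subgroup.mem_centralizer_iff] at h1
    exact h1 z hz
  have hcomm : Commute (z ^ t.val) (s : G) := (show Commute z (s : G) from hsz).pow_left _
  have hsk : (s : G) ^ k = (s : G) := by
    apply ha
    rw [Subgroup.orderOf_coe]
    exact hs
  rw [hcomm.mul_pow, hsk, ← pow_mul]
  congr 1
  rw [pow_eq_pow_iff_modEq, hord, ZMod.val_mul, ZMod.val_natCast]
  have h1 : t.val * (k % p) % p ≡ t.val * (k % p) [MOD p] := Nat.mod_modEq _ _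
  have h2 : t.val * (k % p) ≡ t.val * k [MOD p] := Nat.ModEq.mul_left _ (Nat.mod_modEq _ _)
  exact (h1.trans h2).symm

end

end Cfsg.Agent.Lib.Helper63.DG
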