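import Mathlib
import Cfsg.Agent.S3370
import Cfsg.Agent.Lib.Helper63.Hup4
import Cfsg.Agent.Lib.Helper66.PAct

/-!
# Half-transitive `p`-groups of linear maps: basics and the odd case (helper63)
-/

set_option autoImplicit false

namespace Cfsg.Agent.Lib.Helper63.Half1

open Cfsg.Agent.S3370

section
variable {q : ℕ} [Fact q.Prime] {V : Type*} [AddCommGroup V] [Module (ZMod q) V]
  {G : Type*} [Group G] (ρ : G →* (V ≃ₗ[ZMod q] V))

/-- half-transitivity in terms of stabilizers -/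
def HT : Prop := ∀ v w : V, v ≠ 0 → w ≠ 0 → Nat.card (stab ρ v) = Nat.card (stab ρ w)

theorem ht_of_half [Finite V] [Finite G]
    (hhalf : ∀ v w : V, v ≠ 0 → w ≠ 0 →
      Nat.card {u : V | ∃ g : G, ρ g v = u} = Nat.card {u : V | ∃ g : G, ρ g w = u}) : HT ρ := by
  intro v w hv hw
  let _ := act ρ
  have h1 : ∀ x : V, Nat.card (stab ρ x) * Nat.card {u : V | ∃ g : G, ρ g x = u} = Nat.card G := by
    intro x
    have h3 := MulAction.index_stabilizer G x
    have e1 : MulAction.stabilizer G x = stab ρ x := by ext g; rfl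
    have e2 : MulAction.orbit G x = {u : V | ∃ g : G, ρ g x = u} := rfl
    rw [e1, e2] at h3
    rw [Nat.card_coe_set_eq, ← h3]
    exact Subgroup.card_mul_index _
  have h2 := h1 v
  rw [hhalf v w hv hw, ← h1 w] at h2
  have hpos : 0 < Nat.card {u : V | ∃ g : G, ρ g w = u} := by
    have : Nonempty {u : V | ∃ g : G, ρ g w = u} := ⟨⟨w, 1, by rw [map_one]; rfl⟩⟩
    exact Nat.card_pos
  exact Nat.eq_of_mul_eq_mul_right hpos h2

theorem stab_eq_of_le [Finite G] (hT : HT ρ) {u v : V} (hu : u ≠ 0) (hv : v ≠ 0)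
    (h : stab ρ u ≤ stab ρ v) : stab ρ u = stab ρ v :=
  Subgroup.eq_of_le_of_card_ge h (hT v u hv hu).le

/-- the trace map of `g` -/
noncomputable def Nm (g : G) (n : ℕ) : V →ₗ[ZMod q] V :=
  ∑ i ∈ Finset.range n, ((ρ (g ^ i) : V ≃ₗ[ZMod q] V) : V →ₗ[ZMod q] V)

theorem Nm_apply (g : G) (n : ℕ) (x : V) : Nm ρ g n x = ∑ i ∈ Finset.range n, ρ (g ^ i) x := by
  unfold Nm
  rw [LinearMap.sum_apply]
  rfl

theorem Nm_fix (g : G) (n : ℕ) (hg : g ^ n = 1) (x : V) : ρ g (Nm ρ g n x) = Nm ρ g n x := by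
  rw [Nm_apply, map_sum]
  have h1 : ∀ i : ℕ, ρ g (ρ (g ^ i) x) = ρ (g ^ (i + 1)) x := by
    intro i; rw [pow_succ', map_mul]; rfl
  rw [Finset.sum_congr rfl (fun i _ => h1 i)]
  have h2 := Finset.sum_range_succ (fun i => ρ (g ^ i) x) n
  have h3 := Finset.sum_range_succ' (fun i => ρ (g ^ i) x) n
  rw [h2] at h3
  simp only [hg, pow_zero] at h3
  exact (add_right_cancel h3).symm

theorem pow_fix (g : G) (x : V) (hx : ρ g x = x) (i : ℕ) : ρ (g ^ i) x = x := by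
  induction i with
  | zero => rw [pow_zero, map_one]; rfl
  | succ i ih => rw [pow_succ, map_mul, LinearEquiv.mul_apply, hx, ih]

theorem Nm_of_fix (g : G) (n : ℕ) (x : V) (hx : ρ g x = x) : Nm ρ g n x = (n : ZMod q) • x := by
  rw [Nm_apply, Finset.sum_congr rfl (fun i _ => pow_fix ρ g x hx i), Finset.sum_const,
    Finset.card_range, Nat.cast_smul_eq_nsmul]

theorem Nm_conj (h g : G) (n : ℕ) (x : V) :
    ρ h (Nm ρ g n x) = Nm ρ (h * g * h⁻¹) n (ρ h x) := by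
  rw [Nm_apply, Nm_apply, map_sum]
  refine Finset.sum_congr rfl (fun i _ => ?_)
  rw [conj_pow, ← LinearEquiv.mul_apply, ← LinearEquiv.mul_apply, ← map_mul, ← map_mul]
  congr 2
  group

theorem Nm_comm (h g : G) (hc : h * g = g * h) (n : ℕ) (x : V) :
    ρ h (Nm ρ g n x) = Nm ρ g n (ρ h x) := by
  rw [Nm_conj, hc, mul_inv_cancel_right]

/-- a nontrivial central element of order prime to `q` is fixed point free -/
theorem central_fpf [Finite G] (hρ : Function.Injective ρ) (hT : HT ρ) (z : G)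
    (hz : ∀ g : G, g * z = z * g) (n : ℕ) (hn : z ^ n = 1) (hnq : (n : ZMod q) ≠ 0) (hz1 : z ≠ 1)
    (v : V) (hv : v ≠ 0) : ρ z v ≠ v := by
  intro hzv
  obtain ⟨x, hx⟩ : ∃ x : V, ρ z x ≠ x := by
    by_contra hcon
    push Not at hcon
    exact hz1 (eq_one_of_fix ρ hρ z (fun v _ => hcon v))
  obtain ⟨w, hw⟩ : ∃ w : V, w = (n : ZMod q) • x - Nm ρ z n x := ⟨_, rfl⟩
  have hNw : Nm ρ z n w = 0 := by
    rw [hw, map_sub, map_smul, Nm_of_fix ρ z n (Nm ρ z n x) (Nm_fix ρ z n hn x), sub_self]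
  have hw0 : w ≠ 0 := by
    intro h0
    apply hx
    have h1 : (n : ZMod q) • x = Nm ρ z n x := sub_eq_zero.1 (hw ▸ h0)
    have h2 : ρ z ((n : ZMod q) • x) = (n : ZMod q) • x := by rw [h1]; exact Nm_fix ρ z n hn x
    rw [map_smul] at h2
    exact smul_right_injective V hnq h2
  have hNu : Nm ρ z n (v + w) = (n : ZMod q) • v := by
    rw [map_add, hNw, add_zero, Nm_of_fix ρ z n v hzv]
  have hu0 : v + w ≠ 0 := by
    intro h0
    rw [h0, map_zero] at hNu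
    exact hv ((smul_eq_zero.1 hNu.symm).resolve_left hnq)
  have hle : stab ρ (v + w) ≤ stab ρ v := by
    intro g hg
    have hg' : ρ g (v + w) = v + w := hg
    have h1 : ρ g (Nm ρ z n (v + w)) = Nm ρ z n (ρ g (v + w)) := Nm_comm ρ g z (hz g) n _
    rw [hg', hNu, map_smul] at h1
    exact smul_right_injective V hnq h1
  have heq := stab_eq_of_le ρ hT hu0 hv hle
  have hzu : z ∈ stab ρ (v + w) := by rw [heq]; exact hzv
  have hzw : ρ z w = w := by
    have h1 : ρ z (v + w) = v + w := hzu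
    rw [map_add, hzv] at h1
    exact add_left_cancel h1
  have h2 := Nm_of_fix ρ z n w hzw
  rw [hNw] at h2
  exact hw0 ((smul_eq_zero.1 h2.symm).resolve_left hnq)

/-- if `g` normalizes a subgroup `⟨c⟩` of order `p` in a `p`-group then it centralizes `c` -/
theorem comm_of_zpowers_conj [Finite G] (p : ℕ) [Fact p.Prime] (hG : IsPGroup p G) (g c : G)
    (hc : orderOf c = p)
    (h : Subgroup.zpowers (g * c * g⁻¹) = Subgroup.zpowers c) : g * c = c * g := by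
  have hn : g ∈ Subgroup.normalizer (Subgroup.zpowers c : Set G) := by
    rw [Subgroup.mem_normalizer_iff]
    intro x
    constructor
    · intro hx
      obtain ⟨k, rfl⟩ := Subgroup.mem_zpowers_iff.1 hx
      rw [← h, ← conj_zpow]
      exact Subgroup.zpow_mem_zpowers _ k
    · intro hx
      rw [← h] at hx
      obtain ⟨k, hk⟩ := Subgroup.mem_zpowers_iff.1 hx
      rw [conj_zpow] at hk
      have hxk : c ^ k = x := mul_left_cancel (mul_right_cancel hk)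
      rw [← hxk]
      exact Subgroup.zpow_mem_zpowers _ k
  have h1 := Cfsg.Agent.Lib.Helper66.le_centralizer_of_card_prime (H := Subgroup.zpowers g)
    (Z := Subgroup.zpowers c) (hG.to_subgroup _) (by rw [Nat.card_zpowers, hc])
    (Subgroup.zpowers_le.2 hn)
  have h2 := h1 (Subgroup.mem_zpowers c)
  rw [Subgroup.mem_centralizer_iff] at h2
  exact h2 g (Subgroup.mem_zpowers g)

/-- conjugation as a monoid homomorphism -/
def cj (x : G) : G →* G := (MulAut.conj x).toMonoidHom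

theorem cj_apply (x c : G) : cj x c = x * c * x⁻¹ := rfl

theorem map_cj_zpowers (x c : G) :
    (Subgroup.zpowers c).map (cj x) = Subgroup.zpowers (x * c * x⁻¹) := by
  rw [MonoidHom.map_zpowers, cj_apply]

theorem map_cj_cj (x y : G) (B : Subgroup G) : (B.map (cj y)).map (cj x) = B.map (cj (x * y)) := by
  rw [Subgroup.map_map]
  congr 1
  ext t
  simp only [MonoidHom.comp_apply, cj_apply]
  group

theorem map_cj_one (B : Subgroup G) : B.map (cj (1 : G)) = B := by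
  have : cj (1 : G) = MonoidHom.id G := by
    ext t
    simp [cj_apply]
  rw [this, Subgroup.map_id]

theorem conj_ne_one {k c : G} (hc : c ≠ 1) : k * c * k⁻¹ ≠ 1 := by
  intro h
  apply hc
  have : c = k⁻¹ * (k * c * k⁻¹) * k := by group
  rw [this, h]; group

theorem conj_fix (k c : G) (x : V) (hx : ρ c x = x) : ρ (k * c * k⁻¹) (ρ k x) = ρ k x := by
  rw [← LinearEquiv.mul_apply, ← map_mul, inv_mul_cancel_right, map_mul, LinearEquiv.mul_apply, hx]

/-- for odd `p` (prime to `q`), a half-transitive `p`-group has no normal elementary abelian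
subgroup of order `p²` -/
theorem odd_contra [Finite V] [Nontrivial V] [Finite G] (p : ℕ) [Fact p.Prime] (hp2 : p ≠ 2)
    (hpq : (p : ZMod q) ≠ 0) (hG : IsPGroup p G) (hρ : Function.Injective ρ) (hT : HT ρ)
    (A : Subgroup G) (hAn : A.Normal) (hAc : ∀ a ∈ A, ∀ b ∈ A, a * b = b * a)
    (hAp : ∀ a ∈ A, a ^ p = 1) (hAcard : Nat.card A = p ^ 2) : False := by
  have hp : p.Prime := Fact.out
  have hAne : A ≠ ⊥ := by
    intro h
    rw [h, Subgroup.card_bot] at hAcard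
    have := hp.one_lt
    nlinarith
  have hinf := Cfsg.Agent.Lib.Helper66.normal_inf_center_ne_bot hG hAne
  obtain ⟨z, hzmem, hz1⟩ : ∃ z ∈ A ⊓ Subgroup.center G, z ≠ 1 := by
    by_contra hcon
    push Not at hcon
    exact hinf ((Subgroup.eq_bot_iff_forall _).mpr hcon)
  have hzA : z ∈ A := hzmem.1
  have hzc : ∀ g : G, g * z = z * g := fun g => Subgroup.mem_center_iff.mp hzmem.2 g
  have hzp : z ^ p = 1 := hAp z hzA
  have hzf : ∀ v : V, v ≠ 0 → ρ z v ≠ v := central_fpf ρ hρ hT z hzc p hzp hpq hz1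
  have hord : ∀ c ∈ A, c ≠ 1 → orderOf c = p := fun c hc hc1 => orderOf_eq_prime (hAp c hc) hc1
  -- two distinct subgroups of order p in A have no common fixed vectors
  have hdisj : ∀ c ∈ A, ∀ c' ∈ A, c ≠ 1 → c' ≠ 1 → Subgroup.zpowers c ≠ Subgroup.zpowers c' →
      ∀ x : V, ρ c x = x → ρ c' x = x → x = 0 := by
    intro c hc c' hc' hc1 hc'1 hne x hx hx'
    by_contra hx0
    have h1 : Subgroup.zpowers c ≤ stab ρ x ⊓ A := by
      rw [Subgroup.zpowers_le]; exact ⟨hx, hc⟩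
    have h2 : Subgroup.zpowers c' ≤ stab ρ x ⊓ A := by
      rw [Subgroup.zpowers_le]; exact ⟨hx', hc'⟩
    have h3 : Nat.card (stab ρ x ⊓ A : Subgroup G) ∣ p ^ 2 := by
      rw [← hAcard]; exact Subgroup.card_dvd_of_le inf_le_right
    obtain ⟨k, hk2, hk⟩ := (Nat.dvd_prime_pow hp).1 h3
    have hc_card : Nat.card (Subgroup.zpowers c) = p := by rw [Nat.card_zpowers, hord c hc hc1]
    have hc'_card : Nat.card (Subgroup.zpowers c') = p := by
      rw [Nat.card_zpowers, hord c' hc' hc'1]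
    have hle1 := Subgroup.card_le_of_le h1
    rw [hc_card, hk] at hle1
    interval_cases k
    · simp at hle1; have := hp.one_lt; omega
    · rw [pow_one] at hk
      have e1 := Subgroup.eq_of_le_of_card_ge h1 (by rw [hk, hc_card])
      have e2 := Subgroup.eq_of_le_of_card_ge h2 (by rw [hk, hc'_card])
      exact hne (e1.trans e2.symm)
    · have e1 : stab ρ x ⊓ A = A := Subgroup.eq_of_le_of_card_ge inf_le_right (by rw [hk, hAcard])
      have hz' : z ∈ stab ρ x ⊓ A := by rw [e1]; exact hzA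
      exact hzf x hx0 hz'.1
  have hNz : ∀ c ∈ A, ∀ c' ∈ A, c ≠ 1 → c' ≠ 1 → Subgroup.zpowers c ≠ Subgroup.zpowers c' →
      ∀ x : V, ρ c' x = x → Nm ρ c p x = 0 := by
    intro c hc c' hc' hc1 hc'1 hne x hx'
    apply hdisj c hc c' hc' hc1 hc'1 hne
    · exact Nm_fix ρ c p (hAp c hc) x
    · rw [Nm_comm ρ c' c (hAc c' hc' c hc) p x, hx']
  obtain ⟨b, hbA, hbz⟩ : ∃ b ∈ A, b ∉ Subgroup.zpowers z := by
    by_contra hcon
    push Not at hcon
    have hle : A ≤ Subgroup.zpowers z := fun a ha => hcon a ha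
    have h1 := Subgroup.card_le_of_le hle
    rw [hAcard, Nat.card_zpowers, hord z hzA hz1] at h1
    have := hp.one_lt
    nlinarith
  obtain ⟨v, hv⟩ := exists_ne (0 : V)
  have hzpj : ∀ j : ℕ, (z ^ j) ^ p = 1 := fun j => by rw [← pow_mul, mul_comm, pow_mul, hzp, one_pow]
  have hsum : ∑ i ∈ Finset.range p, Nm ρ (z ^ i * b) p v = (p : ZMod q) • v := by
    have h1 : ∀ i j : ℕ, ρ ((z ^ i * b) ^ j) v = ρ ((z ^ j) ^ i) (ρ (b ^ j) v) := by
      intro i j
      have hcomm : Commute (z ^ i) b := Commute.pow_left (hzc b).symm i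
      rw [hcomm.mul_pow, ← pow_mul, ← pow_mul, mul_comm j i, map_mul]; rfl
    calc ∑ i ∈ Finset.range p, Nm ρ (z ^ i * b) p v
        = ∑ i ∈ Finset.range p, ∑ j ∈ Finset.range p, ρ ((z ^ j) ^ i) (ρ (b ^ j) v) := by
          refine Finset.sum_congr rfl (fun i _ => ?_)
          rw [Nm_apply]
          exact Finset.sum_congr rfl (fun j _ => h1 i j)
      _ = ∑ j ∈ Finset.range p, Nm ρ (z ^ j) p (ρ (b ^ j) v) := by
          rw [Finset.sum_comm]
          refine Finset.sum_congr rfl (fun j _ => ?_)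
          rw [Nm_apply]
      _ = Nm ρ (z ^ 0) p (ρ (b ^ 0) v) := by
          apply Finset.sum_eq_single_of_mem 0 (Finset.mem_range.2 hp.pos)
          intro j hj hj0
          by_contra hne
          have hzj1 : z ^ j ≠ 1 := by
            intro h
            have h5 := orderOf_dvd_of_pow_eq_one h
            rw [hord z hzA hz1] at h5
            have h6 := Nat.le_of_dvd (Nat.pos_of_ne_zero hj0) h5
            have h7 := Finset.mem_range.1 hj
            omega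
          have hzjc : ∀ g : G, g * z ^ j = z ^ j * g := fun g =>
            (Commute.pow_right (hzc g) j).eq
          exact central_fpf ρ hρ hT (z ^ j) hzjc p (hzpj j) hpq hzj1 _ hne
            (Nm_fix ρ (z ^ j) p (hzpj j) _)
      _ = (p : ZMod q) • v := by
          rw [pow_zero, pow_zero, map_one]
          exact Nm_of_fix ρ 1 p v (by rw [map_one]; rfl)
  obtain ⟨i, hi⟩ : ∃ i : ℕ, Nm ρ (z ^ i * b) p v ≠ 0 := by
    by_contra hcon
    push Not at hcon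
    rw [Finset.sum_congr rfl (fun i _ => hcon i), Finset.sum_const_zero] at hsum
    exact hv ((smul_eq_zero.1 hsum.symm).resolve_left hpq)
  obtain ⟨b₀, hb₀⟩ : ∃ b₀ : G, b₀ = z ^ i * b := ⟨_, rfl⟩
  have hb₀A : b₀ ∈ A := by rw [hb₀]; exact A.mul_mem (A.pow_mem hzA i) hbA
  have hb₀1 : b₀ ≠ 1 := by
    intro h
    apply hbz
    have h5 : b = (z ^ i)⁻¹ := by rw [hb₀] at h; exact eq_inv_of_mul_eq_one_right h
    rw [h5]
    exact Subgroup.inv_mem _ (Subgroup.pow_mem _ (Subgroup.mem_zpowers z) i)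
  obtain ⟨v₀, hv₀⟩ : ∃ v₀ : V, v₀ = Nm ρ b₀ p v := ⟨_, rfl⟩
  have hv₀0 : v₀ ≠ 0 := by rw [hv₀, hb₀]; exact hi
  have hv₀f : ρ b₀ v₀ = v₀ := by rw [hv₀]; exact Nm_fix ρ b₀ p (hAp b₀ hb₀A) v
  -- b₀ is not central
  obtain ⟨g, hg⟩ : ∃ g : G, g * b₀ ≠ b₀ * g := by
    by_contra hcon
    push Not at hcon
    exact central_fpf ρ hρ hT b₀ hcon p (hAp b₀ hb₀A) hpq hb₀1 v₀ hv₀0 hv₀f
  obtain ⟨b₁, hb₁⟩ : ∃ b₁ : G, b₁ = g * b₀ * g⁻¹ := ⟨_, rfl⟩
  have hb₁A : b₁ ∈ A := by rw [hb₁]; exact hAn.conj_mem b₀ hb₀A g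
  have hb₁1 : b₁ ≠ 1 := by rw [hb₁]; exact conj_ne_one hb₀1
  obtain ⟨w₀, hw₀⟩ : ∃ w₀ : V, w₀ = ρ g v₀ := ⟨_, rfl⟩
  have hw₀0 : w₀ ≠ 0 := by
    rw [hw₀]; intro h
    exact hv₀0 ((ρ g).map_eq_zero_iff.1 h)
  have hw₀f : ρ b₁ w₀ = w₀ := by rw [hw₀, hb₁]; exact conj_fix ρ g b₀ v₀ hv₀f
  have hB : Subgroup.zpowers b₀ ≠ Subgroup.zpowers b₁ := by
    intro h
    apply hg
    exact comm_of_zpowers_conj p hG g b₀ (hord b₀ hb₀A hb₀1) (by rw [← hb₁, h])
  have hN0w : Nm ρ b₀ p w₀ = 0 := hNz b₀ hb₀A b₁ hb₁A hb₀1 hb₁1 hB w₀ hw₀f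
  have hN1v : Nm ρ b₁ p v₀ = 0 := hNz b₁ hb₁A b₀ hb₀A hb₁1 hb₀1 (Ne.symm hB) v₀ hv₀f
  have hN0u : Nm ρ b₀ p (v₀ + w₀) = (p : ZMod q) • v₀ := by
    rw [map_add, hN0w, add_zero, Nm_of_fix ρ b₀ p v₀ hv₀f]
  have hN1u : Nm ρ b₁ p (v₀ + w₀) = (p : ZMod q) • w₀ := by
    rw [map_add, hN1v, zero_add, Nm_of_fix ρ b₁ p w₀ hw₀f]
  have hu0 : v₀ + w₀ ≠ 0 := by
    intro h0
    rw [h0, map_zero] at hN0u
    exact hv₀0 ((smul_eq_zero.1 hN0u.symm).resolve_left hpq)
  have hpv : (p : ZMod q) • v₀ ≠ 0 := fun h => hv₀0 ((smul_eq_zero.1 h).resolve_left hpq)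
  have hpw : (p : ZMod q) • w₀ ≠ 0 := fun h => hw₀0 ((smul_eq_zero.1 h).resolve_left hpq)
  have hle : stab ρ (v₀ + w₀) ≤ stab ρ v₀ := by
    intro k hk
    have hk' : ρ k v₀ + ρ k w₀ = v₀ + w₀ := by rw [← map_add]; exact hk
    obtain ⟨c₀, hc₀⟩ : ∃ c₀ : G, c₀ = k * b₀ * k⁻¹ := ⟨_, rfl⟩
    obtain ⟨c₁, hc₁⟩ : ∃ c₁ : G, c₁ = k * b₁ * k⁻¹ := ⟨_, rfl⟩
    have hc₀A : c₀ ∈ A := by rw [hc₀]; exact hAn.conj_mem b₀ hb₀A k
    have hc₁A : c₁ ∈ A := by rw [hc₁]; exact hAn.conj_mem b₁ hb₁A k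
    have hc₀1 : c₀ ≠ 1 := by rw [hc₀]; exact conj_ne_one hb₀1
    have hc₁1 : c₁ ≠ 1 := by rw [hc₁]; exact conj_ne_one hb₁1
    have hc₀f : ρ c₀ (ρ k v₀) = ρ k v₀ := by rw [hc₀]; exact conj_fix ρ k b₀ v₀ hv₀f
    have hc₁f : ρ c₁ (ρ k w₀) = ρ k w₀ := by rw [hc₁]; exact conj_fix ρ k b₁ w₀ hw₀f
    have E0 : Nm ρ b₀ p (ρ k v₀) + Nm ρ b₀ p (ρ k w₀) = (p : ZMod q) • v₀ := by
      rw [← map_add, hk', hN0u]
    have E1 : Nm ρ b₁ p (ρ k v₀) + Nm ρ b₁ p (ρ k w₀) = (p : ZMod q) • w₀ := by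
      rw [← map_add, hk', hN1u]
    by_cases h0 : Subgroup.zpowers c₀ = Subgroup.zpowers b₀
    · have hkc : k * b₀ = b₀ * k :=
        comm_of_zpowers_conj p hG k b₀ (hord b₀ hb₀A hb₀1) (by rw [← hc₀, h0])
      have hc₀b : c₀ = b₀ := by rw [hc₀, hkc, mul_inv_cancel_right]
      have h1 : Subgroup.zpowers c₁ ≠ Subgroup.zpowers b₀ := by
        intro h
        have hb₀c : b₀ ∈ Subgroup.zpowers c₁ := by rw [h]; exact Subgroup.mem_zpowers b₀
        have hfix : ρ b₀ (ρ k w₀) = ρ k w₀ := by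
          have h5 : Subgroup.zpowers c₁ ≤ stab ρ (ρ k w₀) := by
            rw [Subgroup.zpowers_le]; exact hc₁f
          exact h5 hb₀c
        have hfix2 : ρ b₀ w₀ = w₀ := by
          have h5 : ρ (k * b₀) w₀ = ρ k w₀ := by
            rw [hkc, map_mul, LinearEquiv.mul_apply, hfix]
          rw [map_mul, LinearEquiv.mul_apply] at h5
          exact (ρ k).injective h5
        exact hw₀0 (hdisj b₀ hb₀A b₁ hb₁A hb₀1 hb₁1 hB w₀ hfix2 hw₀f)
      have h2 : Nm ρ b₀ p (ρ k w₀) = 0 := hNz b₀ hb₀A c₁ hc₁A hb₀1 hc₁1 (Ne.symm h1) _ hc₁f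
      have h3 : Nm ρ b₀ p (ρ k v₀) = (p : ZMod q) • ρ k v₀ :=
        Nm_of_fix ρ b₀ p _ (by rw [← hc₀b]; exact hc₀f)
      rw [h2, h3, add_zero] at E0
      exact smul_right_injective V hpq E0
    · exfalso
      have h1 : Nm ρ b₀ p (ρ k v₀) = 0 := hNz b₀ hb₀A c₀ hc₀A hb₀1 hc₀1 (Ne.symm h0) _ hc₀f
      rw [h1, zero_add] at E0
      have h2 : Subgroup.zpowers c₁ = Subgroup.zpowers b₀ := by
        by_contra h
        rw [hNz b₀ hb₀A c₁ hc₁A hb₀1 hc₁1 (Ne.symm h) _ hc₁f] at E0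
        exact hpv E0.symm
      have h3 : Nm ρ b₁ p (ρ k w₀) = 0 :=
        hNz b₁ hb₁A c₁ hc₁A hb₁1 hc₁1 (by rw [h2]; exact Ne.symm hB) _ hc₁f
      rw [h3, add_zero] at E1
      have h4 : Subgroup.zpowers c₀ = Subgroup.zpowers b₁ := by
        by_contra h
        rw [hNz b₁ hb₁A c₀ hc₀A hb₁1 hc₀1 (Ne.symm h) _ hc₀f] at E1
        exact hpw E1.symm
      have ha : (Subgroup.zpowers b₀).map (cj k) = Subgroup.zpowers b₁ := by
        rw [map_cj_zpowers, ← hc₀, h4]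
      have hb : (Subgroup.zpowers b₁).map (cj k) = Subgroup.zpowers b₀ := by
        rw [map_cj_zpowers, ← hc₁, h2]
      have claim : ∀ n : ℕ, (Subgroup.zpowers b₀).map (cj (k ^ (2 * n + 1))) = Subgroup.zpowers b₁ := by
        intro n
        induction n with
        | zero => rw [Nat.mul_zero, zero_add, pow_one]; exact ha
        | succ n ih =>
          have e : k ^ (2 * (n + 1) + 1) = k * (k * k ^ (2 * n + 1)) := by
            rw [← pow_succ', ← pow_succ']; rfl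
          rw [e, ← map_cj_cj, ← map_cj_cj, ih, hb, ha]
      obtain ⟨m, hm⟩ := IsPGroup.iff_card.1 hG
      have hodd : Odd (p ^ m) := (hp.eq_two_or_odd'.resolve_left hp2).pow
      obtain ⟨n, hn⟩ := hodd
      have hk1 : k ^ (2 * n + 1) = 1 := by rw [← hn, ← hm]; exact pow_card_eq_one'
      have := claim n
      rw [hk1, map_cj_one] at this
      exact hB this
  have heq := stab_eq_of_le ρ hT hu0 hv₀0 hle
  have hbu : b₀ ∈ stab ρ (v₀ + w₀) := by rw [heq]; exact hv₀f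
  have hbw : ρ b₀ w₀ = w₀ := by
    have h1 : ρ b₀ (v₀ + w₀) = v₀ + w₀ := hbu
    rw [map_add, hv₀f] at h1
    exact add_left_cancel h1
  exact hw₀0 (hdisj b₀ hb₀A b₁ hb₁A hb₀1 hb₁1 hB w₀ hbw hw₀f)

end

end Cfsg.Agent.Lib.Helper63.Half1
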