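import Mathlib
import Cfsg.Agent.Lib.Helper63.Half1

/-!
# Half-transitive `2`-groups with a normal four-group (helper63)
-/

set_option autoImplicit false

namespace Cfsg.Agent.Lib.Helper63.Half2

open Cfsg.Agent.S3370 Cfsg.Agent.Lib.Helper63.Half1

section
variable {q : ℕ} [Fact q.Prime] {V : Type*} [AddCommGroup V] [Module (ZMod q) V]
  {G : Type*} [Group G] (ρ : G →* (V ≃ₗ[ZMod q] V))

/-- the fixed space of `g` -/
def fixSub (g : G) : Submodule (ZMod q) V where
  carrier := {v | ρ g v = v}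
  add_mem' := by
    intro x y hx hy
    have hx' : ρ g x = x := hx
    have hy' : ρ g y = y := hy
    show ρ g (x + y) = x + y
    rw [map_add, hx', hy']
  zero_mem' := map_zero _
  smul_mem' := by
    intro c x hx
    have hx' : ρ g x = x := hx
    show ρ g (c • x) = c • x
    rw [map_smul, hx']

/-- the `-1`-eigenspace of `g` -/
def negSub (g : G) : Submodule (ZMod q) V where
  carrier := {v | ρ g v = -v}
  add_mem' := by
    intro x y hx hy
    have hx' : ρ g x = -x := hx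
    have hy' : ρ g y = -y := hy
    show ρ g (x + y) = -(x + y)
    rw [map_add, hx', hy', neg_add]
  zero_mem' := by show ρ g 0 = -0; rw [map_zero, neg_zero]
  smul_mem' := by
    intro c x hx
    have hx' : ρ g x = -x := hx
    show ρ g (c • x) = -(c • x)
    rw [map_smul, hx', smul_neg]

theorem mem_fixSub (g : G) (v : V) : v ∈ fixSub ρ g ↔ ρ g v = v := Iff.rfl
theorem mem_negSub (g : G) (v : V) : v ∈ negSub ρ g ↔ ρ g v = -v := Iff.rfl

theorem two_ne (h2 : ((2 : ℕ) : ZMod q) ≠ 0) : (2 : ZMod q) ≠ 0 := by exact_mod_cast h2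

theorem eq_zero_of_eq_neg (h2 : ((2 : ℕ) : ZMod q) ≠ 0) (v : V) (h : v = -v) : v = 0 := by
  have h1 : (2 : ZMod q) • v = 0 := by
    rw [two_smul]
    nth_rewrite 1 [h]
    exact neg_add_cancel v
  exact (smul_eq_zero.1 h1).resolve_left (two_ne h2)

theorem inv_apply (a : G) (ha2 : a ^ 2 = 1) (x : V) : ρ a (ρ a x) = x := by
  rw [← LinearEquiv.mul_apply, ← map_mul, ← sq, ha2, map_one]; rfl

theorem decomp_unique (h2 : ((2 : ℕ) : ZMod q) ≠ 0) (a : G) (v v' w w' : V) (hv : ρ a v = v)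
    (hv' : ρ a v' = v') (hw : ρ a w = -w) (hw' : ρ a w' = -w') (h : v + w = v' + w') :
    v = v' ∧ w = w' := by
  have h1 : ρ a (v + w) = ρ a (v' + w') := by rw [h]
  rw [map_add, map_add, hv, hw, hv', hw'] at h1
  have h3 : (2 : ZMod q) • (v - v') = 0 := by
    rw [two_smul]
    have e : (v - v') + (v - v') = (v + w) + (v + -w) - ((v' + w') + (v' + -w')) := by abel
    rw [e, h, h1, sub_self]
  have h4 : v = v' := sub_eq_zero.1 ((smul_eq_zero.1 h3).resolve_left (two_ne h2))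
  refine ⟨h4, ?_⟩
  rw [h4] at h
  exact add_left_cancel h

/-- a central involution acts as `-1` -/
theorem central_neg [Finite G] (hρ : Function.Injective ρ) (hT : HT ρ)
    (h2 : ((2 : ℕ) : ZMod q) ≠ 0) (z : G) (hzc : ∀ g : G, g * z = z * g) (hz2 : z ^ 2 = 1)
    (hz1 : z ≠ 1) (x : V) : ρ z x = -x := by
  have h1 : ρ z (x + ρ z x) = x + ρ z x := by
    rw [map_add, inv_apply ρ z hz2, add_comm]
  by_contra hne
  have h0 : x + ρ z x ≠ 0 := by
    intro h; apply hne; exact eq_neg_of_add_eq_zero_right h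
  exact central_fpf ρ hρ hT z hzc 2 hz2 h2 hz1 _ h0 h1

/-- the case of a normal four-group -/
theorem four_case [Finite V] [Finite G] (hG : IsPGroup 2 G) (hρ : Function.Injective ρ)
    (hT : HT ρ) (h2 : ((2 : ℕ) : ZMod q) ≠ 0)
    (z : G) (hzc : ∀ g : G, g * z = z * g) (hz2 : z ^ 2 = 1) (hz1 : z ≠ 1)
    (a : G) (ha2 : a ^ 2 = 1) (ha1 : a ≠ 1) (haz : a ≠ z)
    (hconj : ∀ g : G, g * a * g⁻¹ = a ∨ g * a * g⁻¹ = a * z) :
    (Nat.card V = q ^ 2 ∧ (∃ m : ℕ, q = 2 ^ m + 1) ∧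
      ∃ e : V ≃ₗ[ZMod q] (Fin 2 → ZMod q), ∀ f : (Fin 2 → ZMod q) ≃ₗ[ZMod q] (Fin 2 → ZMod q),
        (∃ g : G, f = e.symm.trans ((ρ g).trans e)) ↔
        ∃ a s : ZMod q, a ≠ 0 ∧ (s = 1 ∨ s = -1) ∧
          ((∀ v, f v = ![a * v 0, s * a⁻¹ * v 1]) ∨ (∀ v, f v = ![s * a⁻¹ * v 1, a * v 0]))) ∨
    (Nat.card V = 81 ∧ q = 3) := by
  have hq : q.Prime := Fact.out
  have h2' : (2 : ZMod q) ≠ 0 := two_ne h2
  have hzneg : ∀ x : V, ρ z x = -x := central_neg ρ hρ hT h2 z hzc hz2 hz1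
  have hzz : z * z = 1 := by rw [← sq]; exact hz2
  have hdich : ∀ g : G, g * a = a * g ∨ g * a = a * g * z := by
    intro g
    rcases hconj g with h | h
    · left; exact mul_inv_eq_iff_eq_mul.1 h
    · right
      have h5 := mul_inv_eq_iff_eq_mul.1 h
      rw [h5, mul_assoc, mul_assoc, hzc g]
  have hanti_inv : ∀ g : G, g * a = a * g * z → g⁻¹ * a = a * g⁻¹ * z := by
    intro g hg
    have e1 : a * g⁻¹ = g⁻¹ * a * z := by
      have e2 : a * g⁻¹ = g⁻¹ * (g * a) * g⁻¹ := by group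
      rw [e2, hg]
      have e3 : g⁻¹ * (a * g * z) * g⁻¹ = g⁻¹ * a * (g * z * g⁻¹) := by group
      rw [e3, hzc g, mul_inv_cancel_right]
    rw [e1, mul_assoc, hzz, mul_one]
  have hanti_mul : ∀ g h : G, g * a = a * g * z → h * a = a * h * z → g * h * a = a * (g * h) := by
    intro g h hg hh
    calc g * h * a = g * (h * a) := mul_assoc _ _ _
      _ = g * (a * h * z) := by rw [hh]
      _ = (g * a) * h * z := by group
      _ = a * g * z * h * z := by rw [hg]
      _ = a * g * (z * h) * z := by group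
      _ = a * g * (h * z) * z := by rw [← hzc h]
      _ = a * (g * h) * (z * z) := by group
      _ = a * (g * h) := by rw [hzz, mul_one]
  have hpres : ∀ g : G, g * a = a * g → ∀ x : V, ρ a (ρ g x) = ρ g (ρ a x) := by
    intro g hg x
    rw [← LinearEquiv.mul_apply, ← LinearEquiv.mul_apply, ← map_mul, ← map_mul, hg]
  have hsw : ∀ g : G, g * a = a * g * z → ∀ x : V, ρ a (ρ g x) = -ρ g (ρ a x) := by
    intro g hg x
    have e : a * g = g * a * z := by rw [hg, mul_assoc, hzz, mul_one]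
    rw [← LinearEquiv.mul_apply, ← map_mul, e, map_mul, map_mul, LinearEquiv.mul_apply,
      LinearEquiv.mul_apply, hzneg, map_neg, map_neg]
  obtain ⟨v₁, hv₁0, hv₁⟩ : ∃ v : V, v ≠ 0 ∧ ρ a v = v := by
    obtain ⟨x, hx⟩ : ∃ x : V, ρ a x ≠ -x := by
      by_contra hcon
      push Not at hcon
      apply haz; apply hρ; ext x; rw [hcon x, hzneg x]
    refine ⟨x + ρ a x, ?_, ?_⟩
    · intro h; exact hx (eq_neg_of_add_eq_zero_right h)
    · rw [map_add, inv_apply ρ a ha2, add_comm]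
  obtain ⟨w₁, hw₁0, hw₁⟩ : ∃ w : V, w ≠ 0 ∧ ρ a w = -w := by
    obtain ⟨x, hx⟩ : ∃ x : V, ρ a x ≠ x := by
      by_contra hcon
      push Not at hcon
      exact ha1 (eq_one_of_fix ρ hρ a (fun v _ => hcon v))
    refine ⟨x - ρ a x, ?_, ?_⟩
    · intro h; exact hx (sub_eq_zero.1 h).symm
    · rw [map_sub, inv_apply ρ a ha2, neg_sub]
  have hsum0 : ∀ v w : V, v ≠ 0 → ρ a v = v → ρ a w = -w → v + w ≠ 0 := by
    intro v w hv0 hv hw h
    have h5 := decomp_unique ρ h2 a v 0 w 0 hv (map_zero _) hw (by rw [map_zero, neg_zero])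
      (by rw [h, add_zero])
    exact hv0 h5.1
  have hii : ∀ v w : V, v ≠ 0 → w ≠ 0 → ρ a v = v → ρ a w = -w →
      ∃ g : G, g * a = a * g * z ∧ ρ g v = w ∧ ρ g w = v := by
    intro v w hv0 hw0 hv hw
    by_contra hcon
    push Not at hcon
    have hu0 : v + w ≠ 0 := hsum0 v w hv0 hv hw
    have hle : stab ρ (v + w) ≤ stab ρ v := by
      intro g hg
      have hg' : ρ g v + ρ g w = v + w := by rw [← map_add]; exact hg
      rcases hdich g with hc | hc
      · have e1 : ρ a (ρ g v) = ρ g v := by rw [hpres g hc, hv]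
        have e2 : ρ a (ρ g w) = -ρ g w := by rw [hpres g hc, hw, map_neg]
        exact (decomp_unique ρ h2 a _ _ _ _ e1 hv e2 hw hg').1
      · exfalso
        have e1 : ρ a (ρ g v) = -ρ g v := by rw [hsw g hc, hv]
        have e2 : ρ a (ρ g w) = ρ g w := by rw [hsw g hc, hw, map_neg, neg_neg]
        have hg'' : ρ g w + ρ g v = v + w := by rw [add_comm]; exact hg'
        have h5 := decomp_unique ρ h2 a _ _ _ _ e2 hv e1 hw hg''
        exact hcon g hc h5.2 h5.1
    have heq := stab_eq_of_le ρ hT hu0 hv0 hle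
    have hau : a ∈ stab ρ (v + w) := by rw [heq]; exact hv
    have h1 : ρ a (v + w) = v + w := hau
    rw [map_add, hv, hw] at h1
    have h3 : w = -w := (add_left_cancel h1).symm
    exact hw0 (eq_zero_of_eq_neg h2 w h3)
  obtain ⟨g₀, hg₀a, hg₀v, hg₀w⟩ := hii v₁ w₁ hv₁0 hw₁0 hv₁ hw₁
  have hcancel : ∀ (g : G) (x : V), ρ g⁻¹ (ρ g x) = x := by
    intro g x
    rw [← LinearEquiv.mul_apply, ← map_mul, inv_mul_cancel, map_one]; rfl
  have hcancel' : ∀ (g : G) (x : V), ρ g (ρ g⁻¹ x) = x := by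
    intro g x
    rw [← LinearEquiv.mul_apply, ← map_mul, mul_inv_cancel, map_one]; rfl
  have hcardab : Nat.card (fixSub ρ a) = Nat.card (negSub ρ a) := by
    refine Nat.card_congr ⟨fun v => ⟨ρ g₀ v.1, ?_⟩, fun w => ⟨ρ g₀⁻¹ w.1, ?_⟩, ?_, ?_⟩
    · show ρ a (ρ g₀ v.1) = -ρ g₀ v.1
      rw [hsw g₀ hg₀a, (mem_fixSub ρ a _).1 v.2]
    · show ρ a (ρ g₀⁻¹ w.1) = ρ g₀⁻¹ w.1
      rw [hsw g₀⁻¹ (hanti_inv g₀ hg₀a), (mem_negSub ρ a _).1 w.2, map_neg, neg_neg]
    · intro v; apply Subtype.ext; exact hcancel g₀ v.1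
    · intro w; apply Subtype.ext; exact hcancel' g₀ w.1
  have hcompl : IsCompl (fixSub ρ a) (negSub ρ a) := by
    constructor
    · rw [disjoint_iff, Submodule.eq_bot_iff]
      intro x hx
      have h1 : ρ a x = x := hx.1
      have h3 : ρ a x = -x := hx.2
      exact eq_zero_of_eq_neg h2 x (h1.symm.trans h3)
    · rw [codisjoint_iff, eq_top_iff]
      intro x _
      have hx : x = (2 : ZMod q)⁻¹ • (x + ρ a x) + (2 : ZMod q)⁻¹ • (x - ρ a x) := by
        rw [← smul_add]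
        have e : x + ρ a x + (x - ρ a x) = (2 : ZMod q) • x := by rw [two_smul]; abel
        rw [e, smul_smul, inv_mul_cancel₀ h2', one_smul]
      rw [hx]
      refine Submodule.add_mem_sup (Submodule.smul_mem _ _ ?_) (Submodule.smul_mem _ _ ?_)
      · show ρ a (x + ρ a x) = x + ρ a x
        rw [map_add, inv_apply ρ a ha2, add_comm]
      · show ρ a (x - ρ a x) = -(x - ρ a x)
        rw [map_sub, inv_apply ρ a ha2, neg_sub]
  have hcardV : Nat.card V = Nat.card (fixSub ρ a) * Nat.card (negSub ρ a) := by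
    rw [← Nat.card_prod]
    exact (Nat.card_congr (Submodule.prodEquivOfIsCompl _ _ hcompl).toEquiv).symm
  obtain ⟨d, hd⟩ := Cfsg.Agent.Lib.Helper63.Hup4.card_submodule (negSub ρ a)
  have hVd : Nat.card V = q ^ (2 * d) := by rw [hcardV, hcardab, hd, ← pow_add, two_mul]
  have htr : ∀ w w' : V, w ≠ 0 → w' ≠ 0 → ρ a w = -w → ρ a w' = -w' →
      ∃ g : G, g * a = a * g ∧ ρ g w = w' := by
    intro w w' hw0 hw'0 hw hw'
    obtain ⟨g₁, hg₁a, hg₁v, hg₁w⟩ := hii v₁ w hv₁0 hw0 hv₁ hw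
    obtain ⟨g₂, hg₂a, hg₂v, hg₂w⟩ := hii v₁ w' hv₁0 hw'0 hv₁ hw'
    refine ⟨g₂ * g₁⁻¹, hanti_mul g₂ g₁⁻¹ hg₂a (hanti_inv g₁ hg₁a), ?_⟩
    rw [map_mul, LinearEquiv.mul_apply, ← hg₁v, hcancel, hg₂v]
  have hdvd : Nat.card (negSub ρ a) - 1 ∣ Nat.card G := by
    let H : Subgroup G := Subgroup.centralizer ({a} : Set G)
    have hH : ∀ g : G, g ∈ H ↔ g * a = a * g := by
      intro g
      rw [Subgroup.mem_centralizer_iff]
      constructor
      · intro h; exact (h a rfl).symm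
      · intro h k hk; rw [Set.mem_singleton_iff.1 hk]; exact h.symm
    let _ := act (ρ.comp H.subtype)
    have h3 := MulAction.index_stabilizer H w₁
    have e2 : MulAction.orbit H w₁ = ((negSub ρ a : Submodule (ZMod q) V) : Set V) \ {0} := by
      ext w
      constructor
      · rintro ⟨g, rfl⟩
        refine ⟨?_, ?_⟩
        · show ρ a (ρ g.1 w₁) = -ρ g.1 w₁
          rw [hpres g.1 ((hH g.1).1 g.2), hw₁, map_neg]
        · intro h
          exact hw₁0 ((ρ g.1).map_eq_zero_iff.1 h)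
      · rintro ⟨hw, hw0⟩
        obtain ⟨g, hga, hgw⟩ := htr w₁ w hw₁0 (by simpa using hw0) hw₁ hw
        exact ⟨⟨g, (hH g).2 hga⟩, hgw⟩
    rw [e2, Set.ncard_sdiff_singleton_of_mem (Submodule.zero_mem _)] at h3
    have e3 : ((negSub ρ a : Submodule (ZMod q) V) : Set V).ncard = Nat.card (negSub ρ a) := rfl
    rw [e3] at h3
    rw [← h3]
    exact (Subgroup.index_dvd_card _).trans (Subgroup.card_subgroup_dvd_card H)
  obtain ⟨k, hk⟩ := IsPGroup.iff_card.1 hG
  rw [hk, hd] at hdvd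
  obtain ⟨j, hjk, hj⟩ := (Nat.dvd_prime_pow Nat.prime_two).1 hdvd
  have hd1 : 1 ≤ d := by
    by_contra h
    have hd0 : d = 0 := by omega
    rw [hd0, pow_zero] at hd
    have hsub := (Nat.card_eq_one_iff_unique.1 hd).1
    have h5 := congrArg Subtype.val
      (hsub.elim (⟨w₁, hw₁⟩ : negSub ρ a) ⟨0, Submodule.zero_mem _⟩)
    exact hw₁0 h5
  have hqd : q ^ d = 2 ^ j + 1 := by
    have := Nat.one_le_pow d q hq.pos
    omega
  have hq2 : q ≠ 2 := by
    intro h
    subst h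
    exact h2 (ZMod.natCast_self 2)
  have hj1 : 1 ≤ j := by
    by_contra h
    have hj0 : j = 0 := by omega
    rw [hj0] at hqd
    have h5 : q ∣ 2 := by
      have h6 : q ∣ q ^ d := dvd_pow_self q (by omega)
      rw [hqd] at h6
      simpa using h6
    exact hq2 ((Nat.prime_dvd_prime_iff_eq hq Nat.prime_two).1 h5)
  rcases nt q d 2 j hq Nat.prime_two hd1 hj1 hqd with ⟨h, -⟩ | ⟨-, hd1'⟩ | ⟨-, hq3, hd2⟩
  · exact absurd h hq2
  · left
    subst hd1'
    rw [pow_one] at hd hqd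
    have hVq : Nat.card V = q ^ 2 := by rw [hVd]
    refine ⟨hVq, ⟨j, hqd⟩, ?_⟩
    have hda : Nat.card (fixSub ρ a) = q := by rw [hcardab, hd]
    have hspan : ∀ (W : Submodule (ZMod q) V) (x : V), Nat.card W = q → x ∈ W → x ≠ 0 →
        ∀ y ∈ W, ∃ c : ZMod q, y = c • x := by
      intro W x hW hx hx0 y hy
      have hinj : Function.Injective (fun c : ZMod q => (⟨c • x, W.smul_mem c hx⟩ : W)) := by
        intro c c' hcc
        have h5 : c • x = c' • x := congrArg Subtype.val hcc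
        exact smul_left_injective (ZMod q) hx0 h5
      have hsurj := (hinj.bijective_of_nat_card_le (by rw [hW, Nat.card_zmod])).2
      obtain ⟨c, hc⟩ := hsurj ⟨y, hy⟩
      exact ⟨c, (congrArg Subtype.val hc).symm⟩
    have hVa : ∀ y : V, ρ a y = y → ∃ c : ZMod q, y = c • v₁ :=
      fun y hy => hspan (fixSub ρ a) v₁ hda hv₁ hv₁0 y hy
    let L : (Fin 2 → ZMod q) →ₗ[ZMod q] V :=
      (LinearMap.proj (R := ZMod q) (φ := fun _ : Fin 2 => ZMod q) 0).smulRight v₁ +
      (LinearMap.proj (R := ZMod q) (φ := fun _ : Fin 2 => ZMod q) 1).smulRight w₁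
    have hL : ∀ c : Fin 2 → ZMod q, L c = c 0 • v₁ + c 1 • w₁ := fun c => rfl
    have hLinj : Function.Injective L := by
      intro c c' h
      rw [hL, hL] at h
      have h5 := decomp_unique ρ h2 a _ _ _ _ (by rw [map_smul, hv₁]) (by rw [map_smul, hv₁])
        (by rw [map_smul, hw₁, smul_neg]) (by rw [map_smul, hw₁, smul_neg]) h
      funext i
      fin_cases i
      · exact smul_left_injective (ZMod q) hv₁0 h5.1
      · exact smul_left_injective (ZMod q) hw₁0 h5.2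
    have hLbij : Function.Bijective L := hLinj.bijective_of_nat_card_le (by
      rw [hVq, Nat.card_fun, Nat.card_zmod, Nat.card_eq_fintype_card, Fintype.card_fin])
    let E : (Fin 2 → ZMod q) ≃ₗ[ZMod q] V := LinearEquiv.ofBijective L hLbij
    have hE : ∀ c : Fin 2 → ZMod q, E c = c 0 • v₁ + c 1 • w₁ := fun c => rfl
    have hEs : ∀ x y : ZMod q, E.symm (x • v₁ + y • w₁) = ![x, y] := by
      intro x y
      rw [LinearEquiv.symm_apply_eq, hE]
      simp
    have hfaith : ∀ g : G, ρ g v₁ = v₁ → ρ g w₁ = w₁ → g = 1 := by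
      intro g h5 h6
      apply eq_one_of_fix ρ hρ
      intro x _
      obtain ⟨c, rfl⟩ := hLbij.2 x
      rw [hL, map_add, map_smul, map_smul, h5, h6]
    have hstab : ∀ k : G, ρ k v₁ = v₁ → k = 1 ∨ k = a := by
      intro k hk
      by_contra hcon
      push Not at hcon
      have hu0 : v₁ + w₁ ≠ 0 := hsum0 v₁ w₁ hv₁0 hv₁ hw₁
      have hsub : ((stab ρ (v₁ + w₁) : Subgroup G) : Set G) ⊆ {1, g₀} := by
        intro g hg
        have hg' : ρ g v₁ + ρ g w₁ = v₁ + w₁ := by rw [← map_add]; exact hg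
        rcases hdich g with hc | hc
        · left
          have e1 : ρ a (ρ g v₁) = ρ g v₁ := by rw [hpres g hc, hv₁]
          have e2 : ρ a (ρ g w₁) = -ρ g w₁ := by rw [hpres g hc, hw₁, map_neg]
          have h5 := decomp_unique ρ h2 a _ _ _ _ e1 hv₁ e2 hw₁ hg'
          exact hfaith g h5.1 h5.2
        · right
          have e1 : ρ a (ρ g v₁) = -ρ g v₁ := by rw [hsw g hc, hv₁]
          have e2 : ρ a (ρ g w₁) = ρ g w₁ := by rw [hsw g hc, hw₁, map_neg, neg_neg]
          have hg'' : ρ g w₁ + ρ g v₁ = v₁ + w₁ := by rw [add_comm]; exact hg'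
          have h7 := decomp_unique ρ h2 a _ _ _ _ e2 hv₁ e1 hw₁ hg''
          have h8 : g₀⁻¹ * g = 1 := by
            apply hfaith
            · rw [map_mul, LinearEquiv.mul_apply, h7.2, ← hg₀v, hcancel]
            · rw [map_mul, LinearEquiv.mul_apply, h7.1, ← hg₀w, hcancel]
          exact (inv_mul_eq_one.1 h8).symm
      have hcard2 : Nat.card (stab ρ (v₁ + w₁)) ≤ 2 := by
        have h5 := Set.ncard_le_ncard hsub (Set.toFinite _)
        have h6 : ({1, g₀} : Set G).ncard ≤ 2 := by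
          have h10 := Set.ncard_insert_le (1 : G) ({g₀} : Set G)
          rw [Set.ncard_singleton] at h10
          exact h10
        exact h5.trans h6
      have hsub3 : ({1, a, k} : Set G) ⊆ ((stab ρ v₁ : Subgroup G) : Set G) := by
        intro g hg
        rcases hg with rfl | rfl | rfl
        · exact Subgroup.one_mem _
        · exact hv₁
        · exact hk
      have hcard3 : 3 ≤ Nat.card (stab ρ v₁) := by
        have h5 := Set.ncard_le_ncard hsub3 (Set.toFinite _)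
        have h6 : ({1, a, k} : Set G).ncard = 3 :=
          Set.ncard_eq_three.2 ⟨1, a, k, Ne.symm ha1, Ne.symm hcon.1, Ne.symm hcon.2, rfl⟩
        rw [h6] at h5
        exact h5
      have h9 := hT v₁ (v₁ + w₁) hv₁0 hu0
      omega
    have hS2d : ∀ α : ZMod q, α ≠ 0 →
        ∃ g : G, g * a = a * g ∧ ρ g v₁ = α • v₁ ∧ ρ g w₁ = α⁻¹ • w₁ := by
      intro α hα
      obtain ⟨g, hga, hgv, hgw⟩ := hii v₁ (α⁻¹ • w₁) hv₁0 (smul_ne_zero (inv_ne_zero hα) hw₁0)
        hv₁ (by rw [map_smul, hw₁, smul_neg])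
      have hgw' : ρ g w₁ = α • v₁ := by
        rw [map_smul] at hgw
        rw [← hgw, smul_smul, mul_inv_cancel₀ hα, one_smul]
      refine ⟨g * g₀, hanti_mul g g₀ hga hg₀a, ?_, ?_⟩
      · rw [map_mul, LinearEquiv.mul_apply, hg₀v, hgw']
      · rw [map_mul, LinearEquiv.mul_apply, hg₀w, hgv]
    have hS2 : ∀ α s : ZMod q, α ≠ 0 → (s = 1 ∨ s = -1) →
        ∃ g : G, g * a = a * g ∧ ρ g v₁ = α • v₁ ∧ ρ g w₁ = (s * α⁻¹) • w₁ := by
      intro α s hα hs
      obtain ⟨g, hga, hgv, hgw⟩ := hS2d α hα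
      rcases hs with rfl | rfl
      · exact ⟨g, hga, hgv, by rw [one_mul]; exact hgw⟩
      · refine ⟨g * a, ?_, ?_, ?_⟩
        · calc g * a * a = a * g * a := by rw [hga]
            _ = a * (g * a) := mul_assoc _ _ _
        · rw [map_mul, LinearEquiv.mul_apply, hv₁, hgv]
        · rw [map_mul, LinearEquiv.mul_apply, hw₁, map_neg, hgw, neg_mul, one_mul, neg_smul]
    have hS1c : ∀ g : G, g * a = a * g → ∃ α s : ZMod q, α ≠ 0 ∧ (s = 1 ∨ s = -1) ∧
        ρ g v₁ = α • v₁ ∧ ρ g w₁ = (s * α⁻¹) • w₁ := by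
      intro g hga
      obtain ⟨α, hα⟩ := hVa (ρ g v₁) (by rw [hpres g hga, hv₁])
      have hα0 : α ≠ 0 := by
        rintro rfl
        rw [zero_smul] at hα
        exact hv₁0 ((ρ g).map_eq_zero_iff.1 hα)
      obtain ⟨h, hha, hhv, hhw⟩ := hS2d α hα0
      have hk : ρ (h⁻¹ * g) v₁ = v₁ := by
        rw [map_mul, LinearEquiv.mul_apply, hα, ← hhv, hcancel]
      rcases hstab _ hk with h5 | h5
      · have hgh : g = h := (inv_mul_eq_one.1 h5).symm
        exact ⟨α, 1, hα0, Or.inl rfl, hα, by rw [hgh, one_mul]; exact hhw⟩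
      · have hgh : g = h * a := by rw [← h5, mul_inv_cancel_left]
        refine ⟨α, -1, hα0, Or.inr rfl, hα, ?_⟩
        rw [hgh, map_mul, LinearEquiv.mul_apply, hw₁, map_neg, hhw, neg_mul, one_mul, neg_smul]
    refine ⟨E.symm, ?_⟩
    intro f
    have hM : ∀ (g : G) (c : Fin 2 → ZMod q), (E.symm.symm.trans ((ρ g).trans E.symm)) c
        = E.symm (c 0 • ρ g v₁ + c 1 • ρ g w₁) := by
      intro g c
      show E.symm (ρ g (E c)) = _
      rw [hE, map_add, map_smul, map_smul]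
    have hvec : ∀ x y x' y' : ZMod q, x = x' → y = y' → (![x, y] : Fin 2 → ZMod q) = ![x', y'] := by
      intro x y x' y' h5 h6; rw [h5, h6]
    constructor
    · rintro ⟨g, rfl⟩
      rcases hdich g with hc | hc
      · obtain ⟨α, s, hα0, hs, hgv, hgw⟩ := hS1c g hc
        refine ⟨α, s, hα0, hs, Or.inl fun c => ?_⟩
        rw [hM, hgv, hgw, smul_smul, smul_smul, hEs]
        exact hvec _ _ _ _ (mul_comm _ _) (mul_comm _ _)
      · obtain ⟨α, s, hα0, hs, hgv, hgw⟩ :=
          hS1c (g₀⁻¹ * g) (hanti_mul g₀⁻¹ g (hanti_inv g₀ hg₀a) hc)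
        have hgg : g = g₀ * (g₀⁻¹ * g) := by group
        have hgv' : ρ g v₁ = α • w₁ := by
          rw [hgg, map_mul, LinearEquiv.mul_apply, hgv, map_smul, hg₀v]
        have hgw' : ρ g w₁ = (s * α⁻¹) • v₁ := by
          rw [hgg, map_mul, LinearEquiv.mul_apply, hgw, map_smul, hg₀w]
        refine ⟨α, s, hα0, hs, Or.inr fun c => ?_⟩
        rw [hM, hgv', hgw', smul_smul, smul_smul, add_comm, hEs]
        exact hvec _ _ _ _ (mul_comm _ _) (mul_comm _ _)
    · rintro ⟨α, s, hα0, hs, hf | hf⟩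
      · obtain ⟨g, -, hgv, hgw⟩ := hS2 α s hα0 hs
        refine ⟨g, LinearEquiv.ext fun c => ?_⟩
        rw [hf, hM, hgv, hgw, smul_smul, smul_smul, hEs]
        exact hvec _ _ _ _ (mul_comm _ _) (mul_comm _ _)
      · obtain ⟨g, -, hgv, hgw⟩ := hS2 α s hα0 hs
        refine ⟨g₀ * g, LinearEquiv.ext fun c => ?_⟩
        rw [hf, hM, map_mul, LinearEquiv.mul_apply, LinearEquiv.mul_apply, hgv, hgw, map_smul,
          map_smul, hg₀v, hg₀w, smul_smul, smul_smul, add_comm, hEs]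
        exact hvec _ _ _ _ (mul_comm _ _) (mul_comm _ _)
  · right
    refine ⟨?_, hq3⟩
    rw [hVd, hq3, hd2]
    norm_num

end

end Cfsg.Agent.Lib.Helper63.Half2
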