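import Mathlib
import Cfsg.Agent.Lib.Helper63.Half2
import Cfsg.Agent.Lib.Helper12.NormAbCyc

/-!
# Half-transitive dihedral and semidihedral groups (helper63)
-/

set_option autoImplicit false

namespace Cfsg.Agent.Lib.Helper63.Half3

open Cfsg.Agent.S3370 Cfsg.Agent.Lib.Helper63.Half1 Cfsg.Agent.Lib.Helper63.Half2

section
variable {q : ℕ} [Fact q.Prime] {V : Type*} [AddCommGroup V] [Module (ZMod q) V]
  {G : Type*} [Group G] (ρ : G →* (V ≃ₗ[ZMod q] V))

theorem anti_apply (z : G) (hzneg : ∀ x : V, ρ z x = -x) (hzz : z * z = 1) (g a : G)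
    (hg : g * a = a * g * z) (x : V) : ρ a (ρ g x) = -ρ g (ρ a x) := by
  have e : a * g = g * a * z := by rw [hg, mul_assoc, hzz, mul_one]
  rw [← LinearEquiv.mul_apply, ← map_mul, e, map_mul, map_mul, LinearEquiv.mul_apply,
    LinearEquiv.mul_apply, hzneg, map_neg, map_neg]

theorem anti_inv (z : G) (hzc : ∀ g : G, g * z = z * g) (hzz : z * z = 1) (g a : G)
    (hg : g * a = a * g * z) : g⁻¹ * a = a * g⁻¹ * z := by
  have e1 : a * g⁻¹ = g⁻¹ * a * z := by
    have e2 : a * g⁻¹ = g⁻¹ * (g * a) * g⁻¹ := by group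
    rw [e2, hg]
    have e3 : g⁻¹ * (a * g * z) * g⁻¹ = g⁻¹ * a * (g * z * g⁻¹) := by group
    rw [e3, hzc g, mul_inv_cancel_right]
  rw [e1, mul_assoc, hzz, mul_one]

/-- if an element "anticommutes" with the involution `a` then the two eigenspaces of `a` have
the same size -/
theorem card_sq [Finite V] (h2 : ((2 : ℕ) : ZMod q) ≠ 0) (z : G) (hzc : ∀ g : G, g * z = z * g)
    (hzneg : ∀ x : V, ρ z x = -x) (hzz : z * z = 1) (a : G) (ha2 : a ^ 2 = 1) (g : G)
    (hg : g * a = a * g * z) : Nat.card V = Nat.card (fixSub ρ a) ^ 2 := by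
  have h2' : (2 : ZMod q) ≠ 0 := two_ne h2
  have hcancel : ∀ (g : G) (x : V), ρ g⁻¹ (ρ g x) = x := by
    intro g x
    rw [← LinearEquiv.mul_apply, ← map_mul, inv_mul_cancel, map_one]; rfl
  have hcancel' : ∀ (g : G) (x : V), ρ g (ρ g⁻¹ x) = x := by
    intro g x
    rw [← LinearEquiv.mul_apply, ← map_mul, mul_inv_cancel, map_one]; rfl
  have hcardab : Nat.card (fixSub ρ a) = Nat.card (negSub ρ a) := by
    refine Nat.card_congr ⟨fun v => ⟨ρ g v.1, ?_⟩, fun w => ⟨ρ g⁻¹ w.1, ?_⟩, ?_, ?_⟩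
    · show ρ a (ρ g v.1) = -ρ g v.1
      rw [anti_apply ρ z hzneg hzz g a hg, (mem_fixSub ρ a _).1 v.2]
    · show ρ a (ρ g⁻¹ w.1) = ρ g⁻¹ w.1
      rw [anti_apply ρ z hzneg hzz g⁻¹ a (anti_inv z hzc hzz g a hg), (mem_negSub ρ a _).1 w.2,
        map_neg, neg_neg]
    · intro v; apply Subtype.ext; exact hcancel g v.1
    · intro w; apply Subtype.ext; exact hcancel' g w.1
  have hcompl : IsCompl (fixSub ρ a) (negSub ρ a) := by
    constructor
    · rw [disjoint_iff, Submodule.eq_bot_iff]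
      intro x hx
      have h1 : ρ a x = x := hx.1
      have h3 : ρ a x = -x := hx.2
      exact eq_zero_of_eq_neg h2 x (h1.symm.trans h3)
    · rw [codisjoint_iff, eq_top_iff]
      intro x _
      have hx : x = (2 : ZMod q)⁻¹ • (x + ρ a x) + (2 : ZMod q)⁻¹ • (x - ρ a x) := by
        rw [← smul_add]
        have e : x + ρ a x + (x - ρ a x) = (2 : ZMod q) • x := by rw [two_smul]; abel
        rw [e, smul_smul, inv_mul_cancel₀ h2', one_smul]
      rw [hx]
      refine Submodule.add_mem_sup (Submodule.smul_mem _ _ ?_) (Submodule.smul_mem _ _ ?_)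
      · show ρ a (x + ρ a x) = x + ρ a x
        rw [map_add, inv_apply ρ a ha2, add_comm]
      · show ρ a (x - ρ a x) = -(x - ρ a x)
        rw [map_sub, inv_apply ρ a ha2, neg_sub]
  have hcardV : Nat.card V = Nat.card (fixSub ρ a) * Nat.card (negSub ρ a) := by
    rw [← Nat.card_prod]
    exact (Nat.card_congr (Submodule.prodEquivOfIsCompl _ _ hcompl).toEquiv).symm
  rw [hcardV, ← hcardab, sq]

end

theorem pow_add_one_eq_two_pow (q d j : ℕ) (hq : q.Prime) (hq2 : q ≠ 2) (hj : 2 ≤ j)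
    (h : q ^ d + 1 = 2 ^ j) : d = 1 := by
  have hqodd : Odd q := hq.eq_two_or_odd'.resolve_left hq2
  obtain ⟨e, he | he⟩ := Nat.even_or_odd' d
  · exfalso
    obtain ⟨t, ht⟩ := hqodd.pow (n := e)
    have h1 : q ^ d = 4 * (t * t + t) + 1 := by
      rw [he, pow_mul', ht]; ring
    obtain ⟨w, hw⟩ : ∃ w, 2 ^ j = 4 * w := by
      refine ⟨2 ^ (j - 2), ?_⟩
      have : j = 2 + (j - 2) := by omega
      rw [this, pow_add]
      norm_num
    omega
  · obtain ⟨c, hc, hc2⟩ := odd_factor_add q hqodd e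
    rw [← he, h] at hc2
    have hc1 : c = 1 := odd_dvd_two_pow (m := j) hc (by rw [hc2]; exact dvd_mul_right _ _)
    subst hc1
    have h4 : q ^ d = q ^ 1 := by rw [pow_one]; omega
    exact Nat.pow_right_injective hq.two_le h4

section
variable {q : ℕ} [Fact q.Prime] {V : Type*} [AddCommGroup V] [Module (ZMod q) V]
  {G : Type*} [Group G] (ρ : G →* (V ≃ₗ[ZMod q] V))

/-- the dihedral and semidihedral cases -/
theorem dsd_case [Finite V] [Finite G] (hG : IsPGroup 2 G) (hρ : Function.Injective ρ)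
    (hT : HT ρ) (h2 : ((2 : ℕ) : ZMod q) ≠ 0) (x y : G) (n : ℕ) (hn : 3 ≤ n)
    (hx : orderOf x = 2 ^ n) (hcard : Nat.card G = 2 ^ (n + 1)) (hy2 : y ^ 2 = 1)
    (hyC : y ∉ Subgroup.zpowers x)
    (hyx : y * x * y⁻¹ = x⁻¹ ∨ y * x * y⁻¹ = x⁻¹ * x ^ (2 ^ (n - 1))) :
    Nat.card V = q ^ 2 ∧ ∃ j : ℕ, q = 2 ^ j - 1 ∧ (y * x * y⁻¹ = x⁻¹ → j = n) ∧
      (y * x * y⁻¹ = x⁻¹ * x ^ (2 ^ (n - 1)) → j = n - 1) := by
  classical
  have hq : q.Prime := Fact.out
  have hq2 : q ≠ 2 := by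
    intro h
    subst h
    exact h2 (ZMod.natCast_self 2)
  have hCcard : Nat.card (Subgroup.zpowers x) = 2 ^ n := by rw [Nat.card_zpowers, hx]
  have hidx : (Subgroup.zpowers x).index = 2 := by
    have h1 := (Subgroup.zpowers x).card_mul_index
    rw [hCcard, hcard, pow_succ] at h1
    exact Nat.eq_of_mul_eq_mul_left (by positivity) h1
  obtain ⟨z, hz⟩ : ∃ z : G, z = x ^ (2 ^ (n - 1)) := ⟨_, rfl⟩
  have hz2 : z ^ 2 = 1 := by
    rw [hz]; exact Cfsg.Agent.Lib.Helper12.pow_two_pow_pred_sq (by omega) hx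
  have hz1 : z ≠ 1 := by
    rw [hz]; exact Cfsg.Agent.Lib.Helper12.pow_two_pow_pred_ne_one (by omega) hx
  have hzz : z * z = 1 := by rw [← sq]; exact hz2
  have hzinv : z⁻¹ = z := inv_eq_of_mul_eq_one_left hzz
  have hzC : z ∈ Subgroup.zpowers x := by
    rw [hz]; exact Subgroup.pow_mem _ (Subgroup.mem_zpowers x) _
  have hzx : Commute x z := by rw [hz]; exact Commute.pow_right (Commute.refl x) _
  obtain ⟨c₄, hc₄⟩ : ∃ c : G, c = x ^ (2 ^ (n - 2)) := ⟨_, rfl⟩
  have hc₄sq : c₄ * c₄ = z := by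
    rw [hc₄, hz, ← pow_add, ← two_mul, ← pow_succ']
    congr 2
    omega
  have hc₄C : c₄ ∈ Subgroup.zpowers x := by
    rw [hc₄]; exact Subgroup.pow_mem _ (Subgroup.mem_zpowers x) _
  have heven : ∀ m : ℕ, Even m → z ^ m = 1 := by
    rintro m ⟨r, rfl⟩
    rw [← two_mul, pow_mul, hz2, one_pow]
  have hconj_pow : ∀ m : ℕ, Even m → y * x ^ m * y⁻¹ = (x ^ m)⁻¹ := by
    intro m hm
    rw [← conj_pow]
    rcases hyx with h | h
    · rw [h, inv_pow]
    · rw [h, ← hz, (hzx.inv_left).mul_pow, heven m hm, mul_one, inv_pow]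
  have hyz : y * z * y⁻¹ = z := by
    rw [hz, hconj_pow _ (Nat.even_pow.2 ⟨even_two, by omega⟩), ← hz]
    exact hzinv
  have hyc₄ : y * c₄ * y⁻¹ = c₄⁻¹ := by
    rw [hc₄]; exact hconj_pow _ (Nat.even_pow.2 ⟨even_two, by omega⟩)
  have hout : ∀ g : G, g ∉ Subgroup.zpowers x → ∃ c ∈ Subgroup.zpowers x, g = y * c := by
    intro g hg
    refine ⟨y⁻¹ * g, ?_, by rw [mul_inv_cancel_left]⟩
    rw [Subgroup.mul_mem_iff_of_index_two hidx, Subgroup.inv_mem_iff]
    exact ⟨fun h => absurd h hyC, fun h => absurd h hg⟩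
  have hout2 : ∀ g h : G, g ∉ Subgroup.zpowers x → h ∉ Subgroup.zpowers x →
      g⁻¹ * h ∈ Subgroup.zpowers x := by
    intro g h hg hh
    rw [Subgroup.mul_mem_iff_of_index_two hidx, Subgroup.inv_mem_iff]
    exact ⟨fun h' => absurd h' hg, fun h' => absurd h' hh⟩
  have hCcomm : ∀ c ∈ Subgroup.zpowers x, ∀ c' ∈ Subgroup.zpowers x, c * c' = c' * c := by
    intro c hc c' hc'
    obtain ⟨i, rfl⟩ := Subgroup.mem_zpowers_iff.1 hc
    obtain ⟨i', rfl⟩ := Subgroup.mem_zpowers_iff.1 hc'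
    rw [← zpow_add, ← zpow_add, add_comm]
  have hzc : ∀ g : G, g * z = z * g := by
    intro g
    by_cases hg : g ∈ Subgroup.zpowers x
    · exact hCcomm g hg z hzC
    · obtain ⟨c, hc, rfl⟩ := hout g hg
      have h1 : y * z = z * y := mul_inv_eq_iff_eq_mul.1 hyz
      rw [mul_assoc, hCcomm c hc z hzC, ← mul_assoc, h1, mul_assoc]
  have hzneg : ∀ v : V, ρ z v = -v := central_neg ρ hρ hT h2 z hzc hz2 hz1
  have hsemi : ∀ c ∈ Subgroup.zpowers x, ∀ v : V, v ≠ 0 → ρ c v = v → c = 1 := by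
    intro c hc v hv hcv
    by_contra hc1
    obtain ⟨k, hk⟩ := (IsPGroup.iff_orderOf.1 hG) c
    have hk1 : 1 ≤ k := by
      by_contra h
      have hk0 : k = 0 := by omega
      rw [hk0, pow_zero] at hk
      exact hc1 (orderOf_eq_one_iff.1 hk)
    have hu2 := Cfsg.Agent.Lib.Helper12.pow_two_pow_pred_sq hk1 hk
    have hu1 := Cfsg.Agent.Lib.Helper12.pow_two_pow_pred_ne_one hk1 hk
    have huC : c ^ (2 ^ (k - 1)) ∈ Subgroup.zpowers x := Subgroup.pow_mem _ hc _
    rcases Cfsg.Agent.Lib.Helper12.eq_one_or_eq_of_sq_eq_one_of_mem_zpowers huC hzC hu2 hz2 hz1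
      with h | h
    · exact hu1 h
    · have h5 : ρ z v = v := by rw [← h]; exact pow_fix ρ c v hcv _
      rw [hzneg] at h5
      exact hv (eq_zero_of_eq_neg h2 v h5.symm)
  have hstab1 : ∀ v : V, v ≠ 0 → ∀ g h : G, g ≠ 1 → h ≠ 1 → ρ g v = v → ρ h v = v → g = h := by
    intro v hv g h hg1 hh1 hgv hhv
    have hgC : g ∉ Subgroup.zpowers x := fun hc => hg1 (hsemi g hc v hv hgv)
    have hhC : h ∉ Subgroup.zpowers x := fun hc => hh1 (hsemi h hc v hv hhv)
    have h5 := hsemi (g⁻¹ * h) (hout2 g h hgC hhC) v hv (by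
      rw [map_mul, LinearEquiv.mul_apply, hhv]
      nth_rewrite 1 [← hgv]
      rw [← LinearEquiv.mul_apply, ← map_mul, inv_mul_cancel, map_one]; rfl)
    exact inv_mul_eq_one.1 h5
  have hy1 : y ≠ 1 := fun h => hyC (h ▸ Subgroup.one_mem _)
  obtain ⟨v₁, hv₁0, hv₁⟩ : ∃ v : V, v ≠ 0 ∧ ρ y v = v := by
    obtain ⟨x₀, hx₀⟩ : ∃ x₀ : V, ρ y x₀ ≠ -x₀ := by
      by_contra hcon
      push Not at hcon
      apply hyC
      have hyz' : y = z := by apply hρ; ext v; rw [hcon v, hzneg v]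
      rw [hyz']; exact hzC
    refine ⟨x₀ + ρ y x₀, ?_, ?_⟩
    · intro h; exact hx₀ (eq_neg_of_add_eq_zero_right h)
    · rw [map_add, inv_apply ρ y hy2, add_comm]
  have hcard2 : ∀ v : V, v ≠ 0 → Nat.card (stab ρ v) = 2 := by
    have h1 : Nat.card (stab ρ v₁) = 2 := by
      have hsub : ((stab ρ v₁ : Subgroup G) : Set G) = {1, y} := by
        ext g
        constructor
        · intro hg
          by_cases hg1 : g = 1
          · left; exact hg1
          · right; exact hstab1 v₁ hv₁0 g y hg1 hy1 hg hv₁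
        · rintro (rfl | rfl)
          · exact Subgroup.one_mem _
          · exact hv₁
      have e : Nat.card (stab ρ v₁) = ((stab ρ v₁ : Subgroup G) : Set G).ncard := rfl
      rw [e, hsub, Set.ncard_pair (Ne.symm hy1)]
    intro v hv
    rw [hT v v₁ hv hv₁0, h1]
  have hex : ∀ v : V, v ≠ 0 → ∃ τ : G, τ ∉ Subgroup.zpowers x ∧ τ ^ 2 = 1 ∧ ρ τ v = v := by
    intro v hv
    have hne : stab ρ v ≠ ⊥ := by
      intro h
      have h5 := hcard2 v hv
      rw [h, Subgroup.card_bot] at h5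
      omega
    obtain ⟨τ, hτ, hτ1⟩ : ∃ τ ∈ stab ρ v, τ ≠ 1 := by
      by_contra hcon
      push Not at hcon
      exact hne ((Subgroup.eq_bot_iff_forall _).mpr hcon)
    have hτv : ρ τ v = v := hτ
    have hτC : τ ∉ Subgroup.zpowers x := fun hc => hτ1 (hsemi τ hc v hv hτv)
    have hτ2 : τ ^ 2 = 1 := by
      have h5 : τ * τ ∈ Subgroup.zpowers x := by
        rw [Subgroup.mul_mem_iff_of_index_two hidx]
      exact hsemi (τ ^ 2) (by rw [sq]; exact h5) v hv (pow_fix ρ τ v hτv 2)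
    exact ⟨τ, hτC, hτ2, hτv⟩
  have hanti : ∀ τ : G, τ ∉ Subgroup.zpowers x → c₄ * τ = τ * c₄ * z := by
    intro τ hτ
    obtain ⟨c, hc, rfl⟩ := hout τ hτ
    have h5 : y * c₄⁻¹ * y⁻¹ = c₄ := by
      have e : y * c₄⁻¹ * y⁻¹ = (y * c₄ * y⁻¹)⁻¹ := by group
      rw [e, hyc₄, inv_inv]
    have h1 : c₄ * y = y * c₄⁻¹ := by
      calc c₄ * y = (y * c₄⁻¹ * y⁻¹) * y := by rw [h5]
        _ = y * c₄⁻¹ := by group
    have h3 : c₄⁻¹ = c₄ * z := by
      apply inv_eq_of_mul_eq_one_right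
      rw [← mul_assoc, hc₄sq, hzz]
    calc c₄ * (y * c) = c₄ * y * c := (mul_assoc _ _ _).symm
      _ = y * c₄⁻¹ * c := by rw [h1]
      _ = y * (c₄⁻¹ * c) := mul_assoc _ _ _
      _ = y * (c * c₄⁻¹) := by rw [hCcomm _ (Subgroup.inv_mem _ hc₄C) c hc]
      _ = y * (c * (c₄ * z)) := by rw [h3]
      _ = y * c * c₄ * z := by group
  have hsq : ∀ τ : G, τ ∉ Subgroup.zpowers x → τ ^ 2 = 1 →
      Nat.card V = Nat.card (fixSub ρ τ) ^ 2 :=
    fun τ hτ hτ2 => card_sq ρ h2 z hzc hzneg hzz τ hτ2 c₄ (hanti τ hτ)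
  obtain ⟨d, hd⟩ := Cfsg.Agent.Lib.Helper63.Hup4.card_submodule (fixSub ρ y)
  have hVd : Nat.card V = (q ^ d) ^ 2 := by rw [hsq y hyC hy2, hd]
  have hQ : ∀ τ : G, τ ∉ Subgroup.zpowers x → τ ^ 2 = 1 → Nat.card (fixSub ρ τ) = q ^ d := by
    intro τ hτ hτ2
    have h5 := hsq τ hτ hτ2
    rw [hVd] at h5
    exact (Nat.pow_left_injective (by norm_num : 2 ≠ 0) h5).symm
  have hd1 : 1 ≤ d := by
    by_contra h
    have hd0 : d = 0 := by omega
    rw [hd0, pow_zero] at hd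
    have hsub := (Nat.card_eq_one_iff_unique.1 hd).1
    have h5 := congrArg Subtype.val
      (hsub.elim (⟨v₁, hv₁⟩ : fixSub ρ y) ⟨0, Submodule.zero_mem _⟩)
    exact hv₁0 h5
  -- counting
  let _ := Fintype.ofFinite V
  let _ := Fintype.ofFinite G
  obtain ⟨s, hs⟩ : ∃ s : Finset V, s = Finset.univ.filter (fun v => v ≠ 0) := ⟨_, rfl⟩
  obtain ⟨t, ht⟩ : ∃ t : Finset G,
      t = Finset.univ.filter (fun τ => τ ∉ Subgroup.zpowers x ∧ τ ^ 2 = 1) := ⟨_, rfl⟩
  have hcount := Finset.sum_card_bipartiteAbove_eq_sum_card_bipartiteBelow (s := s) (t := t)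
    (fun (v : V) (τ : G) => ρ τ v = v)
  have hL : ∀ v ∈ s, (t.bipartiteAbove (fun (v : V) (τ : G) => ρ τ v = v) v).card = 1 := by
    intro v hv
    rw [hs] at hv
    have hv0 : v ≠ 0 := (Finset.mem_filter.1 hv).2
    obtain ⟨τ, hτC, hτ2, hτv⟩ := hex v hv0
    rw [Finset.card_eq_one]
    refine ⟨τ, ?_⟩
    ext σ
    rw [Finset.mem_singleton, Finset.bipartiteAbove, Finset.mem_filter, ht, Finset.mem_filter]
    constructor
    · rintro ⟨⟨-, hσC, hσ2⟩, hσv⟩
      exact hstab1 v hv0 σ τ (fun h => hσC (h ▸ Subgroup.one_mem _))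
        (fun h => hτC (h ▸ Subgroup.one_mem _)) hσv hτv
    · rintro rfl
      exact ⟨⟨Finset.mem_univ _, hτC, hτ2⟩, hτv⟩
  have hR : ∀ τ ∈ t, (s.bipartiteBelow (fun (v : V) (τ : G) => ρ τ v = v) τ).card = q ^ d - 1 := by
    intro τ hτ
    rw [ht] at hτ
    obtain ⟨-, hτC, hτ2⟩ := Finset.mem_filter.1 hτ
    rw [← Set.ncard_coe_finset]
    have e : ((s.bipartiteBelow (fun (v : V) (τ : G) => ρ τ v = v) τ : Finset V) : Set V)
        = ((fixSub ρ τ : Submodule (ZMod q) V) : Set V) \ {0} := by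
      ext v
      simp only [hs, Finset.bipartiteBelow, Finset.coe_filter, Finset.mem_filter, Finset.mem_univ,
        true_and, Set.mem_ofPred_eq, Set.mem_sdiff, Set.mem_singleton_iff, SetLike.mem_coe,
        mem_fixSub]
      tauto
    rw [e, Set.ncard_sdiff_singleton_of_mem (Submodule.zero_mem _)]
    have e3 : ((fixSub ρ τ : Submodule (ZMod q) V) : Set V).ncard = Nat.card (fixSub ρ τ) := rfl
    rw [e3, hQ τ hτC hτ2]
  rw [Finset.sum_congr rfl hL, Finset.sum_congr rfl hR, Finset.sum_const, Finset.sum_const,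
    smul_eq_mul, smul_eq_mul, mul_one] at hcount
  have hscard : s.card = Nat.card V - 1 := by
    rw [hs, Finset.filter_ne', Finset.card_erase_of_mem (Finset.mem_univ _), Finset.card_univ,
      Nat.card_eq_fintype_card]
  have hyc : ∀ c : G, (y * c) ^ 2 = y * c * y⁻¹ * c := by
    intro c
    rw [sq]
    calc y * c * (y * c) = y * c * y⁻¹ * (y * y) * c := by group
      _ = y * c * y⁻¹ * c := by rw [← sq y, hy2, mul_one]
  have htc : ∃ j : ℕ, 2 ≤ j ∧ t.card = 2 ^ j ∧ (y * x * y⁻¹ = x⁻¹ → j = n) ∧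
      (y * x * y⁻¹ = x⁻¹ * x ^ (2 ^ (n - 1)) → j = n - 1) := by
    have hboth : y * x * y⁻¹ = x⁻¹ → y * x * y⁻¹ = x⁻¹ * x ^ (2 ^ (n - 1)) → False := by
      intro h h'
      rw [h, ← hz] at h'
      exact hz1 (left_eq_mul.1 h')
    rcases hyx with h | h
    · refine ⟨n, by omega, ?_, fun _ => rfl, fun h' => (hboth h h').elim⟩
      have e : (t : Set G) = ((Subgroup.zpowers x : Subgroup G) : Set G)ᶜ := by
        ext τ
        rw [ht]
        simp only [Finset.coe_filter, Finset.mem_univ, true_and, Set.mem_ofPred_eq,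
          Set.mem_compl_iff, SetLike.mem_coe]
        constructor
        · exact fun h5 => h5.1
        · intro hτ
          refine ⟨hτ, ?_⟩
          obtain ⟨c, hc, rfl⟩ := hout τ hτ
          obtain ⟨i, rfl⟩ := Subgroup.mem_zpowers_iff.1 hc
          rw [hyc, ← conj_zpow, h, inv_zpow, inv_mul_cancel]
      rw [← Set.ncard_coe_finset, e, Set.ncard_compl]
      have e3 : ((Subgroup.zpowers x : Subgroup G) : Set G).ncard = Nat.card (Subgroup.zpowers x) :=
        rfl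
      rw [e3, hCcard, hcard, pow_succ]
      omega
    · refine ⟨n - 1, by omega, ?_, fun h' => (hboth h' h).elim, fun _ => rfl⟩
      have hzo : orderOf z = 2 := orderOf_eq_prime hz2 hz1
      have key : ∀ i : ℤ, (y * x ^ i) ^ 2 = z ^ i := by
        intro i
        rw [hyc, ← conj_zpow, h, ← hz, (hzx.inv_left).mul_zpow, inv_zpow]
        have hcz : Commute (x ^ i)⁻¹ (z ^ i) := ((hzx.zpow_left i).zpow_right i).inv_left
        rw [hcz.eq, mul_assoc, inv_mul_cancel, mul_one]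
      have e : (t : Set G) = (fun c => y * c) '' ((Subgroup.zpowers (x ^ 2) : Subgroup G) : Set G) := by
        ext τ
        rw [ht]
        simp only [Finset.coe_filter, Finset.mem_univ, true_and, Set.mem_ofPred_eq, Set.mem_image,
          SetLike.mem_coe]
        constructor
        · rintro ⟨hτC, hτ2⟩
          obtain ⟨c, hc, rfl⟩ := hout τ hτC
          obtain ⟨i, rfl⟩ := Subgroup.mem_zpowers_iff.1 hc
          rw [key] at hτ2
          have hdvd : ((orderOf z : ℕ) : ℤ) ∣ i := orderOf_dvd_iff_zpow_eq_one.2 hτ2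
          rw [hzo] at hdvd
          obtain ⟨k, rfl⟩ := hdvd
          refine ⟨x ^ ((2 : ℕ) * k : ℤ), ?_, rfl⟩
          rw [zpow_mul, zpow_natCast]
          exact Subgroup.zpow_mem_zpowers _ k
        · rintro ⟨c, hc, rfl⟩
          obtain ⟨k, rfl⟩ := Subgroup.mem_zpowers_iff.1 hc
          have hck : (x ^ 2) ^ k = x ^ ((2 : ℕ) * k : ℤ) := by rw [zpow_mul, zpow_natCast]
          refine ⟨?_, ?_⟩
          · intro hmem
            apply hyC
            have h7 : (x ^ 2) ^ k ∈ Subgroup.zpowers x :=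
              Subgroup.zpow_mem _ (Subgroup.pow_mem _ (Subgroup.mem_zpowers x) 2) k
            have h8 := Subgroup.mul_mem _ hmem (Subgroup.inv_mem _ h7)
            rwa [mul_inv_cancel_right] at h8
          · rw [hck, key, zpow_mul, zpow_natCast, hz2, one_zpow]
      rw [← Set.ncard_coe_finset, e, Set.ncard_image_of_injective _ (mul_right_injective y)]
      have e3 : ((Subgroup.zpowers (x ^ 2) : Subgroup G) : Set G).ncard
          = Nat.card (Subgroup.zpowers (x ^ 2)) := rfl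
      rw [e3, Nat.card_zpowers, orderOf_pow' x (by norm_num), hx,
        Nat.gcd_eq_right (dvd_pow_self 2 (by omega))]
      have e4 : 2 ^ n = 2 ^ (n - 1) * 2 := by rw [← pow_succ]; congr 1; omega
      rw [e4, Nat.mul_div_cancel _ (by norm_num)]
  obtain ⟨j, hj2, htj, hjD, hjSD⟩ := htc
  rw [hscard, htj, hVd] at hcount
  have hQ2 : 2 ≤ q ^ d := by
    calc 2 ≤ q := hq.two_le
      _ = q ^ 1 := (pow_one q).symm
      _ ≤ q ^ d := Nat.pow_le_pow_right hq.pos hd1
  have hkey : q ^ d + 1 = 2 ^ j := by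
    obtain ⟨Q', hQ'⟩ : ∃ Q', q ^ d = Q' + 2 := ⟨q ^ d - 2, by omega⟩
    rw [hQ'] at hcount ⊢
    have e5 : (Q' + 2) ^ 2 - 1 = (Q' + 1) * (Q' + 3) := by
      have e6 : (Q' + 2) ^ 2 = (Q' + 1) * (Q' + 3) + 1 := by ring
      omega
    have e7 : Q' + 2 - 1 = Q' + 1 := by omega
    rw [e5, e7] at hcount
    have e8 : (Q' + 1) * (Q' + 3) = (Q' + 1) * 2 ^ j := by rw [hcount, mul_comm]
    have e9 := Nat.eq_of_mul_eq_mul_left (by omega : 0 < Q' + 1) e8
    omega
  have hd' : d = 1 := pow_add_one_eq_two_pow q d j hq hq2 hj2 hkey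
  subst hd'
  rw [pow_one] at hkey hVd
  exact ⟨hVd, j, by omega, hjD, hjSD⟩

end

end Cfsg.Agent.Lib.Helper63.Half3
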