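import Mathlib
import Cfsg.Agent.Lib.Helper72.JMDefs

/-! S2943 project JM, piece KT (helper63 for helper72): `KData` transports from `G` to the
subgroup type `↥L`. -/

set_option autoImplicit false

namespace Cfsg.Agent.Lib.Helper63.JM

open Cfsg.Agent.Lib.Helper72.JM Cfsg.Agent.Lib.Helper72.JL Cfsg.Agent.Lib.Helper72.SC
  Cfsg.Agent.Lib.Helper78.Jc

open scoped commutatorElement

universe u

theorem kt : KtStmt.{u} := by
  intro G _ T K L hKL hTL hK
  obtain ⟨P, W, k, z, h1, h2, h3, h4, h5, h6, h7, h8, h9, h10, h11, h12, h13, h14, h15, h16⟩ := hK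
  have hPL : P ≤ L := h1.trans hKL
  have hWL : W ≤ L := h7.trans hPL
  refine ⟨P.subgroupOf L, W.subgroupOf L, ⟨k, hKL h4⟩, ⟨z, hTL h15⟩, ?_, ?_, ?_, ?_, ?_, ?_, ?_,
    ?_, ?_, ?_, ?_, ?_, ?_, ?_, ?_, ?_⟩
  · intro x hx
    exact Subgroup.mem_subgroupOf.mpr (h1 (Subgroup.mem_subgroupOf.mp hx))
  · intro p hp
    obtain ⟨n, hn⟩ := h2 (p : G) (Subgroup.mem_subgroupOf.mp hp)
    exact ⟨n, Subtype.ext (by rw [Subgroup.coe_pow, Subgroup.coe_one]; exact hn)⟩
  · rintro x hx ⟨n, hn⟩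
    refine Subgroup.mem_subgroupOf.mpr (h3 (x : G) (Subgroup.mem_subgroupOf.mp hx) ⟨n, ?_⟩)
    have h17 := congrArg Subtype.val hn
    rw [Subgroup.coe_pow, Subgroup.coe_one] at h17
    exact h17
  · exact Subgroup.mem_subgroupOf.mpr h4
  · exact Subtype.ext (by rw [Subgroup.coe_pow, Subgroup.coe_one]; exact h5)
  · intro x hx
    obtain ⟨p, hp, i, hi⟩ := h6 (x : G) (Subgroup.mem_subgroupOf.mp hx)
    refine ⟨⟨p, hPL hp⟩, Subgroup.mem_subgroupOf.mpr hp, i, Subtype.ext ?_⟩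
    rw [Subgroup.coe_mul, Subgroup.coe_pow]
    exact hi
  · intro x hx
    exact Subgroup.mem_subgroupOf.mpr (h7 (Subgroup.mem_subgroupOf.mp hx))
  · rw [Nat.card_congr (Subgroup.subgroupOfEquivOfLe hWL).toEquiv]
    exact h8
  · intro w hw
    exact Subtype.ext (h9 (w : G) (Subgroup.mem_subgroupOf.mp hw))
  · intro w hw
    exact Subgroup.mem_subgroupOf.mpr (h10 (w : G) (Subgroup.mem_subgroupOf.mp hw))
  · intro w hw hfix
    exact Subtype.ext (h11 (w : G) (Subgroup.mem_subgroupOf.mp hw) (congrArg Subtype.val hfix))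
  · intro u hu hcomm huu
    refine Subgroup.mem_subgroupOf.mpr ?_
    exact h12 (u : G) (Subgroup.mem_subgroupOf.mp hu)
      (fun p hp => congrArg Subtype.val (hcomm ⟨p, hPL hp⟩ (Subgroup.mem_subgroupOf.mpr hp)))
      (congrArg Subtype.val huu)
  · exact Subgroup.mem_subgroupOf.mpr h13
  · intro h17
    exact h14 (congrArg Subtype.val h17)
  · exact Subgroup.mem_subgroupOf.mpr h15
  · intro t ht
    exact Subtype.ext (h16 (t : G) (Subgroup.mem_subgroupOf.mp ht))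

end Cfsg.Agent.Lib.Helper63.JM
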