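import Mathlib
import Cfsg.Agent.Lib.Helper72.JPDefs
import Cfsg.Agent.Lib.Helper41.Cores

/-! Project JP (helper72), piece K3 (helper63): from `d` with `ρ d` of order 3 inverted by `ρ a`
(`a` an involution of `T`) build `k` of order dividing 3, inverted by `a`, with `ρ k ≠ 1`:
a suitable power of `⁅d, a⁆`. -/

set_option autoImplicit false

namespace Cfsg.Agent.Lib.Helper63.JP

open Cfsg.Agent.Lib.Helper72.JP Cfsg.Agent.Lib.Helper72.JM Cfsg.Agent.Lib.Helper72.JL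
  Cfsg.Agent.Lib.Helper72.SC Cfsg.Agent.Lib.Helper78.Jc

open scoped commutatorElement

universe u

theorem k3 (h : CtStmt.{u}) : K3Stmt.{u} := by
  intro X _ _ T hS a haT haa d hd1 hd3 hinv
  obtain ⟨-, hct⟩ := h X T hS
  have hainv : a⁻¹ = a := inv_eq_of_mul_eq_one_left haa
  -- `k₁ = ⁅d, a⁆`
  obtain ⟨k₁, hk₁⟩ : ∃ k₁ : X, k₁ = d * a * d⁻¹ * a⁻¹ := ⟨_, rfl⟩
  have hak₁ : a * k₁ * a⁻¹ = k₁⁻¹ := by
    rw [hk₁, hainv]
    have h1 : a * (d * a * d⁻¹ * a) * a = a * d * a * d⁻¹ * (a * a) := by group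
    have h2 : (d * a * d⁻¹ * a)⁻¹ = a⁻¹ * d * a⁻¹ * d⁻¹ := by group
    rw [h1, h2, haa, hainv, mul_one]
  have hρk₁ : rhoT T k₁ = rhoT T d ^ 2 := by
    rw [hk₁, map_mul, map_mul, map_mul, map_inv, map_inv]
    have h1 : rhoT T d * rhoT T a * (rhoT T d)⁻¹ * (rhoT T a)⁻¹
        = rhoT T d * (rhoT T a * rhoT T d * (rhoT T a)⁻¹)⁻¹ := by group
    rw [h1, hinv, inv_inv, sq]
  -- the odd part
  have hn0 : orderOf k₁ ≠ 0 := (orderOf_pos k₁).ne'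
  obtain ⟨s, u, hu, hsu⟩ := Nat.exists_eq_two_pow_mul_odd hn0
  obtain ⟨k, hk⟩ : ∃ k : X, k = k₁ ^ 2 ^ s := ⟨_, rfl⟩
  have hku : k ^ u = 1 := by
    rw [hk, ← pow_mul, ← hsu, pow_orderOf_eq_one]
  have hkodd : Odd (orderOf k) := Odd.of_dvd_nat hu (orderOf_dvd_of_pow_eq_one hku)
  have hak : a * k * a⁻¹ = k⁻¹ := by
    rw [hk, ← conj_pow, hak₁, inv_pow]
  have hρk : rhoT T k = rhoT T d ^ 2 ^ (s + 1) := by
    rw [hk, map_pow, hρk₁, ← pow_mul, pow_succ']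
  have hord3 : orderOf (rhoT T d) = 3 := by
    have h1 : orderOf (rhoT T d) ∣ 3 := orderOf_dvd_of_pow_eq_one hd3
    rcases (Nat.dvd_prime Nat.prime_three).mp h1 with h2 | h2
    · exact absurd (orderOf_eq_one_iff.mp h2) hd1
    · exact h2
  have hρk1 : rhoT T k ≠ 1 := by
    rw [hρk]
    intro h1
    have h2 : 3 ∣ 2 ^ (s + 1) := by
      rw [← hord3]
      exact orderOf_dvd_of_pow_eq_one h1
    have h3 := Nat.prime_three.dvd_of_dvd_pow h2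
    omega
  have hk3ker : k ^ 3 ∈ (rhoT T).ker := by
    rw [MonoidHom.mem_ker, map_pow, hρk, ← pow_mul, mul_comm, pow_mul, hd3, one_pow]
  have hk6 : k ^ 6 ∈ Cfsg.pCore 2 X := by
    have h1 := hct (k ^ 3) hk3ker a haT
    rw [commutatorElement_def] at h1
    have h2 : k ^ 3 * a * (k ^ 3)⁻¹ * a⁻¹ = k ^ 3 * ((a * k * a⁻¹) ^ 3)⁻¹ := by
      rw [conj_pow]
      group
    rw [h2, hak, inv_pow, inv_inv, ← pow_add] at h1
    exact h1
  have hQ : IsPGroup 2 (Cfsg.pCore 2 X) :=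
    haveI : Fact (Nat.Prime 2) := ⟨Nat.prime_two⟩
    Cfsg.Agent.Lib.Helper41.pCore_isPGroup 2
  obtain ⟨j, hj⟩ := hQ ⟨k ^ 6, hk6⟩
  have hj' : (k ^ 6) ^ 2 ^ j = 1 := by
    have h1 := congrArg Subtype.val hj
    rw [Subgroup.coe_pow, Subgroup.coe_one] at h1
    exact h1
  have hk3 : k ^ 3 = 1 := by
    apply orderOf_dvd_iff_pow_eq_one.mp
    have h1 : orderOf k ∣ 3 * (2 * 2 ^ j) := by
      apply orderOf_dvd_of_pow_eq_one
      rw [← hj', ← pow_mul]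
      congr 1
      ring
    have h2 : Nat.Coprime (orderOf k) (2 * 2 ^ j) := by
      rw [← pow_succ']
      exact Nat.Coprime.pow_right _ (Nat.Coprime.symm (Nat.coprime_two_left.mpr hkodd))
    exact h2.dvd_of_dvd_mul_right h1
  refine ⟨k, hk3, hak, hρk1, ?_⟩
  rw [hρk]
  exact Subgroup.pow_mem _ (Subgroup.mem_zpowers _) _

end Cfsg.Agent.Lib.Helper63.JP
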