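import Cfsg.Agent.Lib.Helper47.OmcDefs

/-!
# OMC arithmetic piece `arith_sp_o` (for helper47, S2683-S2685)
-/

set_option autoImplicit false

namespace Cfsg.Agent.Lib.Helper63.Omc

open Cfsg.Agent.Lib.Helper47 Matrix

variable {F : Type*} [Field F]

theorem arith_sp_o (q m n p : ℕ) (hq : 2 ≤ q) (hm : 1 ≤ m)
    (h1 : q ^ (m ^ 2) * ∏ i ∈ Finset.range m, (q ^ (2 * (i + 1)) - 1)
      = (2 * q ^ (m * (m - 1)) * (q ^ m - 1) * ∏ i ∈ Finset.range (m - 1), (q ^ (2 * (i + 1)) - 1)) * n)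
    (h2 : p * 2 = q ^ m * (q ^ m + 1)) : n = p := by
  obtain ⟨k, rfl⟩ : ∃ k, m = k + 1 := ⟨m - 1, by omega⟩
  simp only [Nat.add_sub_cancel] at h1
  rw [Finset.prod_range_succ] at h1
  have hPpos : 0 < ∏ i ∈ Finset.range k, (q ^ (2 * (i + 1)) - 1) := by
    apply Finset.prod_pos
    intro i _
    have : 1 < q ^ (2 * (i + 1)) := Nat.one_lt_pow (by omega) (by omega)
    omega
  generalize (∏ i ∈ Finset.range k, (q ^ (2 * (i + 1)) - 1)) = P at h1 hPpos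
  have ha : 1 < q ^ (k + 1) := Nat.one_lt_pow (by omega) (by omega)
  obtain ⟨b, hb⟩ : ∃ b, q ^ (k + 1) = b + 1 := ⟨q ^ (k+1) - 1, by omega⟩
  have hb0 : 0 < b := by omega
  have e1 : q ^ (2 * (k + 1)) - 1 = b * (b + 2) := by
    have h3 : q ^ (2 * (k + 1)) = (b + 1) ^ 2 := by rw [← hb, ← pow_mul, mul_comm]
    rw [h3]
    have h4 : (b + 1) ^ 2 = b * (b + 2) + 1 := by ring
    omega
  have e2 : q ^ ((k + 1) ^ 2) = q ^ ((k + 1) * k) * (b + 1) := by
    rw [← hb, ← pow_add]; congr 1; ring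
  rw [e1, e2, hb] at h1
  rw [hb] at h2
  simp only [Nat.add_sub_cancel] at h1
  have hQ : 0 < q ^ ((k + 1) * k) := pow_pos (by omega) _
  generalize q ^ ((k + 1) * k) = Q at h1 hQ
  have hC : 0 < 2 * Q * b * P := by positivity
  apply Nat.eq_of_mul_eq_mul_left hC
  have h3 : (b + 1) * (b + 2) = p * 2 := h2.symm
  rw [← h1]
  calc Q * (b + 1) * (P * (b * (b + 2))) = Q * b * P * ((b + 1) * (b + 2)) := by ring
    _ = Q * b * P * (p * 2) := by rw [h3]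
    _ = 2 * Q * b * P * p := by ring

end Cfsg.Agent.Lib.Helper63.Omc
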