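import Cfsg.Agent.Lib.Helper47.OmcDefs

/-!
# OMC arithmetic piece `arith_b` (for helper47, S2683-S2685)
-/

set_option autoImplicit false

namespace Cfsg.Agent.Lib.Helper63.Omc

open Cfsg.Agent.Lib.Helper47 Matrix

variable {F : Type*} [Field F]

theorem arith_b (q m s cS cO A B : ℕ) (hq : 2 ≤ q) (hs : s ≤ m) (hodd : Odd s)
    (h1 : cS = q ^ (2 * m - s) * cO)
    (h2 : cS = q ^ (2 * m * s - (3 * s ^ 2 - s) / 2) * A * B) :
    cO = q ^ (2 * m * (s - 1) - (3 * s ^ 2 - 3 * s) / 2) * A * B := by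
  obtain ⟨k, rfl⟩ := hodd
  obtain ⟨d, rfl⟩ : ∃ d, m = 2 * k + 1 + d := ⟨m - (2 * k + 1), by omega⟩
  have h3 : 3 * (2 * k + 1) ^ 2 - (2 * k + 1) = 2 * (6 * k ^ 2 + 5 * k + 1) := by
    apply Nat.sub_eq_of_eq_add; ring
  have h4 : 3 * (2 * k + 1) ^ 2 - 3 * (2 * k + 1) = 2 * (6 * k ^ 2 + 3 * k) := by
    apply Nat.sub_eq_of_eq_add; ring
  have h5 : 2 * (2 * k + 1 + d) * (2 * k + 1) - (6 * k ^ 2 + 5 * k + 1)
      = 2 * k ^ 2 + 3 * k + 1 + 4 * d * k + 2 * d := by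
    apply Nat.sub_eq_of_eq_add; ring
  have h6 : 2 * (2 * k + 1 + d) * (2 * k + 1 - 1) - (6 * k ^ 2 + 3 * k)
      = 2 * k ^ 2 + k + 4 * d * k := by
    rw [Nat.add_sub_cancel]
    apply Nat.sub_eq_of_eq_add; ring
  have h7 : 2 * (2 * k + 1 + d) - (2 * k + 1) = 2 * k + 1 + 2 * d := by omega
  rw [h3, Nat.mul_div_cancel_left _ (by norm_num : 0 < 2), h5] at h2
  rw [h7] at h1
  rw [h4, Nat.mul_div_cancel_left _ (by norm_num : 0 < 2), h6]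
  have hpos : 0 < q ^ (2 * k + 1 + 2 * d) := pow_pos (by omega) _
  apply Nat.eq_of_mul_eq_mul_left hpos
  rw [← h1, h2]
  have h8 : 2 * k ^ 2 + 3 * k + 1 + 4 * d * k + 2 * d
      = (2 * k + 1 + 2 * d) + (2 * k ^ 2 + k + 4 * d * k) := by ring
  rw [h8, pow_add]; ring

end Cfsg.Agent.Lib.Helper63.Omc
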