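import Cfsg.Agent.Lib.Helper47.OmcDefs

/-!
# OMC arithmetic piece `arith_c` (for helper47, S2683-S2685)
-/

set_option autoImplicit false

namespace Cfsg.Agent.Lib.Helper63.Omc

open Cfsg.Agent.Lib.Helper47 Matrix

variable {F : Type*} [Field F]

theorem arith_c (q m s cS cO A B : ℕ) (hq : 2 ≤ q) (hs : s ≤ m) (hev : Even s) (hs2 : 2 ≤ s)
    (h1 : cS = q ^ (2 * m - s) * cO)
    (h2 : cS = q ^ (2 * m * s - (3 * s ^ 2 - 3 * s) / 2 - 1) * A * B) :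
    cO = q ^ (2 * m * (s - 1) - (3 * s ^ 2 - 5 * s) / 2 - 1) * A * B := by
  obtain ⟨k, hk⟩ := hev
  obtain ⟨j, rfl⟩ : ∃ j, k = j + 1 := ⟨k - 1, by omega⟩
  obtain ⟨rfl⟩ : s = 2 * j + 2 := by omega
  obtain ⟨d, rfl⟩ : ∃ d, m = 2 * j + 2 + d := ⟨m - (2 * j + 2), by omega⟩
  have h3 : 3 * (2 * j + 2) ^ 2 - 3 * (2 * j + 2) = 2 * (6 * j ^ 2 + 9 * j + 3) := by
    apply Nat.sub_eq_of_eq_add; ring
  have h4 : 3 * (2 * j + 2) ^ 2 - 5 * (2 * j + 2) = 2 * (6 * j ^ 2 + 7 * j + 1) := by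
    apply Nat.sub_eq_of_eq_add; ring
  have h5 : 2 * (2 * j + 2 + d) * (2 * j + 2) - (6 * j ^ 2 + 9 * j + 3) - 1
      = 2 * j ^ 2 + 7 * j + 4 + 4 * d * j + 4 * d := by
    apply Nat.sub_eq_of_eq_add
    apply Nat.sub_eq_of_eq_add; ring
  have h6 : 2 * (2 * j + 2 + d) * (2 * j + 2 - 1) - (6 * j ^ 2 + 7 * j + 1) - 1
      = 2 * j ^ 2 + 5 * j + 2 + 4 * d * j + 2 * d := by
    have : 2 * j + 2 - 1 = 2 * j + 1 := by omega
    rw [this]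
    apply Nat.sub_eq_of_eq_add
    apply Nat.sub_eq_of_eq_add; ring
  have h7 : 2 * (2 * j + 2 + d) - (2 * j + 2) = 2 * j + 2 + 2 * d := by omega
  rw [h3, Nat.mul_div_cancel_left _ (by norm_num : 0 < 2), h5] at h2
  rw [h7] at h1
  rw [h4, Nat.mul_div_cancel_left _ (by norm_num : 0 < 2), h6]
  have hpos : 0 < q ^ (2 * j + 2 + 2 * d) := pow_pos (by omega) _
  apply Nat.eq_of_mul_eq_mul_left hpos
  rw [← h1, h2]
  have h8 : 2 * j ^ 2 + 7 * j + 4 + 4 * d * j + 4 * d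
      = (2 * j + 2 + 2 * d) + (2 * j ^ 2 + 5 * j + 2 + 4 * d * j + 2 * d) := by ring
  rw [h8, pow_add]; ring

end Cfsg.Agent.Lib.Helper63.Omc
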