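import Mathlib
import Cfsg.Prelude.Def_GeometricClasses
import Cfsg.Prelude.Def_Classical
import Cfsg.Agent.Lib.Helper47.QuadDefs
import Cfsg.Agent.Lib.Helper47.PrimeOrd
import Cfsg.Agent.Lib.Helper47.SpPrime
import Cfsg.Agent.Lib.Helper47.QuadAll
import Cfsg.Agent.Lib.Helper29.QuadEXIST
import Cfsg.Agent.Lib.Helper66.QuadSTD
import Cfsg.Agent.Lib.Helper23.QuadBALPLUS

/-!
S5981 piece ODDMODEL (helper63 for helper96): an isometry of the odd-dimensional standard
quadratic form with prescribed characteristic polynomial `(X - 1)^c * s.prod`, for `r ∣ q - 1`.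
-/

set_option autoImplicit false

universe u

namespace Cfsg.Agent.Lib.Helper63.Oq

open Polynomial Matrix
open scoped MatrixGroups
open Cfsg.Agent.Lib.Helper47

theorem oddmodel_blocks_pow {F : Type*} [Field F] {ι : Type*} [Fintype ι] [DecidableEq ι]
    (A : Matrix ι ι F) (n : ℕ) :
    (Matrix.fromBlocks (1 : Matrix Unit Unit F) 0 0 A) ^ n
      = Matrix.fromBlocks (1 : Matrix Unit Unit F) 0 0 (A ^ n) := by
  induction n with
  | zero => rw [pow_zero, pow_zero, Matrix.fromBlocks_one]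
  | succ n ih =>
    rw [pow_succ, ih, Matrix.fromBlocks_multiply, pow_succ]
    simp

theorem oddmodel_toMatrix_pow {F : Type*} [Field F] {ι : Type*} [Fintype ι] [DecidableEq ι]
    (g : Module.End F (ι → F)) (n : ℕ) :
    (LinearMap.toMatrix' g) ^ n = LinearMap.toMatrix' (g ^ n) := by
  induction n with
  | zero => rw [pow_zero, pow_zero]; exact LinearMap.toMatrix'_one.symm
  | succ n ih => rw [pow_succ, ih, pow_succ, Module.End.mul_eq_comp, LinearMap.toMatrix'_comp]

theorem exists_odd_model {F : Type u} [Field F] [Fintype F] {p : ℕ} [Fact p.Prime] [CharP F p]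
    (h2 : (2 : F) ≠ 0) (m : ℕ) (hm : 1 ≤ m) (r : ℕ) (hr : r.Prime) (hr2 : r ≠ 2) (hrp : r ≠ p)
    (hr1 : r ∣ Fintype.card F - 1)
    (c : ℕ) (hc : 1 ≤ c) (s : Multiset F[X]) (hs : ∀ f ∈ s, IsCycFactor r f)
    (hdual : s.map (dualP (RingHom.id F)) = s) (hdeg : c + Multiset.card s = 2 * m + 1) :
    ∃ J : Matrix (Unit ⊕ (Fin m ⊕ Fin m)) (Unit ⊕ (Fin m ⊕ Fin m)) F, J ^ r = 1 ∧
      (∀ v, Cfsg.quadFormOdd m F (J *ᵥ v) = Cfsg.quadFormOdd m F v) ∧
      J.charpoly = (X - 1) ^ c * s.prod := by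
  classical
  obtain ⟨k, rfl⟩ : ∃ k, m = k + 1 := ⟨m - 1, by omega⟩
  by_cases hs0 : s = 0
  · subst hs0
    refine ⟨1, one_pow r, fun v => by rw [Matrix.one_mulVec], ?_⟩
    rw [Matrix.charpoly_one, Multiset.prod_zero, mul_one]
    congr 1
    simp only [Fintype.card_sum, Fintype.card_unit, Fintype.card_fin, Multiset.card_zero] at hdeg ⊢
    omega
  · -- the order of q mod r is 1
    have hq1 : 1 ≤ Fintype.card F := Fintype.card_pos
    have hqz : ((Fintype.card F : ℕ) : ZMod r) = 1 := by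
      have h1 : ((Fintype.card F - 1 : ℕ) : ZMod r) = 0 :=
        (ZMod.natCast_eq_zero_iff _ _).mpr hr1
      rw [Nat.cast_sub hq1, Nat.cast_one] at h1
      exact sub_eq_zero.mp h1
    have hord : orderOf ((Fintype.card F : ℕ) : ZMod r) = 1 := by
      rw [hqz]; exact orderOf_one
    have hdegf : ∀ f ∈ s, f.Monic ∧ f.natDegree = 1 := fun f hf =>
      ⟨(hs f hf).1, by rw [IsCycFactor.natDegree_eq (p := p) rfl hr hrp (hs f hf), hord]⟩
    have hsdeg : s.prod.natDegree = Multiset.card s := by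
      have h1 := natDegree_cyc_prod 0 s hdegf
      simpa using h1
    have hns : ∀ f ∈ s, dualP (RingHom.id F) f ≠ f := by
      intro f hf hfd
      have h1 := (dualP_id_eq_self_iff (p := p) rfl hr hr2 hrp (hs f hf)).mp hfd
      rw [hord] at h1
      exact absurd h1 (by decide)
    have hdim : Module.finrank F (Fin (k + 1) ⊕ Fin (k + 1) → F) = 2 * k + 2 := by
      rw [Module.finrank_fintype_fun_eq_card, Fintype.card_sum, Fintype.card_fin]
      omega
    obtain ⟨g, hgQ, hgr, hgc⟩ := Cfsg.Agent.Lib.Helper29.QuadEXIST.quad_exists_of_multiset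
      (qfacts p) (Cfsg.Agent.Lib.Helper66.QuadSTD.quadFormPlus_isQuad (F := F) (k + 1))
      (Cfsg.Agent.Lib.Helper66.QuadSTD.plusB_nondeg (F := F) (k + 1)) k hdim 1 (Or.inl rfl)
      (Cfsg.Agent.Lib.Helper23.Quad.isTyp_quadFormPlus (F := F) k) p r hr hr2 hrp s hs hs0 hdual
      (by rw [hsdeg]; omega) (fun _ => tauSign_of_forall_ne hns)
    have hAg : ∀ w, (LinearMap.toMatrix' g) *ᵥ w = g w := fun w => by
      rw [← Matrix.toLin'_apply, Matrix.toLin'_toMatrix']
    refine ⟨Matrix.fromBlocks 1 0 0 (LinearMap.toMatrix' g), ?_, ?_, ?_⟩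
    · rw [oddmodel_blocks_pow, oddmodel_toMatrix_pow, hgr]
      rw [show LinearMap.toMatrix' (1 : Module.End F (Fin (k + 1) ⊕ Fin (k + 1) → F)) = 1 from
        LinearMap.toMatrix'_one, Matrix.fromBlocks_one]
    · intro v
      have h1 := hgQ (v ∘ Sum.inr)
      rw [Matrix.fromBlocks_mulVec]
      unfold Cfsg.quadFormOdd
      unfold Cfsg.quadFormPlus at h1
      simp only [Sum.elim_inl, Sum.elim_inr, Matrix.zero_mulVec, zero_add, add_zero,
        Matrix.one_mulVec, Function.comp_apply, hAg] at h1 ⊢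
      rw [h1]
    · rw [Matrix.charpoly_fromBlocks_zero₁₂, Matrix.charpoly_one, Fintype.card_unit, pow_one]
      have h1 : (LinearMap.toMatrix' g).charpoly = g.charpoly := by
        rw [← Matrix.charpoly_toLin', Matrix.toLin'_toMatrix']
      rw [h1, hgc, ← mul_assoc, ← pow_succ', hsdeg]
      congr 2
      omega

end Cfsg.Agent.Lib.Helper63.Oq
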