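import Mathlib
import Cfsg.Agent.Lib.Helper72.PQDefs
import Cfsg.Agent.Lib.Helper12.Ward2
import Cfsg.Agent.Lib.Helper55.FS

/-!
# S4306 piece IIAB (helper72): type II with `Q` abelian is contradictory (trace over `R`)
-/

set_option autoImplicit false

namespace Cfsg.Agent.Lib.Helper63.PQ

open Cfsg.Agent.Lib.Helper72.PQ
open Cfsg.Agent.Lib.Helper12.Ward (conj_mem_of_nz conj_mem_of_nz' nz_of_conj_mem nz_comm
  comm_fix_trivial)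
open scoped commutatorElement

universe u

/-- the trace argument: if every `R`-conjugate `x⁻¹ u x` of `u ∈ Q` lies in `Y`, unless `x` acts
trivially on `Q / Y`, and `C_Q(R) = 1`, then `u ∈ Y` -/
theorem iiab_trace {Γ : Type u} [Group Γ] [Finite Γ] (q s : ℕ) (hq : q.Prime) (hs : s.Prime)
    (hqs : q ≠ s) (Q R Y : Subgroup Γ) (hQab : Ab Q) (hRs : IsPGroup s R)
    (hRQ : R ≤ Subgroup.normalizer (Q : Set Γ))
    (hZ : ∀ z ∈ Q, (∀ x ∈ R, x * z = z * x) → z = 1)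
    (u : Γ) (hu : u ∈ Q) (huq : u ^ q = 1)
    (hstar : ∀ x ∈ R, (∀ y ∈ Q, x * y * x⁻¹ * y⁻¹ ∈ Y) ∨ x⁻¹ * u * x ∈ Y) : u ∈ Y := by
  classical
  by_contra huY
  letI : CommGroup ↥Q := { (inferInstance : Group ↥Q) with
    mul_comm := fun v w => Subtype.ext (hQab v v.2 w w.2) }
  letI : Fintype ↥R := Fintype.ofFinite _
  haveI : Fact s.Prime := ⟨hs⟩
  -- the subgroup of `R` acting trivially on `Q / Y`
  let RY : Subgroup ↥R :=
    { carrier := {x | ∀ y ∈ Q, (x : Γ) * y * (x : Γ)⁻¹ * y⁻¹ ∈ Y}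
      one_mem' := by
        intro y hy
        have e : ((1 : ↥R) : Γ) * y * ((1 : ↥R) : Γ)⁻¹ * y⁻¹ = 1 := by
          rw [Subgroup.coe_one]; group
        rw [e]
        exact Y.one_mem
      mul_mem' := by
        intro a b ha hb y hy
        have hy' : (b : Γ) * y * (b : Γ)⁻¹ ∈ Q := conj_mem_of_nz (hRQ b.2) hy
        have e : ((a * b : ↥R) : Γ) * y * ((a * b : ↥R) : Γ)⁻¹ * y⁻¹ =
            ((a : Γ) * ((b : Γ) * y * (b : Γ)⁻¹) * (a : Γ)⁻¹ * ((b : Γ) * y * (b : Γ)⁻¹)⁻¹) *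
              ((b : Γ) * y * (b : Γ)⁻¹ * y⁻¹) := by
          rw [Subgroup.coe_mul]; group
        rw [e]
        exact Y.mul_mem (ha _ hy') (hb y hy)
      inv_mem' := by
        intro a ha y hy
        have hy' : (a : Γ)⁻¹ * y * (a : Γ) ∈ Q := conj_mem_of_nz' (hRQ a.2) hy
        have e : ((a⁻¹ : ↥R) : Γ) * y * ((a⁻¹ : ↥R) : Γ)⁻¹ * y⁻¹ =
            ((a : Γ) * ((a : Γ)⁻¹ * y * (a : Γ)) * (a : Γ)⁻¹ * ((a : Γ)⁻¹ * y * (a : Γ))⁻¹)⁻¹ := by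
          rw [Subgroup.coe_inv]; group
        rw [e]
        exact Y.inv_mem (ha _ hy') }
  have hRYmem : ∀ x : ↥R, x ∈ RY ↔ ∀ y ∈ Q, (x : Γ) * y * (x : Γ)⁻¹ * y⁻¹ ∈ Y := fun x => Iff.rfl
  let c : ↥R → ↥Q := fun x => ⟨(x : Γ)⁻¹ * u * (x : Γ), conj_mem_of_nz' (hRQ x.2) hu⟩
  have hcval : ∀ x : ↥R, ((c x : ↥Q) : Γ) = (x : Γ)⁻¹ * u * (x : Γ) := fun x => rfl
  -- the product is centralized by `R`
  have hPfix : ∀ x₀ : ↥R, (x₀ : Γ) * ((∏ x : ↥R, c x : ↥Q) : Γ) =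
      ((∏ x : ↥R, c x : ↥Q) : Γ) * (x₀ : Γ) := by
    intro x₀
    let φ : ↥Q →* ↥Q :=
      { toFun := fun y => ⟨(x₀ : Γ)⁻¹ * (y : Γ) * (x₀ : Γ), conj_mem_of_nz' (hRQ x₀.2) y.2⟩
        map_one' := by
          apply Subtype.ext
          show (x₀ : Γ)⁻¹ * ((1 : ↥Q) : Γ) * (x₀ : Γ) = ((1 : ↥Q) : Γ)
          rw [Subgroup.coe_one]; group
        map_mul' := by
          intro a b
          apply Subtype.ext
          show (x₀ : Γ)⁻¹ * ((a * b : ↥Q) : Γ) * (x₀ : Γ) =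
            ((x₀ : Γ)⁻¹ * (a : Γ) * (x₀ : Γ)) * ((x₀ : Γ)⁻¹ * (b : Γ) * (x₀ : Γ))
          rw [Subgroup.coe_mul]; group }
    have hφval : ∀ y : ↥Q, ((φ y : ↥Q) : Γ) = (x₀ : Γ)⁻¹ * (y : Γ) * (x₀ : Γ) := fun y => rfl
    have h1 : φ (∏ x : ↥R, c x) = ∏ x : ↥R, c x := by
      rw [map_prod]
      have h2 : ∀ x : ↥R, φ (c x) = c (x * x₀) := by
        intro x
        apply Subtype.ext
        rw [hφval, hcval, hcval, Subgroup.coe_mul]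
        group
      simp_rw [h2]
      exact Equiv.prod_comp (Equiv.mulRight x₀) c
    have h3 := congrArg Subtype.val h1
    rw [hφval] at h3
    calc (x₀ : Γ) * ((∏ x : ↥R, c x : ↥Q) : Γ)
        = (x₀ : Γ) * ((x₀ : Γ)⁻¹ * ((∏ x : ↥R, c x : ↥Q) : Γ) * (x₀ : Γ)) := by rw [h3]
      _ = ((∏ x : ↥R, c x : ↥Q) : Γ) * (x₀ : Γ) := by group
  have hP1 : (∏ x : ↥R, c x : ↥Q) = 1 := by
    apply Subtype.ext
    exact hZ _ (∏ x : ↥R, c x : ↥Q).2 (fun x hx => hPfix ⟨x, hx⟩)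
  -- the quotient `Q / Y`
  let π : ↥Q →* ↥Q ⧸ (Y.subgroupOf Q) := QuotientGroup.mk' (Y.subgroupOf Q)
  have hπ1 : ∀ y : ↥Q, (y : Γ) ∈ Y → π y = 1 := by
    intro y hy
    exact (QuotientGroup.eq_one_iff y).mpr (Subgroup.mem_subgroupOf.mpr hy)
  have hπ : ∀ x : ↥R, π (c x) = if x ∈ RY then π ⟨u, hu⟩ else 1 := by
    intro x
    by_cases hx : x ∈ RY
    · rw [if_pos hx]
      have h4 := (hRYmem x⁻¹).mp (RY.inv_mem hx) u hu
      rw [Subgroup.coe_inv, inv_inv] at h4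
      have h5 : π (c x * (⟨u, hu⟩ : ↥Q)⁻¹) = 1 := by
        apply hπ1
        show ((c x : ↥Q) : Γ) * u⁻¹ ∈ Y
        rw [hcval]
        exact h4
      calc π (c x) = π ((c x * (⟨u, hu⟩ : ↥Q)⁻¹) * ⟨u, hu⟩) := by rw [inv_mul_cancel_right]
        _ = π ⟨u, hu⟩ := by rw [map_mul, h5, one_mul]
    · rw [if_neg hx]
      rcases hstar x x.2 with h | h
      · exact absurd ((hRYmem x).mpr h) hx
      · exact hπ1 _ h
  have hprod : π (∏ x : ↥R, c x) = π ⟨u, hu⟩ ^ (Nat.card RY) := by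
    rw [map_prod]
    simp_rw [hπ]
    rw [Finset.prod_ite, Finset.prod_const_one, mul_one, Finset.prod_const]
    congr 1
    exact (Nat.subtype_card _ (by simp)).symm
  rw [hP1, map_one] at hprod
  have hqpow : π ⟨u, hu⟩ ^ q = 1 := by
    rw [← map_pow]
    have e : (⟨u, hu⟩ : ↥Q) ^ q = 1 := by
      apply Subtype.ext
      rw [Subgroup.coe_pow, Subgroup.coe_one]
      exact huq
    rw [e, map_one]
  have hRYp : IsPGroup s ↥RY := hRs.to_subgroup RY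
  obtain ⟨m, hm⟩ := IsPGroup.iff_card.mp hRYp
  have hcop : (Nat.card RY).Coprime q := by
    rw [hm]
    exact Nat.Coprime.pow_left m ((Nat.coprime_primes hs hq).mpr hqs.symm)
  have hord1 : orderOf (π ⟨u, hu⟩) ∣ Nat.card RY := orderOf_dvd_of_pow_eq_one hprod.symm
  have hord2 : orderOf (π ⟨u, hu⟩) ∣ q := orderOf_dvd_of_pow_eq_one hqpow
  have hord : orderOf (π ⟨u, hu⟩) = 1 := by
    have h6 := Nat.dvd_gcd hord1 hord2
    rw [Nat.Coprime.gcd_eq_one hcop] at h6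
    exact Nat.dvd_one.mp h6
  have hπu : π ⟨u, hu⟩ = 1 := orderOf_eq_one_iff.mp hord
  have h7 : (⟨u, hu⟩ : ↥Q) ∈ Y.subgroupOf Q := (QuotientGroup.eq_one_iff _).mp hπu
  exact huY (Subgroup.mem_subgroupOf.mp h7)

/-- the subgroup `W = [V, Q₀]` on which `Q₀` has no fixed points -/
theorem iiab_W {Γ : Type u} [Group Γ] [Finite Γ] (q r : ℕ) (hq : q.Prime) (hr : r.Prime)
    (hqr : q ≠ r) (V Q Q₀ : Subgroup Γ) (hVc : Ab V) (hVr : IsPGroup r V) (hQq : IsPGroup q Q)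
    (hQab : Ab Q) (hQ₀ : Q₀ ≤ Q) (hQV : Q ≤ Subgroup.normalizer (V : Set Γ))
    (hne : ∃ y ∈ Q₀, ∃ v ∈ V, y * v ≠ v * y) :
    ∃ W : Subgroup Γ, W ≤ V ∧ Q ≤ Subgroup.normalizer (W : Set Γ) ∧ W ≠ ⊥ ∧
      (Nat.card W).Coprime q ∧ ∀ w ∈ W, (∀ y ∈ Q₀, y * w = w * y) → w = 1 := by
  haveI : Fact q.Prime := ⟨hq⟩
  haveI : Fact r.Prime := ⟨hr⟩
  have hQ₀V : Q₀ ≤ Subgroup.normalizer (V : Set Γ) := hQ₀.trans hQV
  have hWV : ⁅V, Q₀⁆ ≤ V := Cfsg.Agent.Lib.Helper55.commutator_le_of_le_normalizer hQ₀V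
  have hQ₀q : IsPGroup q Q₀ := hQq.to_le hQ₀
  have hWr : IsPGroup r (⁅V, Q₀⁆ : Subgroup Γ) := hVr.to_le hWV
  obtain ⟨a, ha⟩ := IsPGroup.iff_card.mp hQ₀q
  obtain ⟨b, hb⟩ := IsPGroup.iff_card.mp hWr
  obtain ⟨k, hk⟩ := IsPGroup.iff_card.mp hVr
  have hqr' : Nat.Coprime q r := (Nat.coprime_primes hq hr).mpr hqr
  have hqV : ¬ q ∣ Nat.card V := by
    rw [hk]
    intro h
    exact hqr ((Nat.prime_dvd_prime_iff_eq hq hr).mp (hq.dvd_of_dvd_pow h))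
  refine ⟨⁅V, Q₀⁆, hWV, ?_, ?_, ?_, ?_⟩
  · intro b hb
    have hbQ₀ : b ∈ Subgroup.normalizer (Q₀ : Set Γ) := by
      apply nz_of_conj_mem
      · intro y hy
        have e : b * y * b⁻¹ = y := by
          rw [hQab b hb y (hQ₀ hy)]; group
        rw [e]
        exact hy
      · intro y hy
        have e : b⁻¹ * y * b = y := by
          rw [mul_assoc, ← hQab b hb y (hQ₀ hy)]; group
        rw [e]
        exact hy
    exact nz_comm (hQV hb) hbQ₀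
  · intro h0
    obtain ⟨y, hy, v, hv, hyv⟩ := hne
    have h1 : ⁅v, y⁆ ∈ ⁅V, Q₀⁆ := Subgroup.commutator_mem_commutator hv hy
    rw [h0, Subgroup.mem_bot] at h1
    exact hyv (commutatorElement_eq_one_iff_mul_comm.mp h1).symm
  · rw [hb]
    exact Nat.Coprime.pow_left b hqr'.symm
  · have hsup := Cfsg.Agent.Lib.Helper55.coprime_le_commutator_sup_centralizer (p := q) hqV hQ₀q
      hQ₀V
    have heq := Cfsg.Agent.Lib.Helper55.commutator_eq_commutator_commutator hQ₀V hsup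
    have hcop : (Nat.card Q₀).Coprime (Nat.card (⁅V, Q₀⁆ : Subgroup Γ)) := by
      rw [ha, hb]
      exact Nat.Coprime.pow _ _ hqr'
    exact comm_fix_trivial (⁅V, Q₀⁆ : Subgroup Γ) Q₀
      (fun x hx y hy => hVc x (hWV hx) y (hWV hy))
      (Subgroup.normalizer_commutator_ge_right V Q₀) hcop heq.le

/-- IIAB -/
theorem iiab (h1 : II0Stmt.{u}) (h2 : IIWStmt.{u}) (h3 : IIRStmt.{u}) (h4 : WExStmt.{u})
    (h5 : L2Stmt.{u}) : IIabStmt.{u} := by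
  intro Γ _ _ p ℓ r q s A F V Q R tw hII hQab
  obtain ⟨-, -, hpowZ, hZbot⟩ := h5 Γ p ℓ r q s A F V Q R tw
  have hZ := hZbot hQab
  have hZ' : ∀ z ∈ Q, (∀ x ∈ R, x * z = z * x) → z = 1 := by
    intro z hz hzx
    have h6 : z ∈ cz Q R := mem_cz.mpr ⟨hz, hzx⟩
    rw [hZ] at h6
    exact Subgroup.mem_bot.mp h6
  have hexp : ∀ y ∈ Q, y ^ q = 1 := by
    intro y hy
    have h6 := hpowZ y hy
    rw [hZ] at h6
    exact Subgroup.mem_bot.mp h6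
  obtain ⟨u₀, hu₀Q, hu₀Z, hu₀F⟩ := h1 Γ p ℓ r q s A F V Q R tw hII
  have hu₀1 : u₀ ≠ 1 := by
    rintro rfl
    exact hu₀Z (Subgroup.one_mem _)
  obtain ⟨Q₀, hQ₀def⟩ : ∃ Q₀ : Subgroup Γ, Q₀ = Q ⊓ Subgroup.centralizer (F : Set Γ) :=
    ⟨_, rfl⟩
  have hQ₀Q : Q₀ ≤ Q := by
    rw [hQ₀def]
    exact inf_le_left
  have hQ₀mem : ∀ y, y ∈ Q₀ ↔ y ∈ Q ∧ ∀ a ∈ F, a * y = y * a := by
    intro y
    rw [hQ₀def, Subgroup.mem_inf, Subgroup.mem_centralizer_iff]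
    rfl
  have hu₀Q₀ : u₀ ∈ Q₀ := (hQ₀mem u₀).mpr ⟨hu₀Q, hu₀F⟩
  have hne : ∃ y ∈ Q₀, ∃ v ∈ V, y * v ≠ v * y := by
    by_contra hcon
    apply hu₀1
    apply tw.hE2' u₀ hu₀Q
    intro v hv
    by_contra h
    exact hcon ⟨u₀, hu₀Q₀, v, hv, h⟩
  obtain ⟨W, hWV, hQW, hW1, hWcop, hWfix⟩ :=
    iiab_W q r tw.hq tw.hr tw.hqr V Q Q₀ tw.hVc tw.hVr tw.hQq hQab hQ₀Q tw.hQV hne
  have hWc : Ab W := fun x hx y hy => tw.hVc x (hWV hx) y (hWV hy)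
  obtain ⟨Y, hYQ, hcard, w, hwW, hw1, hwY⟩ := h4 Γ q Q W tw.hq hQab hexp hWc hQW hWcop hW1
    (fun w hw hfix => tw.hE1 w (hWV hw) hfix)
  obtain ⟨u₁, hu₁Q₀, hu₁Y⟩ : ∃ u₁ ∈ Q₀, u₁ ∉ Y := by
    by_contra hcon
    apply hw1
    apply hWfix w hwW
    intro y hy
    apply hwY
    by_contra hyY
    exact hcon ⟨y, hy, hyY⟩
  have hu₁Q : u₁ ∈ Q := hQ₀Q hu₁Q₀
  have hu₁F : ∀ a ∈ F, a * u₁ = u₁ * a := ((hQ₀mem u₁).mp hu₁Q₀).2
  have hQF : ∀ a ∈ F, ∀ y ∈ Q, a * y * a⁻¹ * y⁻¹ ∈ Y := by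
    rcases h2 Γ p ℓ r q s A F V Q R tw hQab Y hYQ hcard ⟨w, hWV hwW, hw1, hwY⟩ with h | h
    · exact absurd (h u₁ hu₁Q hu₁F) hu₁Y
    · exact h
  have hstar : ∀ x ∈ R, (∀ y ∈ Q, x * y * x⁻¹ * y⁻¹ ∈ Y) ∨ x⁻¹ * u₁ * x ∈ Y := by
    intro x hx
    have hxQ := tw.hRQ hx
    have hxV := tw.hRV hx
    obtain ⟨Yx, hYx⟩ : ∃ Yx : Subgroup Γ, Yx = Y.map (MulAut.conj x).toMonoidHom := ⟨_, rfl⟩
    have hYxmem : ∀ z, z ∈ Yx ↔ ∃ y ∈ Y, x * y * x⁻¹ = z := by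
      intro z
      rw [hYx, Subgroup.mem_map]
      rfl
    have hYxQ : Yx ≤ Q := by
      intro z hz
      obtain ⟨y, hy, rfl⟩ := (hYxmem z).mp hz
      exact conj_mem_of_nz hxQ (hYQ hy)
    have hcardx : Nat.card Q = q * Nat.card Yx := by
      rw [hYx, Subgroup.card_map_of_injective (MulAut.conj x).injective]
      exact hcard
    have hvx : ∃ v ∈ V, v ≠ 1 ∧ ∀ z ∈ Yx, z * v = v * z := by
      refine ⟨x * w * x⁻¹, conj_mem_of_nz hxV (hWV hwW), ?_, ?_⟩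
      · intro h
        apply hw1
        have e : w = x⁻¹ * (x * w * x⁻¹) * x := by group
        rw [e, h]
        group
      · intro z hz
        obtain ⟨y, hy, rfl⟩ := (hYxmem z).mp hz
        have h6 := hwY y hy
        calc x * y * x⁻¹ * (x * w * x⁻¹) = x * (y * w) * x⁻¹ := by group
          _ = x * (w * y) * x⁻¹ := by rw [h6]
          _ = x * w * x⁻¹ * (x * y * x⁻¹) := by group
    rcases h2 Γ p ℓ r q s A F V Q R tw hQab Yx hYxQ hcardx hvx with h | h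
    · right
      obtain ⟨y, hy, hyx⟩ := (hYxmem u₁).mp (h u₁ hu₁Q hu₁F)
      have e : x⁻¹ * u₁ * x = y := by
        rw [← hyx]
        group
      rw [e]
      exact hy
    · left
      apply h3 Γ p ℓ r q s A F V Q R tw hII hQab Y hYQ hQF x hx
      intro a ha y hy
      obtain ⟨y₀, hy₀, hy₀x⟩ := (hYxmem _).mp (h a ha y hy)
      have e : x⁻¹ * (a * y * a⁻¹ * y⁻¹) * x = y₀ := by
        rw [← hy₀x]
        group
      rw [e]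
      exact hy₀
  exact hu₁Y (iiab_trace q s tw.hq tw.hs tw.hqs Q R Y hQab tw.hRs tw.hRQ hZ' u₁ hu₁Q
    (hexp u₁ hu₁Q) hstar)

end Cfsg.Agent.Lib.Helper63.PQ
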