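import Mathlib
import Cfsg.Prelude.Def_Blocks
import Cfsg.Prelude.Def_Local
import Cfsg.Agent.S4441
import Cfsg.Agent.Lib.Helper83.Linear
import Cfsg.Agent.Lib.Helper84.Core

/-!
# S4501 piece C3a (helper30): the principal 3-block when `|P| = 3`, `|N(P):C(P)| = 2`

Assembly from `Cfsg.Agent.S4441.result` (p = 3, e = 2): the principal block is `{1, ζ, ζ'}`.
-/

set_option autoImplicit false
open Cfsg
open scoped ComplexConjugate

namespace Cfsg.Agent.Lib.Helper30.S4501.C3a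

open Cfsg.Agent.Lib
open scoped commutatorElement

theorem perfect_of_simple {G : Type*} [Group G] [IsSimpleGroup G]
    (hna : ∃ x y : G, x * y ≠ y * x) : commutator G = ⊤ := by
  rcases IsSimpleGroup.eq_bot_or_eq_top_of_normal (commutator G) inferInstance with h | h
  · exfalso
    obtain ⟨x, y, hxy⟩ := hna
    apply hxy
    rw [← commutatorElement_eq_one_iff_mul_comm]
    have hmem : ⁅x, y⁆ ∈ commutator G := by
      rw [commutator_def]
      exact Subgroup.commutator_mem_commutator (Subgroup.mem_top x) (Subgroup.mem_top y)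
    rw [h] at hmem
    exact Subgroup.mem_bot.mp hmem
  · exact h

theorem trivial_of_linear {G : Type*} [Group G] [Finite G] (hperf : commutator G = ⊤)
    (χ : IrrCharacter G) (h1 : charDegree (χ : G → ℂ) = 1) : (χ : G → ℂ) = fun _ => 1 := by
  have h2 : χ.1 1 = 1 := (Helper83.irr_charDegree_eq_one_iff χ.2).mp h1
  funext g
  exact Helper83.irr_linear_commutator χ.2 h2 (by rw [hperf]; trivial)

theorem triv_mem {G : Type*} [Group G] (M : Ideal Cfsg.AlgInt) (hM : Cfsg.IsPModular 3 M) :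
    Helper83.trivIrr G ∈ Cfsg.principalBlock M G := by
  show SameBlock M (fun _ : G => (1 : ℂ)) (fun _ : G => (1 : ℂ))
  intro g
  refine ⟨0, 1, M.zero_mem, ?_, ?_⟩
  · exact (Ideal.ne_top_iff_one M).mp hM.2.1.ne_top
  · simp

theorem core {G : Type*} [Group G] [Finite G] (hperf : commutator G = ⊤)
    (M : Ideal Cfsg.AlgInt) (x : G)
    (ζ ζ' : IrrCharacter G) (h1 : (ζ : G → ℂ) ≠ (fun _ => 1))
    (h2 : (ζ' : G → ℂ) ≠ (fun _ => 1)) (h3 : ζ ≠ ζ')
    (hB : principalBlock M G = {χ : IrrCharacter G |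
      (χ : G → ℂ) = (fun _ => 1) ∨ χ = ζ ∨ χ = ζ'})
    (hreg : ∀ g : G, ¬ 3 ∣ orderOf g → (ζ' : G → ℂ) g = 1 + (ζ : G → ℂ) g)
    (hmod : (charDegree (ζ : G → ℂ) : ℤ) ≡ 1 [ZMOD 3])
    (hx : (ζ : G → ℂ) x = 1 ∨ (ζ' : G → ℂ) x = -1) :
    ∃ ζ ζ' : Cfsg.IrrCharacter G, (ζ : G → ℂ) ≠ (fun _ => 1) ∧ (ζ' : G → ℂ) ≠ (fun _ => 1) ∧
      ζ ≠ ζ' ∧
      Cfsg.principalBlock M G = {χ : Cfsg.IrrCharacter G |
        (χ : G → ℂ) = (fun _ => 1) ∨ χ = ζ ∨ χ = ζ'} ∧
      Cfsg.charDegree (ζ' : G → ℂ) = Cfsg.charDegree (ζ : G → ℂ) + 1 ∧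
      2 ≤ Cfsg.charDegree (ζ : G → ℂ) ∧ ¬ 3 ∣ Cfsg.charDegree (ζ : G → ℂ) ∧
      ¬ 3 ∣ Cfsg.charDegree (ζ : G → ℂ) + 1 ∧
      (∀ g : G, ¬ 3 ∣ orderOf g → (ζ' : G → ℂ) g = 1 + (ζ : G → ℂ) g) ∧
      ((ζ : G → ℂ) x = 1 ∨ (ζ' : G → ℂ) x = -1) := by
  have hdeg : charDegree (ζ' : G → ℂ) = charDegree (ζ : G → ℂ) + 1 := by
    have h := hreg 1 (by simp)
    rw [Helper84.irr_one, Helper84.irr_one] at h
    have h' : ((charDegree (ζ' : G → ℂ) : ℕ) : ℂ) = ((charDegree (ζ : G → ℂ) + 1 : ℕ) : ℂ) := by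
      rw [h]; push_cast; ring
    exact_mod_cast h'
  have hpos := Helper84.irr_degree_pos ζ
  have hne1 : charDegree (ζ : G → ℂ) ≠ 1 := fun h => h1 (trivial_of_linear hperf ζ h)
  refine ⟨ζ, ζ', h1, h2, h3, hB, hdeg, by omega, ?_, ?_, hreg, hx⟩
  · unfold Int.ModEq at hmod; omega
  · unfold Int.ModEq at hmod; omega

theorem assemble {G : Type*} [Group G] [Finite G] (hperf : commutator G = ⊤)
    (M : Ideal Cfsg.AlgInt) (x : G)
    (a b θ : IrrCharacter G) (ea eb ε : ℤ) (hab : a ≠ b) (hθa : θ ≠ a) (hθb : θ ≠ b)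
    (hB : principalBlock M G = {a, b} ∪ {θ})
    (hea : ea = 1 ∨ ea = -1) (heb : eb = 1 ∨ eb = -1) (hε : ε = 1 ∨ ε = -1)
    (hma : (charDegree (a : G → ℂ) : ℤ) ≡ ea [ZMOD 3])
    (hmb : (charDegree (b : G → ℂ) : ℤ) ≡ eb [ZMOD 3])
    (hmθ : (charDegree (θ : G → ℂ) : ℤ) ≡ ε * 2 [ZMOD 3])
    (hva : (a : G → ℂ) x = (ea : ℂ)) (hvb : (b : G → ℂ) x = (eb : ℂ))
    (hsum : ∀ g : G, ¬ 3 ∣ orderOf g →
      (ε : ℂ) * (θ : G → ℂ) g = (ea : ℂ) * (a : G → ℂ) g + (eb : ℂ) * (b : G → ℂ) g)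
    (hT : Helper83.trivIrr G = a ∨ Helper83.trivIrr G = θ) :
    ∃ ζ ζ' : Cfsg.IrrCharacter G, (ζ : G → ℂ) ≠ (fun _ => 1) ∧ (ζ' : G → ℂ) ≠ (fun _ => 1) ∧
      ζ ≠ ζ' ∧
      Cfsg.principalBlock M G = {χ : Cfsg.IrrCharacter G |
        (χ : G → ℂ) = (fun _ => 1) ∨ χ = ζ ∨ χ = ζ'} ∧
      Cfsg.charDegree (ζ' : G → ℂ) = Cfsg.charDegree (ζ : G → ℂ) + 1 ∧
      2 ≤ Cfsg.charDegree (ζ : G → ℂ) ∧ ¬ 3 ∣ Cfsg.charDegree (ζ : G → ℂ) ∧
      ¬ 3 ∣ Cfsg.charDegree (ζ : G → ℂ) + 1 ∧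
      (∀ g : G, ¬ 3 ∣ orderOf g → (ζ' : G → ℂ) g = 1 + (ζ : G → ℂ) g) ∧
      ((ζ : G → ℂ) x = 1 ∨ (ζ' : G → ℂ) x = -1) := by
  have hTfun : ∀ χ : IrrCharacter G, (χ : G → ℂ) = (fun _ => 1) ↔ χ = Helper83.trivIrr G :=
    fun χ => ⟨fun h => Subtype.ext h, fun h => by rw [h]; rfl⟩
  have h1reg : ¬ 3 ∣ orderOf (1 : G) := by simp
  have hdeg : ε * (charDegree (θ : G → ℂ) : ℤ) =
      ea * (charDegree (a : G → ℂ) : ℤ) + eb * (charDegree (b : G → ℂ) : ℤ) := by
    have h := hsum 1 h1reg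
    rw [Helper84.irr_one, Helper84.irr_one, Helper84.irr_one] at h
    exact_mod_cast h
  have hpa := Helper84.irr_degree_pos a
  have hpb := Helper84.irr_degree_pos b
  have hpθ := Helper84.irr_degree_pos θ
  rcases hT with hT | hT
  · -- the trivial character is `a`
    have hag : ∀ g, (a : G → ℂ) g = 1 := fun g => by rw [← hT]; rfl
    have hea1 : ea = 1 := by
      rw [hag x] at hva
      exact_mod_cast hva.symm
    subst hea1
    have hda : charDegree (a : G → ℂ) = 1 := by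
      have h := hag 1
      rw [Helper84.irr_one] at h
      exact_mod_cast h
    have hane : ∀ χ : IrrCharacter G, χ ≠ a → (χ : G → ℂ) ≠ fun _ => 1 :=
      fun χ h h' => h (((hTfun χ).mp h').trans hT)
    rcases hε with rfl | rfl <;> rcases heb with rfl | rfl
    · -- (1, 1): ζ = b, ζ' = θ
      refine core hperf M x b θ (hane b hab.symm) (hane θ hθa) hθb.symm ?_ ?_ hmb
        (Or.inl (by simpa using hvb))
      · rw [hB]
        ext χ
        simp only [Set.mem_union, Set.mem_insert_iff, Set.mem_singleton_iff, Set.mem_ofPred_eq,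
          hTfun χ, hT]
        tauto
      · intro g hg
        have h := hsum g hg
        rw [hag g] at h
        simpa using h
    · exfalso
      rw [hda] at hdeg
      push_cast at hdeg
      omega
    · exfalso
      rw [hda] at hdeg
      push_cast at hdeg
      omega
    · -- (-1, -1): ζ = θ, ζ' = b
      refine core hperf M x θ b (hane θ hθa) (hane b hab.symm) hθb ?_ ?_ ?_
        (Or.inr (by simpa using hvb))
      · rw [hB]
        ext χ
        simp only [Set.mem_union, Set.mem_insert_iff, Set.mem_singleton_iff, Set.mem_ofPred_eq,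
          hTfun χ, hT]
        tauto
      · intro g hg
        have h := hsum g hg
        rw [hag g] at h
        push_cast at h
        linear_combination h
      · unfold Int.ModEq at hmθ ⊢
        omega
  · -- the trivial character is `θ`
    have hθg : ∀ g, (θ : G → ℂ) g = 1 := fun g => by rw [← hT]; rfl
    have hdθ : charDegree (θ : G → ℂ) = 1 := by
      have h := hθg 1
      rw [Helper84.irr_one] at h
      exact_mod_cast h
    have hne : ∀ χ : IrrCharacter G, χ ≠ θ → (χ : G → ℂ) ≠ fun _ => 1 :=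
      fun χ h h' => h (((hTfun χ).mp h').trans hT)
    have hε' : ε = -1 := by
      rcases hε with rfl | rfl
      · exfalso
        rw [hdθ] at hmθ
        unfold Int.ModEq at hmθ
        omega
      · rfl
    subst hε'
    rw [hdθ] at hdeg
    push_cast at hdeg
    rcases hea with rfl | rfl <;> rcases heb with rfl | rfl
    · exfalso
      omega
    · -- ea = 1, eb = -1: ζ = a, ζ' = b
      refine core hperf M x a b (hne a hθa.symm) (hne b hθb.symm) hab ?_ ?_ hma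
        (Or.inl (by simpa using hva))
      · rw [hB]
        ext χ
        simp only [Set.mem_union, Set.mem_insert_iff, Set.mem_singleton_iff, Set.mem_ofPred_eq,
          hTfun χ, hT]
        tauto
      · intro g hg
        have h := hsum g hg
        rw [hθg g] at h
        push_cast at h
        linear_combination h
    · -- ea = -1, eb = 1: ζ = b, ζ' = a
      refine core hperf M x b a (hne b hθb.symm) (hne a hθa.symm) hab.symm ?_ ?_ hmb
        (Or.inl (by simpa using hvb))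
      · rw [hB]
        ext χ
        simp only [Set.mem_union, Set.mem_insert_iff, Set.mem_singleton_iff, Set.mem_ofPred_eq,
          hTfun χ, hT]
        tauto
      · intro g hg
        have h := hsum g hg
        rw [hθg g] at h
        push_cast at h
        linear_combination h
    · exfalso
      omega

/-- C3a -/
theorem three_block {G : Type*} [Group G] [Finite G] [IsSimpleGroup G]
    (hna : ∃ x y : G, x * y ≠ y * x) (M : Ideal Cfsg.AlgInt) (hM : Cfsg.IsPModular 3 M)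
    (P : Sylow 3 G) (hP : Nat.card P = 3)
    (hN : (Subgroup.centralizer ((P : Subgroup G) : Set G)).relIndex
      (Subgroup.normalizer ((P : Subgroup G) : Set G)) = 2)
    (x : G) (hx : x ∈ (P : Subgroup G)) (hx1 : x ≠ 1) :
    ∃ ζ ζ' : Cfsg.IrrCharacter G, (ζ : G → ℂ) ≠ (fun _ => 1) ∧ (ζ' : G → ℂ) ≠ (fun _ => 1) ∧
      ζ ≠ ζ' ∧
      Cfsg.principalBlock M G = {χ : Cfsg.IrrCharacter G |
        (χ : G → ℂ) = (fun _ => 1) ∨ χ = ζ ∨ χ = ζ'} ∧
      Cfsg.charDegree (ζ' : G → ℂ) = Cfsg.charDegree (ζ : G → ℂ) + 1 ∧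
      2 ≤ Cfsg.charDegree (ζ : G → ℂ) ∧ ¬ 3 ∣ Cfsg.charDegree (ζ : G → ℂ) ∧
      ¬ 3 ∣ Cfsg.charDegree (ζ : G → ℂ) + 1 ∧
      (∀ g : G, ¬ 3 ∣ orderOf g → (ζ' : G → ℂ) g = 1 + (ζ : G → ℂ) g) ∧
      ((ζ : G → ℂ) x = 1 ∨ (ζ' : G → ℂ) x = -1) := by
  classical
  have : Fintype G := Fintype.ofFinite G
  have : Fact (Nat.Prime 3) := ⟨Nat.prime_three⟩
  have hperf := perfect_of_simple hna
  obtain ⟨X, Y, hB, hdisj, hXc, hYc, εX, ε, hX, hε, hYdeg, -, hYsum⟩ :=
    Cfsg.Agent.S4441.result 3 M hM (by norm_num) P hP 2 hN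
  rw [_root_.Nat.card_coe_set_eq, Set.ncard_eq_two] at hXc
  obtain ⟨a, b, hab, rfl⟩ := hXc
  have hYc' : Y.ncard = 1 := by
    rw [← _root_.Nat.card_coe_set_eq, hYc]
  rw [Set.ncard_eq_one] at hYc'
  obtain ⟨θ, rfl⟩ := hYc'
  have hθa : θ ≠ a := fun h =>
    Set.disjoint_left.mp hdisj (Set.mem_insert a {b}) (Set.mem_singleton_iff.mpr h.symm)
  have hθb : θ ≠ b := fun h =>
    Set.disjoint_left.mp hdisj (Set.mem_insert_of_mem a rfl) (Set.mem_singleton_iff.mpr h.symm)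
  have hT : Helper83.trivIrr G ∈ ({a, b} ∪ {θ} : Set (IrrCharacter G)) := by
    rw [← hB]
    exact triv_mem M hM
  have hXa := hX a (Set.mem_insert a {b})
  have hXb := hX b (Set.mem_insert_of_mem a rfl)
  have hva : (a : G → ℂ) x = (εX a : ℂ) := by
    have h := hXa.2.2 x hx hx1 1 (Subgroup.one_mem _) (by simp)
    rwa [mul_one] at h
  have hvb : (b : G → ℂ) x = (εX b : ℂ) := by
    have h := hXb.2.2 x hx hx1 1 (Subgroup.one_mem _) (by simp)
    rwa [mul_one] at h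
  have hsum : ∀ g : G, ¬ 3 ∣ orderOf g →
      (ε : ℂ) * (θ : G → ℂ) g = (εX a : ℂ) * (a : G → ℂ) g + (εX b : ℂ) * (b : G → ℂ) g := by
    intro g hg
    have h := hYsum θ rfl g hg
    rwa [finsum_mem_pair hab] at h
  have hmθ : (charDegree (θ : G → ℂ) : ℤ) ≡ ε * 2 [ZMOD 3] := by
    exact_mod_cast hYdeg θ rfl
  have hma : (charDegree (a : G → ℂ) : ℤ) ≡ εX a [ZMOD 3] := by
    exact_mod_cast hXa.2.1
  have hmb : (charDegree (b : G → ℂ) : ℤ) ≡ εX b [ZMOD 3] := by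
    exact_mod_cast hXb.2.1
  simp only [Set.mem_union, Set.mem_insert_iff, Set.mem_singleton_iff] at hT
  rcases hT with (hT | hT) | hT
  · exact assemble hperf M x a b θ (εX a) (εX b) ε hab hθa hθb hB hXa.1 hXb.1 hε hma hmb hmθ
      hva hvb hsum (Or.inl hT)
  · exact assemble hperf M x b a θ (εX b) (εX a) ε hab.symm hθb hθa
      (by rw [hB, Set.pair_comm]) hXb.1 hXa.1 hε hmb hma hmθ hvb hva
      (fun g hg => by rw [hsum g hg, add_comm]) (Or.inl hT)
  · exact assemble hperf M x a b θ (εX a) (εX b) ε hab hθa hθb hB hXa.1 hXb.1 hε hma hmb hmθ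
      hva hvb hsum (Or.inr hT)

end Cfsg.Agent.Lib.Helper30.S4501.C3a
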