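import Mathlib
import Cfsg.Prelude.Def_GeometricClasses
import Cfsg.Prelude.Def_LieClassical
import Cfsg.Agent.Lib.Helper21.SUPU1
import Cfsg.Agent.Lib.Helper28.OMPO1a

/-!
# Project SPP (helper71, S5805 / S5844), piece S1

`S1`: a reducible group of isometries of a symplectic form stabilises a non-zero totally singular
subspace or a non-zero non-degenerate subspace of dimension at most `n / 2` (consider
`W ⊓ W^⊥` for an invariant subspace `W`).
-/

set_option autoImplicit false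

namespace Cfsg.Agent.Lib.Helper63.SPPS1

open Matrix Cfsg.Geo

variable {n : ℕ} {F : Type*} [Field F] [Fintype F]

/-- S1: a reducible group of isometries stabilises a non-zero totally singular subspace or a
non-zero non-degenerate subspace of dimension at most `n / 2`. -/
theorem S1 (f : (Fin n → F) → (Fin n → F) → F) (hf : IsSymplecticForm f)
    (H : Subgroup (GL (Fin n) F)) (hfix : FixesForm (matrixSet H) f)
    (h1 : ¬ ActsIrreducibly (matrixSet H)) :
    (∃ W : Submodule F (Fin n → F), W ≠ ⊥ ∧ IsTotallySingularFor f W ∧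
      H ≤ subspaceStabilizer W) ∨
    (∃ W : Submodule F (Fin n → F), W ≠ ⊥ ∧ IsNondegenerateOn f W ∧
      2 * Module.finrank F W ≤ n ∧ H ≤ subspaceStabilizer W) := by
  classical
  have hb := hf.bilinear
  have hb0 : ∀ w, f w 0 = 0 := by
    intro w
    have h3 := hb.smul_right 0 w 0
    rwa [zero_smul, zero_mul] at h3
  have hiso : ∀ g ∈ H, ∀ u v, f ((g : Matrix (Fin n) (Fin n) F) *ᵥ u)
      ((g : Matrix (Fin n) (Fin n) F) *ᵥ v) = f u v := by
    intro g hg u v
    exact hfix _ ⟨g, hg, rfl⟩ u v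
  unfold ActsIrreducibly at h1
  push Not at h1
  obtain ⟨W, hW, hWbot, hWtop⟩ := h1
  have hWinv : ∀ g ∈ H, ∀ w ∈ W, (g : Matrix (Fin n) (Fin n) F) *ᵥ w ∈ W := by
    intro g hg w hw
    have h3 := hW (g : Matrix (Fin n) (Fin n) F) ⟨g, hg, rfl⟩
    have h4 : Matrix.toLin' (g : Matrix (Fin n) (Fin n) F) w ∈
        W.map (Matrix.toLin' (g : Matrix (Fin n) (Fin n) F)) := Submodule.mem_map_of_mem hw
    have h5 := h3 h4
    rwa [Matrix.toLin'_apply] at h5
  obtain ⟨Wp, hWp⟩ : ∃ Wp : Submodule F (Fin n → F),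
      ∀ v, v ∈ Wp ↔ ∀ w ∈ W, f w v = 0 :=
    ⟨{ carrier := {v | ∀ w ∈ W, f w v = 0}
       add_mem' := by
         intro a c ha hc w hw
         rw [hb.add_right, ha w hw, hc w hw, add_zero]
       zero_mem' := fun w _ => hb0 w
       smul_mem' := by
         intro c x hx w hw
         rw [hb.smul_right, hx w hw, mul_zero] }, fun v => Iff.rfl⟩
  have hWpinv : ∀ g ∈ H, ∀ v ∈ Wp, (g : Matrix (Fin n) (Fin n) F) *ᵥ v ∈ Wp := by
    intro g hg v hv
    rw [hWp]
    intro w hw
    have h3 : (g : Matrix (Fin n) (Fin n) F) *ᵥ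
        (((g⁻¹ : GL (Fin n) F) : Matrix (Fin n) (Fin n) F) *ᵥ w) = w := by
      rw [Matrix.mulVec_mulVec, ← Units.val_mul, mul_inv_cancel, Units.val_one,
        Matrix.one_mulVec]
    have h4 := hiso g hg (((g⁻¹ : GL (Fin n) F) : Matrix (Fin n) (Fin n) F) *ᵥ w) v
    rw [h3] at h4
    rw [h4]
    exact (hWp v).1 hv _ (hWinv g⁻¹ (H.inv_mem hg) w hw)
  have hstabW : H ≤ subspaceStabilizer W := Cfsg.Agent.Lib.Helper21.SUPU1.U1_stab H W hWinv
  have hstabWp : H ≤ subspaceStabilizer Wp := Cfsg.Agent.Lib.Helper21.SUPU1.U1_stab H Wp hWpinv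
  by_cases hR : W ⊓ Wp = ⊥
  · right
    have hdim := Cfsg.Agent.Lib.Helper28.OMPO1a.O1a_finrank_perp f hb W Wp hWp
    have hsup := Submodule.finrank_sup_add_finrank_inf_eq W Wp
    rw [hR, finrank_bot, add_zero] at hsup
    have hle : Module.finrank F ↥(W ⊔ Wp) ≤ n := by
      have h3 := Submodule.finrank_le (W ⊔ Wp)
      rwa [Module.finrank_fin_fun] at h3
    have htop : W ⊔ Wp = ⊤ := by
      apply Submodule.eq_top_of_finrank_eq
      rw [Module.finrank_fin_fun]
      omega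
    have hWnd : IsNondegenerateOn f W := by
      intro w hw hw0
      have hnot : w ∉ Wp := by
        intro hwp
        have h3 : w ∈ W ⊓ Wp := ⟨hw, hwp⟩
        rw [hR] at h3
        exact hw0 ((Submodule.mem_bot F).1 h3)
      rw [hWp] at hnot
      push Not at hnot
      obtain ⟨x, hx, hxw⟩ := hnot
      exact ⟨⟨x, hx, hxw⟩, ⟨x, hx, by rw [hf.skew]; exact neg_ne_zero.mpr hxw⟩⟩
    have hWpnd : IsNondegenerateOn f Wp := by
      intro v hv hv0
      obtain ⟨⟨y, hy⟩, -⟩ := hf.nondegenerate v hv0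
      have hymem : y ∈ W ⊔ Wp := by
        rw [htop]
        exact Submodule.mem_top
      obtain ⟨w, hw, x, hx, rfl⟩ := Submodule.mem_sup.1 hymem
      rw [hb.add_left, (hWp v).1 hv w hw, zero_add] at hy
      exact ⟨⟨x, hx, hy⟩, ⟨x, hx, by rw [hf.skew]; exact neg_ne_zero.mpr hy⟩⟩
    have hWpbot : Wp ≠ ⊥ := by
      intro hbt
      rw [hbt, finrank_bot] at hdim
      have hlt : Module.finrank F W < Module.finrank F (Fin n → F) :=
        Submodule.finrank_lt hWtop
      rw [Module.finrank_fin_fun] at hlt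
      omega
    by_cases hsmall : 2 * Module.finrank F W ≤ n
    · exact ⟨W, hWbot, hWnd, hsmall, hstabW⟩
    · exact ⟨Wp, hWpbot, hWpnd, by omega, hstabWp⟩
  · left
    refine ⟨W ⊓ Wp, hR, ?_, Cfsg.Agent.Lib.Helper21.SUPU1.U1_stab H (W ⊓ Wp) ?_⟩
    · intro u hu v hv
      exact (hWp v).1 hv.2 u hu.1
    · intro g hg v hv
      exact ⟨hWinv g hg v hv.1, hWpinv g hg v hv.2⟩

end Cfsg.Agent.Lib.Helper63.SPPS1
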