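import Mathlib
import Cfsg.Prelude.Def_GeometricClasses
import Cfsg.Prelude.Def_LieClassical

/-! SUP piece AU (helper63 for helper71; S5811/S5856): the arithmetic of the minimal field with
`|F| = q ^ 2` for `z = 7, 11`: the order of `p` modulo `z` is even. -/

set_option autoImplicit false

namespace Cfsg.Agent.Lib.Helper63.SUPAU

open Matrix Cfsg.Geo

variable {n : ℕ} {F : Type*} [Field F] [Fintype F] {q : ℕ}

private theorem au_key (l p d : ℕ) (hp : 0 < p) :
    l ∣ p ^ d - 1 ↔ (p : ZMod l) ^ d = 1 := by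
  have h1 : 1 ≤ p ^ d := Nat.one_le_pow _ _ hp
  rw [← ZMod.natCast_eq_zero_iff, Nat.cast_sub h1, Nat.cast_pow, Nat.cast_one, sub_eq_zero]

private theorem au_mod (l p k : ℕ) (hk : k < l) (h : (p : ZMod l) = (k : ZMod l)) :
    p % l = k := by
  have h1 := (ZMod.natCast_eq_natCast_iff' p k l).mp h
  rw [Nat.mod_eq_of_lt hk] at h1
  exact h1

private theorem au_setup (z : ℕ) [Fact z.Prime] (hF : Fintype.card F = q ^ 2) (p e : ℕ)
    (hmin : IsMinimalFieldFor z p e F) :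
    ∃ k, q = p ^ k ∧ e = 2 * k ∧ 0 < k ∧ (p : ZMod z) ^ e = 1 ∧ e ∣ z - 1 ∧
      ∀ d, 0 < d → d < e → (p : ZMod z) ^ d ≠ 1 := by
  obtain ⟨hp, -, hcard, hdvd, hmin'⟩ := hmin
  have hp0 := hp.pos
  have hqe : q ^ 2 = p ^ e := by rw [← hF, hcard]
  have he0 : 0 < e := by
    rcases Nat.eq_zero_or_pos e with h | h
    · exfalso
      rw [h, pow_zero] at hcard
      have := Fintype.one_lt_card (α := F)
      omega
    · exact h
  obtain ⟨k, -, hk⟩ := (Nat.dvd_prime_pow hp).1 (Dvd.intro_left (q ^ 1) (by rw [← hqe]; ring) :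
    q ∣ p ^ e)
  have hek : e = 2 * k := by
    rw [hk, ← pow_mul] at hqe
    have := Nat.pow_right_injective hp.two_le hqe
    omega
  have h1 : (p : ZMod z) ^ e = 1 := (au_key z p e hp0).mp hdvd
  have h2 : ∀ d, 0 < d → d < e → (p : ZMod z) ^ d ≠ 1 := fun d hd hde h =>
    hmin' d hd hde ((au_key z p d hp0).mpr h)
  have hord : orderOf (p : ZMod z) = e := by
    rw [orderOf_eq_iff he0]
    exact ⟨h1, fun m hm hm0 => h2 m hm0 hm⟩
  have ha0 : (p : ZMod z) ≠ 0 := by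
    intro h0
    rw [h0, zero_pow he0.ne'] at h1
    exact zero_ne_one h1
  refine ⟨k, hk, hek, by omega, h1, ?_, h2⟩
  rw [← hord]
  exact ZMod.orderOf_dvd_card_sub_one ha0

private theorem au_c7a : ∀ a : ZMod 7, a ^ 2 = 1 → a ≠ 1 → a = 6 := by decide

private theorem au_c7b : ∀ a : ZMod 7, a ^ 6 = 1 → a ^ 2 ≠ 1 → a ^ 3 ≠ 1 → a = 3 ∨ a = 5 := by
  decide

private theorem au_c11a : ∀ a : ZMod 11, a ^ 2 = 1 → a ≠ 1 → a = 10 := by decide

private theorem au_c11b : ∀ a : ZMod 11, a ^ 10 = 1 → a ^ 2 ≠ 1 → a ^ 5 ≠ 1 →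
    a = 2 ∨ a = 6 ∨ a = 7 ∨ a = 8 := by
  decide

/-- AU7 -/
theorem AU7 (hF : Fintype.card F = q ^ 2) (p e : ℕ) (hmin : IsMinimalFieldFor 7 p e F) :
    (q = p ∧ p % 7 = 6) ∨ (q = p ^ 3 ∧ (p % 7 = 3 ∨ p % 7 = 5)) := by
  have : Fact (Nat.Prime 7) := ⟨by norm_num⟩
  obtain ⟨k, hk, hek, hk0, h1, h2, h3⟩ := au_setup 7 hF p e hmin
  have hk13 : k = 1 ∨ k = 3 := by
    have hle : e ≤ 6 := Nat.le_of_dvd (by norm_num) h2
    have hk3 : k ≤ 3 := by omega
    subst hek
    clear h1 h3 hmin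
    interval_cases k
    · left; rfl
    · exfalso; revert h2; decide
    · right; rfl
  rcases hk13 with rfl | rfl
  · left
    subst hek
    refine ⟨by rw [hk, pow_one], ?_⟩
    have hne : (p : ZMod 7) ≠ 1 := by
      have := h3 1 (by norm_num) (by norm_num)
      rwa [pow_one] at this
    exact au_mod 7 p 6 (by norm_num) (by rw [au_c7a _ h1 hne]; rfl)
  · right
    subst hek
    refine ⟨hk, ?_⟩
    rcases au_c7b _ h1 (h3 2 (by norm_num) (by norm_num)) (h3 3 (by norm_num) (by norm_num))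
      with h | h
    · exact Or.inl (au_mod 7 p 3 (by norm_num) (by rw [h]; rfl))
    · exact Or.inr (au_mod 7 p 5 (by norm_num) (by rw [h]; rfl))

/-- AU11 -/
theorem AU11 (hF : Fintype.card F = q ^ 2) (p e : ℕ) (hmin : IsMinimalFieldFor 11 p e F) :
    (q = p ∧ p % 11 = 10) ∨
      (q = p ^ 5 ∧ (p % 11 = 2 ∨ p % 11 = 6 ∨ p % 11 = 7 ∨ p % 11 = 8)) := by
  have : Fact (Nat.Prime 11) := ⟨by norm_num⟩
  obtain ⟨k, hk, hek, hk0, h1, h2, h3⟩ := au_setup 11 hF p e hmin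
  have hk15 : k = 1 ∨ k = 5 := by
    have hle : e ≤ 10 := Nat.le_of_dvd (by norm_num) h2
    have hk5 : k ≤ 5 := by omega
    subst hek
    clear h1 h3 hmin
    interval_cases k
    · left; rfl
    · exfalso; revert h2; decide
    · exfalso; revert h2; decide
    · exfalso; revert h2; decide
    · right; rfl
  rcases hk15 with rfl | rfl
  · left
    subst hek
    refine ⟨by rw [hk, pow_one], ?_⟩
    have hne : (p : ZMod 11) ≠ 1 := by
      have := h3 1 (by norm_num) (by norm_num)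
      rwa [pow_one] at this
    exact au_mod 11 p 10 (by norm_num) (by rw [au_c11a _ h1 hne]; rfl)
  · right
    subst hek
    refine ⟨hk, ?_⟩
    rcases au_c11b _ h1 (h3 2 (by norm_num) (by norm_num)) (h3 5 (by norm_num) (by norm_num))
      with h | h | h | h
    · exact Or.inl (au_mod 11 p 2 (by norm_num) (by rw [h]; rfl))
    · exact Or.inr (Or.inl (au_mod 11 p 6 (by norm_num) (by rw [h]; rfl)))
    · exact Or.inr (Or.inr (Or.inl (au_mod 11 p 7 (by norm_num) (by rw [h]; rfl))))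
    · exact Or.inr (Or.inr (Or.inr (au_mod 11 p 8 (by norm_num) (by rw [h]; rfl))))

end Cfsg.Agent.Lib.Helper63.SUPAU
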