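import Mathlib
import Cfsg.Agent.S0688
import Cfsg.Agent.Lib.Helper12.NormAbCyc2
import Cfsg.Agent.Lib.Helper63.FrobComp
set_option autoImplicit false
set_option linter.unusedSimpArgs false
open Cfsg

namespace Cfsg.Agent.Lib.Helper63.Sharp2

universe u v

/-- perfectness transfers to the image subgroup, as a group -/
theorem perfect_map {G G' : Type*} [Group G] [Group G'] (f : G →* G') (N : Subgroup G)
    (h : ⁅N, N⁆ = N) : commutator (N.map f) = ⊤ := by
  have h1 : ⁅N.map f, N.map f⁆ = N.map f := by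
    rw [← Subgroup.map_commutator, h]
  apply Subgroup.map_injective (N.map f).subtype_injective
  rw [Subgroup.map_subtype_commutator, h1, ← MonoidHom.range_eq_map, Subgroup.range_subtype]

section lin
variable {p : ℕ} [Fact p.Prime] {V : Type v} [AddCommGroup V] [Module (ZMod p) V]

/-- a linear group acts on the multiplicative copy of the module by group automorphisms -/
def psi (H : Subgroup (V ≃ₗ[ZMod p] V)) : H →* MulAut (Multiplicative V) where
  toFun h := AddEquiv.toMultiplicative ((h : V ≃ₗ[ZMod p] V).toAddEquiv)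
  map_one' := by ext x; rfl
  map_mul' a b := by ext x; rfl

theorem psi_apply (H : Subgroup (V ≃ₗ[ZMod p] V)) (h : H) (k : Multiplicative V) :
    psi H h k = Multiplicative.ofAdd ((h : V ≃ₗ[ZMod p] V) (Multiplicative.toAdd k)) := rfl

theorem psi_inj (H : Subgroup (V ≃ₗ[ZMod p] V)) : Function.Injective (psi H) := by
  intro a b hab
  apply Subtype.ext
  apply LinearEquiv.ext
  intro w
  have := congrArg (fun f : MulAut (Multiplicative V) =>
    Multiplicative.toAdd (f (Multiplicative.ofAdd w))) hab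
  exact this

theorem perfect_case [Finite V]
    (hZ : ∀ (K : Type v) [Group K] [Finite K] (Γ : Subgroup (MulAut K)),
      (∀ φ ∈ Γ, φ ≠ 1 → ∀ k : K, φ k = k → k = 1) → commutator Γ = ⊤ → Γ ≠ ⊥ →
      Nonempty (Γ ≃* Matrix.SpecialLinearGroup (Fin 2) (ZMod 5)))
    (H : Subgroup (V ≃ₗ[ZMod p] V))
    (hfpf : ∀ h : H, ∀ w : V, w ≠ 0 → (h : V ≃ₗ[ZMod p] V) w = w → h = 1)
    (N : Subgroup H) (hperf : ⁅N, N⁆ = N) (hN : N ≠ ⊥) :
    Nonempty (N ≃* Matrix.SpecialLinearGroup (Fin 2) (ZMod 5)) := by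
  have hinj := psi_inj H
  have h1 : ∀ φ ∈ N.map (psi H), φ ≠ 1 → ∀ k : Multiplicative V, φ k = k → k = 1 := by
    rintro _ ⟨n, -, rfl⟩ hn k hk
    have hn1 : n ≠ 1 := fun h => hn (by rw [h, map_one])
    by_contra hk1
    apply hn1
    apply hfpf n (Multiplicative.toAdd k)
    · intro h0
      apply hk1
      have : Multiplicative.ofAdd (Multiplicative.toAdd k) = Multiplicative.ofAdd (0 : V) :=
        congrArg Multiplicative.ofAdd h0
      exact this
    · have := congrArg Multiplicative.toAdd hk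
      exact this
  have h3 : N.map (psi H) ≠ ⊥ := by
    intro h
    exact hN ((Subgroup.map_eq_bot_iff_of_injective _ hinj).mp h)
  obtain ⟨φ'⟩ := hZ (Multiplicative V) (N.map (psi H)) h1 (perfect_map (psi H) N hperf) h3
  exact ⟨(Subgroup.equivMapOfInjective N (psi H) hinj).trans φ'⟩

end lin

section quat

variable {H : Type u} [Group H]

theorem quat_case [Finite H] (N : Subgroup H) (hN : N.Normal)
    (hinv : ∀ s t : H, s ^ 2 = 1 → t ^ 2 = 1 → s ≠ 1 → t ≠ 1 → s = t)
    (hNmin : ∀ M : Subgroup H, M.Normal → M ≤ N → (∃ x ∈ M, ∃ y ∈ M, x * y ≠ y * x) → M = N)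
    (z i j : H) (hz1 : z ≠ 1) (hz2 : z ^ 2 = 1) (hiN : i ∈ N) (hjN : j ∈ N)
    (hi2 : i ^ 2 = z) (hj2 : j ^ 2 = z) (hij : i * j = z * j * i)
    (hcz : ∀ u ∈ N, ∀ v ∈ N, u * v = v * u ∨ u * v = z * v * u) :
    Nonempty (N ≃* QuaternionGroup 2) := by
  classical
  have hzc : ∀ h : H, h * z = z * h := by
    intro h
    have h1 : (h * z * h⁻¹) ^ 2 = 1 := by rw [conj_pow, hz2]; group
    have h2 : h * z * h⁻¹ ≠ 1 := by
      intro h3
      apply hz1
      have e : z = h⁻¹ * (h * z * h⁻¹) * h := by group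
      rw [e, h3]; group
    have h3 := hinv _ z h1 hz2 h2 hz1
    exact mul_inv_eq_iff_eq_mul.mp h3
  have hsq1 : ∀ g : H, g ^ 2 = 1 → g = 1 ∨ g = z := by
    intro g hg
    by_cases h : g = 1
    · exact Or.inl h
    · exact Or.inr (hinv g z hg hz2 h hz1)
  have hnc : i * j ≠ j * i := by
    intro h
    apply hz1
    rw [hij, mul_assoc] at h
    exact mul_eq_right.mp h
  have hzz : z * z = 1 := by rw [← pow_two]; exact hz2
  have hii : i * i = z := by rw [← pow_two]; exact hi2
  have hjj : j * j = z := by rw [← pow_two]; exact hj2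
  have hji : j * i = z * (i * j) := by
    rw [hij, ← mul_assoc, ← mul_assoc, hzz, one_mul]
  have r1 : ∀ x : H, z * (z * x) = x := fun x => by rw [← mul_assoc, hzz, one_mul]
  have r2 : ∀ x : H, i * (i * x) = z * x := fun x => by rw [← mul_assoc, hii]
  have r3 : ∀ x : H, j * (j * x) = z * x := fun x => by rw [← mul_assoc, hjj]
  have r4 : ∀ x : H, j * (i * x) = z * (i * (j * x)) := fun x => by
    rw [← mul_assoc, hji, mul_assoc, mul_assoc]
  have r5 : ∀ x : H, i * (z * x) = z * (i * x) := fun x => by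
    rw [← mul_assoc, hzc i, mul_assoc]
  have r6 : ∀ x : H, j * (z * x) = z * (j * x) := fun x => by
    rw [← mul_assoc, hzc j, mul_assoc]
  have r7 : i * z = z * i := hzc i
  have r8 : j * z = z * j := hzc j
  have hk2 : (i * j) ^ 2 = z := by
    rw [pow_two]
    simp only [mul_assoc, r1, r2, r3, r4, r5, r6, r7, r8, hzz, hii, hjj, hji, mul_one]
  have hsame : ∀ u v : H, u * v = v * u → u ^ 2 = v ^ 2 → u = v ∨ u = z * v := by
    intro u v huv he
    have hc : Commute u v := huv
    have h1 : (u * v⁻¹) ^ 2 = 1 := by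
      rw [hc.inv_right.mul_pow, he, inv_pow, mul_inv_cancel]
    rcases hsq1 _ h1 with h | h
    · left
      exact mul_inv_eq_one.mp h
    · right
      rw [← h]; group
  have hE1 : ∀ u ∈ N, u ^ 2 = z →
      u = i ∨ u = z * i ∨ u = j ∨ u = z * j ∨ u = i * j ∨ u = z * (i * j) := by
    intro u hu hu2
    rcases hcz u hu i hiN with h | hui
    · rcases hsame u i h (hu2.trans hi2.symm) with h' | h'
      · exact Or.inl h'
      · exact Or.inr (Or.inl h')
    · rcases hcz u hu j hjN with h | huj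
      · rcases hsame u j h (hu2.trans hj2.symm) with h' | h'
        · exact Or.inr (Or.inr (Or.inl h'))
        · exact Or.inr (Or.inr (Or.inr (Or.inl h')))
      · have hk : u * (i * j) = i * j * u := by
          calc u * (i * j) = (u * i) * j := by group
            _ = z * i * u * j := by rw [hui]
            _ = z * i * (u * j) := by group
            _ = z * i * (z * j * u) := by rw [huj]
            _ = z * (i * z) * j * u := by group
            _ = z * (z * i) * j * u := by rw [hzc i]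
            _ = (z * z) * (i * j * u) := by group
            _ = i * j * u := by rw [← pow_two, hz2, one_mul]
        rcases hsame u (i * j) hk (hu2.trans hk2.symm) with h' | h'
        · exact Or.inr (Or.inr (Or.inr (Or.inr (Or.inl h'))))
        · exact Or.inr (Or.inr (Or.inr (Or.inr (Or.inr h'))))
  obtain ⟨Q, hQ⟩ : ∃ Q : Subgroup H, Q = Subgroup.closure {u | u ∈ N ∧ u ^ 2 = z} := ⟨_, rfl⟩
  have hQn : Q.Normal := ⟨by
    intro n hn g
    rw [hQ] at hn ⊢
    induction hn using Subgroup.closure_induction with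
    | mem x hx =>
      refine Subgroup.subset_closure ⟨hN.conj_mem x hx.1 g, ?_⟩
      rw [conj_pow, hx.2, hzc g]; group
    | one => rw [mul_one, mul_inv_cancel]; exact Subgroup.one_mem _
    | mul x y _ _ hx hy =>
      have e : g * (x * y) * g⁻¹ = (g * x * g⁻¹) * (g * y * g⁻¹) := by group
      rw [e]
      exact Subgroup.mul_mem _ hx hy
    | inv x _ hx =>
      have e : g * x⁻¹ * g⁻¹ = (g * x * g⁻¹)⁻¹ := by group
      rw [e]
      exact Subgroup.inv_mem _ hx⟩
  have hQN : Q ≤ N := by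
    rw [hQ, Subgroup.closure_le]
    intro u hu
    exact hu.1
  have hQeq : Q = N := by
    apply hNmin Q hQn hQN
    refine ⟨i, ?_, j, ?_, hnc⟩
    · rw [hQ]; exact Subgroup.subset_closure ⟨hiN, hi2⟩
    · rw [hQ]; exact Subgroup.subset_closure ⟨hjN, hj2⟩
  -- the eight elements
  obtain ⟨P, hP⟩ : ∃ P : H → Prop, P = fun g => g = 1 ∨ g = i ∨ g = j ∨ g = i * j ∨ g = z ∨
      g = z * i ∨ g = z * j ∨ g = z * (i * j) := ⟨_, rfl⟩
  have Pz : ∀ y, P y → P (z * y) := by
    intro y hy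
    rw [hP] at hy ⊢
    rcases hy with rfl | rfl | rfl | rfl | rfl | rfl | rfl | rfl <;>
      simp only [mul_assoc, r1, r2, r3, r4, r5, r6, r7, r8, hzz, hii, hjj, hji, mul_one] <;>
      simp
  have Pi : ∀ y, P y → P (i * y) := by
    intro y hy
    rw [hP] at hy ⊢
    rcases hy with rfl | rfl | rfl | rfl | rfl | rfl | rfl | rfl <;>
      simp only [mul_assoc, r1, r2, r3, r4, r5, r6, r7, r8, hzz, hii, hjj, hji, mul_one] <;>
      simp
  have Pj : ∀ y, P y → P (j * y) := by
    intro y hy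
    rw [hP] at hy ⊢
    rcases hy with rfl | rfl | rfl | rfl | rfl | rfl | rfl | rfl <;>
      simp only [mul_assoc, r1, r2, r3, r4, r5, r6, r7, r8, hzz, hii, hjj, hji, mul_one] <;>
      simp
  have P1 : P 1 := by rw [hP]; exact Or.inl rfl
  have hNP : ∀ g ∈ N, P g := by
    intro g hg
    rw [← hQeq, hQ] at hg
    induction hg using Subgroup.closure_induction_left with
    | one => exact P1
    | mul_left x hx y _ hy =>
      rcases hE1 x hx.1 hx.2 with rfl | rfl | rfl | rfl | rfl | rfl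
      · exact Pi y hy
      · rw [mul_assoc]; exact Pz _ (Pi y hy)
      · exact Pj y hy
      · rw [mul_assoc]; exact Pz _ (Pj y hy)
      · rw [mul_assoc]; exact Pi _ (Pj y hy)
      · rw [mul_assoc, mul_assoc]; exact Pz _ (Pi _ (Pj y hy))
    | inv_mul_cancel x hx y _ hy =>
      have hxinv : x⁻¹ = z * x := by
        apply inv_eq_of_mul_eq_one_right
        rw [← mul_assoc, hzc x, mul_assoc, ← pow_two, hx.2, hzz]
      rw [hxinv, mul_assoc]
      apply Pz
      rcases hE1 x hx.1 hx.2 with rfl | rfl | rfl | rfl | rfl | rfl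
      · exact Pi y hy
      · rw [mul_assoc]; exact Pz _ (Pi y hy)
      · exact Pj y hy
      · rw [mul_assoc]; exact Pz _ (Pj y hy)
      · rw [mul_assoc]; exact Pi _ (Pj y hy)
      · rw [mul_assoc, mul_assoc]; exact Pz _ (Pi _ (Pj y hy))
  have hcard_le : Nat.card N ≤ 8 := by
    have hsub : (N : Set H) ⊆ (([1, i, j, i * j, z, z * i, z * j, z * (i * j)].toFinset : Finset H) : Set H) := by
      intro g hg
      have := hNP g hg
      rw [hP] at this
      simp only [List.coe_toFinset, List.mem_cons, List.not_mem_nil, or_false, Set.mem_setOf_eq]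
      exact this
    calc Nat.card N = (N : Set H).ncard := by rw [← Nat.card_coe_set_eq]; rfl
      _ ≤ (([1, i, j, i * j, z, z * i, z * j, z * (i * j)].toFinset : Finset H) : Set H).ncard :=
          Set.ncard_le_ncard hsub (Finset.finite_toSet _)
      _ = ([1, i, j, i * j, z, z * i, z * j, z * (i * j)].toFinset : Finset H).card :=
          Set.ncard_coe_finset _
      _ ≤ 8 := List.toFinset_card_le _
  have ho : orderOf (⟨i, hiN⟩ : N) = 4 := by
    have := Fact.mk Nat.prime_two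
    rw [Subgroup.orderOf_mk]
    have h1 : ¬ i ^ 2 ^ 1 = 1 := by rw [pow_one, hi2]; exact hz1
    have h2 : i ^ 2 ^ (1 + 1) = 1 := by
      rw [show (2 : ℕ) ^ (1 + 1) = 2 * 2 by norm_num, pow_mul, hi2, hz2]
    exact orderOf_eq_prime_pow h1 h2
  have hdvd : 4 ∣ Nat.card N := ho ▸ orderOf_dvd_natCard _
  have hne4 : Nat.card N ≠ 4 := by
    intro h4
    have htop : Subgroup.zpowers (⟨i, hiN⟩ : N) = ⊤ := by
      apply Subgroup.eq_top_of_card_eq
      rw [Nat.card_zpowers, ho, h4]
    have hj : (⟨j, hjN⟩ : N) ∈ Subgroup.zpowers (⟨i, hiN⟩ : N) := by rw [htop]; trivial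
    obtain ⟨k, hk⟩ := Subgroup.mem_zpowers_iff.mp hj
    have hk' : i ^ k = j := by
      have := congrArg Subtype.val hk
      simpa using this
    apply hnc
    rw [← hk']
    exact ((Commute.refl i).zpow_right k).eq
  have hpos : 0 < Nat.card N := Nat.card_pos
  have hcard : Nat.card N = 4 * 2 := by omega
  refine Cfsg.Agent.Lib.Helper12.nonempty_mulEquiv_quaternion (m := 2) (by norm_num)
    (⟨i, hiN⟩ : N) (⟨j, hjN⟩ : N) hcard ho ?_ ?_
  · apply Subtype.ext
    show j ^ 2 = i ^ 2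
    rw [hi2, hj2]
  · apply Subtype.ext
    show j * i * j⁻¹ = i⁻¹
    have hiinv : i⁻¹ = z * i := by
      apply inv_eq_of_mul_eq_one_right
      rw [r5, hii, hzz]
    rw [hiinv, hji]
    group

end quat


section main86

variable {p : ℕ} [Fact p.Prime] {V : Type v} [AddCommGroup V] [Module (ZMod p) V] [Finite V]

theorem fpf_of_reg (H : Subgroup (V ≃ₗ[ZMod p] V))
    (hreg : ∀ v w : V, v ≠ 0 → w ≠ 0 → ∃! h : H, (h : V ≃ₗ[ZMod p] V) v = w) :
    ∀ h : H, ∀ v : V, v ≠ 0 → (h : V ≃ₗ[ZMod p] V) v = v → h = 1 := by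
  intro h v hv hhv
  obtain ⟨h0, -, huniq⟩ := hreg v v hv hv
  rw [huniq h hhv, huniq 1 rfl]

theorem neg_of_reg (H : Subgroup (V ≃ₗ[ZMod p] V))
    (hfpf : ∀ h : H, ∀ v : V, v ≠ 0 → (h : V ≃ₗ[ZMod p] V) v = v → h = 1) :
    ∀ h : H, h ^ 2 = 1 → h ≠ 1 → ∀ v : V, (h : V ≃ₗ[ZMod p] V) v = -v := by
  intro h h2 h1 v
  by_contra hne
  apply h1
  have hw : (h : V ≃ₗ[ZMod p] V) v + v ≠ 0 :=
    fun h0 => hne (eq_neg_of_add_eq_zero_left h0)
  apply hfpf h _ hw
  have e : h * h = 1 := by rw [← pow_two]; exact h2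
  have e2 : (h : V ≃ₗ[ZMod p] V) ((h : V ≃ₗ[ZMod p] V) v) = v :=
    congrArg (fun g : H => (g : V ≃ₗ[ZMod p] V) v) e
  rw [map_add, e2, add_comm]

theorem inv_of_reg (H : Subgroup (V ≃ₗ[ZMod p] V))
    (hfpf : ∀ h : H, ∀ v : V, v ≠ 0 → (h : V ≃ₗ[ZMod p] V) v = v → h = 1) :
    ∀ s t : H, s ^ 2 = 1 → t ^ 2 = 1 → s ≠ 1 → t ≠ 1 → s = t := by
  intro s t hs ht hs1 ht1
  apply Subtype.ext
  apply LinearEquiv.ext
  intro v
  rw [neg_of_reg H hfpf s hs hs1 v, neg_of_reg H hfpf t ht ht1 v]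

theorem ab_of_reg (H : Subgroup (V ≃ₗ[ZMod p] V))
    (hfpf : ∀ h : H, ∀ v : V, v ≠ 0 → (h : V ≃ₗ[ZMod p] V) v = v → h = 1)
    (htop : (⊤ : Submodule (ZMod p) V) ≠ ⊥) :
    ∀ B : Subgroup H, (∀ a ∈ B, ∀ b ∈ B, a * b = b * a) → IsCyclic B := by
  intro B hB
  have hBc : IsMulCommutative B := ⟨⟨fun a b => Subtype.ext (hB a a.2 b b.2)⟩⟩
  obtain ⟨W₁, -, hW₁0, hW₁inv, hW₁min⟩ := S0684.exists_min
    (fun W => ∀ a ∈ B, ∀ v ∈ W, ((a : H) : V ≃ₗ[ZMod p] V) v ∈ W) ⊤ htop
    (fun _ _ _ _ => Submodule.mem_top)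
  exact (S0684.main H hfpf B hBc W₁ hW₁0 hW₁inv hW₁min).1

theorem s0686_main
    (hZ : ∀ (K : Type v) [Group K] [Finite K] (Γ : Subgroup (MulAut K)),
      (∀ φ ∈ Γ, φ ≠ 1 → ∀ k : K, φ k = k → k = 1) → commutator Γ = ⊤ → Γ ≠ ⊥ →
      Nonempty (Γ ≃* Matrix.SpecialLinearGroup (Fin 2) (ZMod 5)))
    (H : Subgroup (V ≃ₗ[ZMod p] V)) (hreg : ∀ v w : V, v ≠ 0 → w ≠ 0 → ∃! h : H, (h : V ≃ₗ[ZMod p] V) v = w) (hI : ∀ A : Subgroup H, A.Normal → IsCyclic A → ∃ W : Submodule (ZMod p) V, W ≠ ⊥ ∧ W ≠ ⊤ ∧ ∀ a ∈ A, ∀ v ∈ W, ((a : H) : V ≃ₗ[ZMod p] V) v ∈ W) (A : Subgroup H) (hAn : A.Normal) (hAc : IsMulCommutative A) (hAmax : ∀ B : Subgroup H, B.Normal → IsMulCommutative B → A ≤ B → B = A) (N : Subgroup H) (hNn : N.Normal) (hNle : N ≤ Subgroup.centralizer (A : Set H)) (hNna : ¬ IsMulCommutative N) (hNmin : ∀ M : Subgroup H, M.Normal → M ≤ N → ¬ IsMulCommutative M → M = N) : Nonempty (N ≃* QuaternionGroup 2) ∨ Nonempty (N ≃* Matrix.SpecialLinearGroup (Fin 2) (ZMod 5)) := by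
  have hp := (Fact.out : p.Prime)
  have hfpf := fpf_of_reg H hreg
  have hfinGL : Finite (V ≃ₗ[ZMod p] V) := DFunLike.finite (V ≃ₗ[ZMod p] V)
  obtain ⟨W₀, hW₀bot, -, -⟩ := hI ⊥ inferInstance inferInstance
  have htop : (⊤ : Submodule (ZMod p) V) ≠ ⊥ := by
    intro h
    apply hW₀bot
    rw [eq_bot_iff, ← h]
    exact le_top
  have hab := ab_of_reg H hfpf htop
  have hinv := inv_of_reg H hfpf
  have hAab : ∀ a ∈ A, ∀ b ∈ A, a * b = b * a :=
    fun a ha b hb => congrArg Subtype.val (hAc.is_comm.comm ⟨a, ha⟩ ⟨b, hb⟩)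
  have hAmax' : ∀ B : Subgroup H, B.Normal → (∀ a ∈ B, ∀ b ∈ B, a * b = b * a) → A ≤ B →
      B = A := by
    intro B hBn hBab hAB
    exact hAmax B hBn ⟨⟨fun a b => Subtype.ext (hBab a a.2 b b.2)⟩⟩ hAB
  have hNA : ∀ n ∈ N, ∀ a ∈ A, n * a = a * n := by
    intro n hn a ha
    exact ((Subgroup.mem_centralizer_iff.mp (hNle hn)) a ha).symm
  have hNna' : ∃ x ∈ N, ∃ y ∈ N, x * y ≠ y * x := by
    by_contra hcon
    push Not at hcon
    exact hNna ⟨⟨fun a b => Subtype.ext (hcon a a.2 b b.2)⟩⟩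
  have hNmin' : ∀ M : Subgroup H, M.Normal → M ≤ N → (∃ x ∈ M, ∃ y ∈ M, x * y ≠ y * x) →
      M = N := by
    rintro M hMn hMN ⟨x, hx, y, hy, hxy⟩
    apply hNmin M hMn hMN
    intro hMc
    exact hxy (congrArg Subtype.val (hMc.is_comm.comm ⟨x, hx⟩ ⟨y, hy⟩))
  have hprop : ∀ M : Subgroup H, M.Normal → M ≤ N → M ≠ N → M ≤ A :=
    fun M hM hMN hne => S0688.le_A_of_proper A N hAn hAab hAmax' hNA hNmin' M hM hMN hne
  by_cases hperf : ⁅N, N⁆ = N
  · right
    apply perfect_case hZ H hfpf N hperf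
    intro hbot
    obtain ⟨x, hx, y, hy, hxy⟩ := hNna'
    rw [hbot, Subgroup.mem_bot] at hx hy
    rw [hx, hy] at hxy
    exact hxy rfl
  · left
    have hle : ⁅N, N⁆ ≤ N := Subgroup.commutator_le_right N N
    have hA := hprop ⁅N, N⁆ inferInstance hle hperf
    have hcomm : ∀ x ∈ N, ∀ y ∈ N, x * y * x⁻¹ * y⁻¹ ∈ A := by
      intro x hx y hy
      have hc := Subgroup.commutator_mem_commutator hx hy
      rw [commutatorElement_def] at hc
      exact hA hc
    obtain ⟨r, hrp, hr⟩ := S0688.exists_exp A N hAn hNn hNA hcomm hprop hNna'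
    have hr2 := S0688.exp_two A N hab hAab hNA hcomm hNna' r hrp hr
    subst hr2
    have hc2 := S0688.comm_pow A N hNA hcomm 2 hr
    obtain ⟨z, i, j, hz1, hz2, hzA, hiN, hjN, hi2, hj2, hij, hcz⟩ :=
      S0688.quat_pair A N hab hinv hAab hNA hcomm hNna' hr hc2
    exact quat_case N hNn hinv hNmin' z i j hz1 hz2 hiN hjN hi2 hj2 hij hcz

end main86


section arith

theorem enum89a (Q a c : ℕ) (h1 : (Q + 1) * c = 60) (h2 : a * c + 1 = Q)
    (ha2 : 2 ∣ a) (ha4 : ¬ 4 ∣ a) (ha3 : ¬ 3 ∣ a) (ha5 : ¬ 5 ∣ a) (hQ7 : 7 ≤ Q) :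
    Q = 11 ∧ a = 2 ∨ Q = 29 ∧ a = 14 ∨ Q = 59 ∧ a = 58 := by
  have hc : c ≤ 7 := by
    by_contra hcon
    have h16 : 8 ≤ c := by omega
    have : 8 * 8 ≤ (Q + 1) * c := Nat.mul_le_mul (by omega) h16
    omega
  have hc0 : 1 ≤ c := by
    by_contra hcon
    have : c = 0 := by omega
    subst this
    omega
  interval_cases c
  · have hQ : Q = 59 := by omega
    subst hQ
    right; right
    exact ⟨rfl, by omega⟩
  · have hQ : Q = 29 := by omega
    subst hQ
    right; left
    exact ⟨rfl, by omega⟩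
  · have hQ : Q = 19 := by omega
    subst hQ
    exfalso; omega
  · have hQ : Q = 14 := by omega
    subst hQ
    exfalso; omega
  · have hQ : Q = 11 := by omega
    subst hQ
    left
    exact ⟨rfl, by omega⟩
  · have hQ : Q = 9 := by omega
    subst hQ
    exfalso; omega
  · exfalso; omega

theorem enum89b (Q a c : ℕ) (h1 : (Q + 1) * c = 120) (h2 : a * c + 1 = Q)
    (ha2 : 2 ∣ a) (ha4 : ¬ 4 ∣ a) (ha3 : ¬ 3 ∣ a) (ha5 : ¬ 5 ∣ a) (hQ7 : 7 ≤ Q) :
    Q = 119 ∧ a = 118 := by
  have hc : c ≤ 15 := by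
    by_contra hcon
    have h16 : 16 ≤ c := by omega
    have : 8 * 16 ≤ (Q + 1) * c := Nat.mul_le_mul (by omega) h16
    omega
  have hc0 : 1 ≤ c := by
    by_contra hcon
    have : c = 0 := by omega
    subst this
    omega
  interval_cases c
  · have hQ : Q = 119 := by omega
    subst hQ
    exact ⟨rfl, by omega⟩
  · have hQ : Q = 59 := by omega
    subst hQ
    exfalso; omega
  · have hQ : Q = 39 := by omega
    subst hQ
    exfalso; omega
  · have hQ : Q = 29 := by omega
    subst hQ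
    exfalso; omega
  · have hQ : Q = 23 := by omega
    subst hQ
    exfalso; omega
  · have hQ : Q = 19 := by omega
    subst hQ
    exfalso; omega
  · exfalso; omega
  · have hQ : Q = 14 := by omega
    subst hQ
    exfalso; omega
  · exfalso; omega
  · have hQ : Q = 11 := by omega
    subst hQ
    exfalso; omega
  · exfalso; omega
  · have hQ : Q = 9 := by omega
    subst hQ
    exfalso; omega
  · exfalso; omega
  · exfalso; omega
  · have hQ : Q = 7 := by omega
    subst hQ
    exfalso; omega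

theorem arith89 (p n k a ι : ℕ) (hp : p.Prime) (hk1 : 1 ≤ k) (hkn : k < n)
    (hH : ι * a + 1 = p ^ n) (hι : ι = 60 ∨ ι = 120) (ha : a ∣ p ^ k - 1)
    (ha2 : 2 ∣ a) (ha4 : ¬ 4 ∣ a) (ha3 : ¬ 3 ∣ a) (ha5 : ¬ 5 ∣ a) :
    ι = 60 ∧ ((p ^ n = 121 ∧ a = 2) ∨ (p ^ n = 841 ∧ a = 14) ∨ (p ^ n = 3481 ∧ a = 58)) := by
  have ha0 : 0 < a := by
    rcases Nat.eq_zero_or_pos a with h | h
    · subst h; omega
    · exact h
  have hp7 : 7 ≤ p := by
    have hpn : p ∣ p ^ n := dvd_pow_self p (by omega)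
    rw [← hH] at hpn
    by_contra hlt
    have hp2 := hp.two_le
    interval_cases p
    · rcases hι with rfl | rfl <;> omega
    · rcases hι with rfl | rfl <;> omega
    · exact absurd hp (by norm_num)
    · rcases hι with rfl | rfl <;> omega
    · exact absurd hp (by norm_num)
  obtain ⟨g, hg⟩ : ∃ g, g = Nat.gcd n k := ⟨_, rfl⟩
  have hgn : g ∣ n := hg ▸ Nat.gcd_dvd_left n k
  have hgk : g ∣ k := hg ▸ Nat.gcd_dvd_right n k
  have hg1 : 1 ≤ g := hg ▸ Nat.gcd_pos_of_pos_right n (by omega)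
  have hgle : g ≤ k := Nat.le_of_dvd (by omega) hgk
  obtain ⟨r, hr⟩ := hgn
  have hr2 : 2 ≤ r := by
    by_contra hcon
    have hr1 : r = 0 ∨ r = 1 := by omega
    rcases hr1 with rfl | rfl
    · omega
    · omega
  obtain ⟨Q, hQ⟩ : ∃ Q, Q = p ^ g := ⟨_, rfl⟩
  have hQn : p ^ n = Q ^ r := by rw [hr, pow_mul, hQ]
  have hQ7 : 7 ≤ Q := by
    rw [hQ]
    exact le_trans hp7 (Nat.le_self_pow (by omega) p)
  have haQ : a ∣ Q - 1 := by
    have h1 : a ∣ p ^ n - 1 := Dvd.intro_left ι (by omega)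
    have h2 := Nat.dvd_gcd h1 ha
    rw [Nat.pow_sub_one_gcd_pow_sub_one, ← hg, ← hQ] at h2
    exact h2
  obtain ⟨c, hc⟩ := haQ
  have hc' : a * c + 1 = Q := by omega
  have hr_eq : r = 2 := by
    by_contra hne
    have hr3 : 3 ≤ r := by omega
    have h3 : Q ^ 3 ≤ Q ^ r := Nat.pow_le_pow_right (by omega) hr3
    have h4 : Q ^ r ≤ 120 * (Q - 1) + 1 := by
      have hle : a ≤ Q - 1 := Nat.le_of_dvd (by omega) ⟨c, hc⟩
      rw [← hQn, ← hH]
      rcases hι with rfl | rfl <;> omega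
    have h5 : Q ≤ 10 := by
      by_contra hcon
      have h11 : 11 ≤ Q := by omega
      have h121 : 121 ≤ Q * Q := Nat.mul_le_mul h11 h11
      have : 121 * Q ≤ Q ^ 3 := by
        calc 121 * Q ≤ Q * Q * Q := Nat.mul_le_mul_right Q h121
          _ = Q ^ 3 := by ring
      omega
    have hg_eq : g = 1 := by
      by_contra hne1
      have hg2 : 2 ≤ g := by omega
      have h6 : p ^ 2 ≤ p ^ g := Nat.pow_le_pow_right (by omega) hg2
      have h7 : 49 ≤ p ^ 2 := by nlinarith
      rw [← hQ] at h6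
      omega
    have hQp : Q = p := by rw [hQ, hg_eq, pow_one]
    have hp_eq : p = 7 := by
      have h10 : p ≤ 10 := hQp ▸ h5
      interval_cases p
      · rfl
      · exact absurd hp (by norm_num)
      · exact absurd hp (by norm_num)
      · exact absurd hp (by norm_num)
    have hQ7' : Q = 7 := by rw [hQp, hp_eq]
    rw [hQ7'] at h4 hQn
    have hr_le : r ≤ 3 := by
      by_contra hcon
      have : 7 ^ 4 ≤ 7 ^ r := Nat.pow_le_pow_right (by norm_num) (by omega)
      omega
    have hr3' : r = 3 := by omega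
    rw [hr3'] at hQn
    rw [hQn] at hH
    rcases hι with rfl | rfl <;> omega
  subst hr_eq
  have h6 : (Q + 1) * c = ι := by
    have h7 : ι * a + 1 = Q ^ 2 := by rw [hH, hQn]
    have h9 : ι * a = (Q + 1) * c * a := by
      have h10 : Q ^ 2 = (Q + 1) * (a * c) + 1 := by
        rw [← hc']; ring
      nlinarith
    exact (Nat.eq_of_mul_eq_mul_right ha0 h9).symm
  have hmain : (ι = 60 ∧ (Q = 11 ∧ a = 2 ∨ Q = 29 ∧ a = 14 ∨ Q = 59 ∧ a = 58)) ∨
      (ι = 120 ∧ Q = 119 ∧ a = 118) := by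
    rcases hι with h | h
    · left
      rw [h] at h6
      exact ⟨h, enum89a Q a c h6 hc' ha2 ha4 ha3 ha5 hQ7⟩
    · right
      rw [h] at h6
      exact ⟨h, enum89b Q a c h6 hc' ha2 ha4 ha3 ha5 hQ7⟩
  rcases hmain with ⟨h60, hcases⟩ | ⟨h120, hQ119, ha118⟩
  · refine ⟨h60, ?_⟩
    rw [hQn]
    rcases hcases with ⟨hQv, hav⟩ | ⟨hQv, hav⟩ | ⟨hQv, hav⟩
    · left; rw [hQv, hav]; exact ⟨by norm_num, rfl⟩
    · right; left; rw [hQv, hav]; exact ⟨by norm_num, rfl⟩
    · right; right; rw [hQv, hav]; exact ⟨by norm_num, rfl⟩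
  · exfalso
    rw [hQ119] at hQ
    have hpd : p ∣ 7 * 17 := by
      have : p ∣ p ^ g := dvd_pow_self p (by omega)
      rw [← hQ] at this
      exact this
    rcases (Nat.Prime.dvd_mul hp).mp hpd with h | h
    · have hp7' : p = 7 := (Nat.prime_dvd_prime_iff_eq hp (by norm_num)).mp h
      subst hp7'
      have hg3 : g < 3 := by
        by_contra hcon
        have : 7 ^ 3 ≤ 7 ^ g := Nat.pow_le_pow_right (by norm_num) (by omega)
        omega
      interval_cases g <;> omega
    · have hp17 : p = 17 := (Nat.prime_dvd_prime_iff_eq hp (by norm_num)).mp h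
      subst hp17
      have hg2 : g < 2 := by
        by_contra hcon
        have : 17 ^ 2 ≤ 17 ^ g := Nat.pow_le_pow_right (by norm_num) (by omega)
        omega
      interval_cases g <;> omega


end arith

section cf

open Cfsg.Agent.S3378 (SL25 gx gy gz)
open Cfsg.Agent.Lib.Helper63.FrobComp

theorem core_full {G : Type*} [Group G] [Finite G]
    (hab : ∀ A : Subgroup G, IsMulCommutative A → IsCyclic A)
    (hinv : ∀ s t : G, orderOf s = 2 → orderOf t = 2 → s = t)
    (S : Subgroup G) [hSn : S.Normal] (φ : S ≃* SL25) :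
    ∃ M : Subgroup G, M ≤ Subgroup.centralizer (S : Set G) ∧ S ⊓ M = ⊥ ∧
      2 * Nat.card M = Nat.card (Subgroup.centralizer (S : Set G)) ∧
      ((Subgroup.centralizer (S : Set G)).index = 60 ∨
        (Subgroup.centralizer (S : Set G)).index = 120) ∧
      ¬ 3 ∣ Nat.card (Subgroup.centralizer (S : Set G)) ∧
      ¬ 5 ∣ Nat.card (Subgroup.centralizer (S : Set G)) ∧
      ¬ 4 ∣ Nat.card (Subgroup.centralizer (S : Set G)) := by
  classical
  obtain ⟨x, hx⟩ : ∃ x : S, x = φ.symm gx := ⟨_, rfl⟩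
  obtain ⟨y, hy⟩ : ∃ y : S, y = φ.symm gy := ⟨_, rfl⟩
  obtain ⟨z, hz⟩ : ∃ z : S, z = φ.symm gz := ⟨_, rfl⟩
  obtain ⟨w, hw⟩ : ∃ w : S, w = φ.symm gw := ⟨_, rfl⟩
  have hφx : φ x = gx := by rw [hx]; simp
  have hφy : φ y = gy := by rw [hy]; simp
  have hφz : φ z = gz := by rw [hz]; simp
  have hφw : φ w = gw := by rw [hw]; simp
  have hx3 : x ^ 3 = 1 := by apply φ.injective; rw [map_pow, hφx, gx3, map_one]
  have hx1 : x ≠ 1 := by intro h; rw [h, map_one] at hφx; exact gx1 hφx.symm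
  have hy5 : y ^ 5 = 1 := by apply φ.injective; rw [map_pow, hφy, gy5, map_one]
  have hy1 : y ≠ 1 := by intro h; rw [h, map_one] at hφy; exact gy1 hφy.symm
  have hxy : (x * y) ^ 2 = z := by
    apply φ.injective; rw [map_pow, map_mul, hφx, hφy, gxy, hφz]
  have hz1 : z ≠ 1 := by intro h; rw [h, map_one] at hφz; exact gz1 hφz.symm
  have hz2 : z ^ 2 = 1 := by apply φ.injective; rw [map_pow, hφz, gz2, map_one]
  have hw2 : ¬ w ^ 2 ^ 1 = 1 := by
    intro h
    have := congrArg φ h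
    rw [map_pow, hφw, map_one, pow_one] at this
    exact gw2 this
  have hw4 : w ^ 2 ^ (1 + 1) = 1 := by
    apply φ.injective; rw [map_pow, hφw, map_one]; exact gw4
  have oz : orderOf (z : G) = 2 := by
    rw [Subgroup.orderOf_coe]; exact orderOf_eq_prime hz2 hz1
  have ox : orderOf (x : G) = 3 := by
    rw [Subgroup.orderOf_coe]
    haveI : Fact (Nat.Prime 3) := ⟨by norm_num⟩
    exact orderOf_eq_prime hx3 hx1
  have oy : orderOf (y : G) = 5 := by
    rw [Subgroup.orderOf_coe]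
    haveI : Fact (Nat.Prime 5) := ⟨by norm_num⟩
    exact orderOf_eq_prime hy5 hy1
  have ow : orderOf (w : G) = 4 := by
    rw [Subgroup.orderOf_coe]
    have := orderOf_eq_prime_pow (p := 2) (n := 1) hw2 hw4
    simpa using this
  have hzc : ∀ g : G, g * z * g⁻¹ = z := by
    intro g
    apply hinv _ _ _ oz
    have : g * z * g⁻¹ = MulAut.conj g (z : G) := by simp
    rw [this, MulEquiv.orderOf_eq]
    exact oz
  let C : Subgroup G := Subgroup.centralizer (S : Set G)
  have hCn : C.Normal := Subgroup.normal_centralizer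
  have hzC : (z : G) ∈ C := by
    rw [Subgroup.mem_centralizer_iff]
    intro h _
    have := hzc h
    calc h * z = (h * z * h⁻¹) * h := by group
      _ = z * h := by rw [this]
  have hgenS : Subgroup.closure ({(x : G), (y : G)} : Set G) = S := by
    have h1 : Subgroup.closure ({x, y} : Set S) = ⊤ := by
      have h0 := congrArg (Subgroup.map φ.symm.toMonoidHom) gen
      rw [MonoidHom.map_closure, Set.image_pair] at h0
      rw [Subgroup.map_top_of_surjective _ φ.symm.surjective] at h0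
      simpa [hx, hy] using h0
    have h2 := congrArg (Subgroup.map S.subtype) h1
    rw [MonoidHom.map_closure, Set.image_pair, ← MonoidHom.range_eq_map, Subgroup.range_subtype] at h2
    exact h2
  have key2 : ∀ a : G, a * x = x * a → a * y = y * a → a ∈ C := by
    intro a hax hay
    have hle : S ≤ Subgroup.centralizer {a} := by
      rw [← hgenS, Subgroup.closure_le]
      intro t ht
      simp only [Set.mem_insert_iff, Set.mem_singleton_iff] at ht
      rw [SetLike.mem_coe, Subgroup.mem_centralizer_iff]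
      intro b hb
      rw [Set.mem_singleton_iff] at hb
      subst hb
      rcases ht with rfl | rfl
      · exact hax
      · exact hay
    rw [Subgroup.mem_centralizer_iff]
    intro s hs
    have := hle hs
    rw [Subgroup.mem_centralizer_iff] at this
    exact (this a rfl).symm
  have hSC : ∀ g : G, g ∈ S → g ∈ C → g = 1 ∨ g = (z : G) := by
    intro g hgS hgC
    rw [Subgroup.mem_centralizer_iff] at hgC
    have h1 := hgC x x.2
    have h2 := hgC y y.2
    have h1' : (⟨g, hgS⟩ : S) * x = x * ⟨g, hgS⟩ := Subtype.ext h1.symm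
    have h2' : (⟨g, hgS⟩ : S) * y = y * ⟨g, hgS⟩ := Subtype.ext h2.symm
    have e1 := congrArg φ h1'
    have e2 := congrArg φ h2'
    rw [map_mul, map_mul, hφx] at e1
    rw [map_mul, map_mul, hφy] at e2
    rcases lemC _ e1 e2 with h | h
    · left
      have : (⟨g, hgS⟩ : S) = 1 := φ.injective (by rw [h, map_one])
      exact congrArg Subtype.val this
    · right
      have : (⟨g, hgS⟩ : S) = z := φ.injective (by rw [h, hφz])
      exact congrArg Subtype.val this
  let Cx : Subgroup G := Subgroup.centralizer {(x : G)}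
  have hCCx : C ≤ Cx := Subgroup.centralizer_le (by simp)
  have st1 : Cx.index ≤ 20 := by
    refine (index_le_of_inj Cx
      (fun g => ent (φ ⟨g * x * g⁻¹, hSn.conj_mem _ x.2 g⟩)) T20 ?_ ?_).trans T20_card
    · intro g
      apply lemA
      · rw [← map_pow]
        have : (⟨g * x * g⁻¹, hSn.conj_mem _ x.2 g⟩ : S) ^ 3 = 1 := by
          apply Subtype.ext
          rw [Subgroup.coe_pow, Subgroup.coe_one, conj_pow, ← Subgroup.coe_pow, hx3]
          simp
        rw [this, map_one]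
      · intro h
        have h1 : (⟨g * x * g⁻¹, hSn.conj_mem _ x.2 g⟩ : S) = 1 :=
          φ.injective (by rw [h, map_one])
        have h2 : g * x * g⁻¹ = 1 := congrArg Subtype.val h1
        apply hx1
        apply Subtype.ext
        have : (x : G) = g⁻¹ * (g * x * g⁻¹) * g := by group
        rw [this, h2]
        simp
    · intro g g' h
      have h1 := φ.injective (ent_inj h)
      have h2 : g * x * g⁻¹ = g' * x * g'⁻¹ := congrArg Subtype.val h1
      rw [Subgroup.mem_centralizer_iff]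
      intro b hb
      rw [Set.mem_singleton_iff] at hb
      subst hb
      calc (x : G) * (g⁻¹ * g') = g⁻¹ * (g * x * g⁻¹) * g' := by group
        _ = g⁻¹ * (g' * x * g'⁻¹) * g' := by rw [h2]
        _ = g⁻¹ * g' * x := by group
  have st2 : (C.subgroupOf Cx).index ≤ 6 := by
    have hmemS : ∀ a : Cx, (a : G) * y * (a : G)⁻¹ ∈ S := fun a => hSn.conj_mem _ y.2 _
    have hcomm : ∀ a : Cx, (a : G) * x = x * a := by
      intro a
      have := a.2
      rw [Subgroup.mem_centralizer_iff] at this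
      exact (this x rfl).symm
    refine (index_le_of_inj (C.subgroupOf Cx)
      (fun a : Cx => ent (φ ⟨(a : G) * y * (a : G)⁻¹, hmemS a⟩)) T6 ?_ ?_).trans T6_card
    · intro a
      apply lemB
      · rw [← map_pow]
        have : (⟨(a : G) * y * (a : G)⁻¹, hmemS a⟩ : S) ^ 5 = 1 := by
          apply Subtype.ext
          rw [Subgroup.coe_pow, Subgroup.coe_one, conj_pow, ← Subgroup.coe_pow, hy5]
          simp
        rw [this, map_one]
      · rw [← hφx, ← map_mul, ← map_pow, ← hφz]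
        congr 1
        apply Subtype.ext
        rw [Subgroup.coe_pow, Subgroup.coe_mul]
        show ((x : G) * ((a : G) * y * (a : G)⁻¹)) ^ 2 = z
        have e1 : (x : G) * ((a : G) * y * (a : G)⁻¹) = (a : G) * (x * y) * (a : G)⁻¹ := by
          calc (x : G) * ((a : G) * y * (a : G)⁻¹) = ((x : G) * a) * y * (a : G)⁻¹ := by group
            _ = ((a : G) * x) * y * (a : G)⁻¹ := by rw [hcomm a]
            _ = _ := by group
        rw [e1, conj_pow]
        have hxy' : ((x : G) * y) ^ 2 = z := by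
          have := congrArg Subtype.val hxy
          simpa using this
        rw [hxy']
        exact hzc a
    · intro a a' h
      have h1 := φ.injective (ent_inj h)
      have h2 : (a : G) * y * (a : G)⁻¹ = (a' : G) * y * (a' : G)⁻¹ := congrArg Subtype.val h1
      rw [Subgroup.mem_subgroupOf]
      apply key2
      · exact hcomm (a⁻¹ * a')
      · rw [Subgroup.coe_mul, Subgroup.coe_inv]
        calc (a : G)⁻¹ * a' * y = (a : G)⁻¹ * ((a' : G) * y * (a' : G)⁻¹) * a' := by group
          _ = (a : G)⁻¹ * ((a : G) * y * (a : G)⁻¹) * a' := by rw [h2]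
          _ = y * ((a : G)⁻¹ * a') := by group
  have hidxC : C.index ≤ 120 := by
    have h := Subgroup.relIndex_mul_index hCCx
    rw [← h]
    have h6 : C.relIndex Cx ≤ 6 := st2
    calc C.relIndex Cx * Cx.index ≤ 6 * 20 := Nat.mul_le_mul h6 st1
      _ = 120 := rfl
  have hcardS : Nat.card S = 120 := by rw [Nat.card_congr φ.toEquiv]; exact card_SL25
  have hcardZ : Nat.card (C.subgroupOf S) ≤ 2 := by
    have hsub : ((C.subgroupOf S : Subgroup S) : Set S) ⊆ ({1, z} : Set S) := by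
      intro g hg
      have hg' : (g : G) ∈ C := Subgroup.mem_subgroupOf.mp hg
      rcases hSC g g.2 hg' with h | h
      · left; exact Subtype.ext h
      · right; exact Subtype.ext h
    calc Nat.card (C.subgroupOf S) = ((C.subgroupOf S : Subgroup S) : Set S).ncard := by
          rw [← Nat.card_coe_set_eq]; rfl
      _ ≤ ({1, z} : Set S).ncard := Set.ncard_le_ncard hsub (Set.toFinite _)
      _ ≤ 2 := (Set.ncard_insert_le _ _).trans (by rw [Set.ncard_singleton])
  have hrel : 60 ≤ C.relIndex S := by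
    have h := Subgroup.index_mul_card (C.subgroupOf S)
    rw [hcardS] at h
    have : C.relIndex S = (C.subgroupOf S).index := rfl
    rw [this]
    nlinarith
  let G₀ : Subgroup G := S ⊔ C
  have hG₀n : G₀.Normal := Subgroup.sup_normal S C
  have hidx : G₀.index = 1 ∨ G₀.index = 2 := by
    have h1 := Subgroup.relIndex_mul_index (show C ≤ G₀ from le_sup_right)
    have h2 : C.relIndex G₀ = C.relIndex S := Subgroup.relIndex_sup_right S C
    rw [h2] at h1
    have h3 : G₀.index ≠ 0 := Subgroup.index_ne_zero_of_finite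
    have h4 : 60 * G₀.index ≤ 120 := by
      calc 60 * G₀.index ≤ C.relIndex S * G₀.index := Nat.mul_le_mul_right _ hrel
        _ = C.index := h1
        _ ≤ 120 := hidxC
    omega
  -- elements of C have order ≠ 3, 4, 5
  have hord : ∀ c ∈ C, ∀ s : S, orderOf c = orderOf (s : G) → c = 1 ∨ c = (z : G) := by
    intro c hc s ho
    have hcs : c * s = s * c := by
      rw [Subgroup.mem_centralizer_iff] at hc
      exact (hc s s.2).symm
    have hmem := mem_of_orderOf_eq hab c s hcs ho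
    have hcS : c ∈ S := (Subgroup.zpowers_le.mpr s.2) hmem
    exact hSC c hcS hc
  have ord1 : orderOf (1 : G) = 1 := orderOf_one
  have hno : ∀ c ∈ C, orderOf c ≠ 3 ∧ orderOf c ≠ 4 ∧ orderOf c ≠ 5 := by
    intro c hc
    refine ⟨?_, ?_, ?_⟩
    · intro h
      rcases hord c hc x (h.trans ox.symm) with h1 | h1
      · rw [h1, ord1] at h; omega
      · rw [h1, oz] at h; omega
    · intro h
      rcases hord c hc w (h.trans ow.symm) with h1 | h1
      · rw [h1, ord1] at h; omega
      · rw [h1, oz] at h; omega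
    · intro h
      rcases hord c hc y (h.trans oy.symm) with h1 | h1
      · rw [h1, ord1] at h; omega
      · rw [h1, oz] at h; omega
  have hC3 : ¬ 3 ∣ Nat.card C := by
    intro hd
    haveI : Fact (Nat.Prime 3) := ⟨by norm_num⟩
    obtain ⟨c, hc⟩ := exists_prime_orderOf_dvd_card' (G := C) 3 hd
    exact (hno c c.2).1 (by rw [Subgroup.orderOf_coe]; exact hc)
  have hC5 : ¬ 5 ∣ Nat.card C := by
    intro hd
    haveI : Fact (Nat.Prime 5) := ⟨by norm_num⟩
    obtain ⟨c, hc⟩ := exists_prime_orderOf_dvd_card' (G := C) 5 hd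
    exact (hno c c.2).2.2 (by rw [Subgroup.orderOf_coe]; exact hc)
  let zC : C := ⟨z, hzC⟩
  have ozC : orderOf zC = 2 := by
    rw [← Subgroup.orderOf_coe]; exact oz
  have hC4 : ¬ 4 ∣ Nat.card C := by
    intro hd
    haveI : Fact (Nat.Prime 2) := ⟨by norm_num⟩
    obtain ⟨U, hU⟩ := Sylow.exists_subgroup_card_pow_prime (G := C) 2 (n := 2) (by simpa using hd)
    have hUle : U ≤ Subgroup.zpowers zC := by
      intro u hu
      have ho : orderOf (⟨u, hu⟩ : U) ∣ 2 ^ 2 := by
        rw [← hU]; exact orderOf_dvd_natCard _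
      have ho' : orderOf (u : G) ∣ 4 := by
        rw [Subgroup.orderOf_coe, ← Subgroup.orderOf_mk u hu]
        simpa using ho
      have h4 := (hno u u.2).2.1
      have hcases : orderOf (u : G) = 1 ∨ orderOf (u : G) = 2 := by
        have hle : orderOf (u : G) ≤ 4 := Nat.le_of_dvd (by norm_num) ho'
        have hpos : 0 < orderOf (u : G) := orderOf_pos _
        interval_cases h : orderOf (u : G)
        · left; rfl
        · right; rfl
        · exfalso; norm_num at ho'
        · exact absurd rfl h4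
      rcases hcases with h1 | h2
      · have : u = 1 := by
          apply Subtype.ext
          exact orderOf_eq_one_iff.mp h1
        rw [this]; exact Subgroup.one_mem _
      · have : u = zC := by
          apply Subtype.ext
          exact hinv _ _ h2 oz
        rw [this]; exact Subgroup.mem_zpowers _
    have hle := Subgroup.card_le_of_le hUle
    rw [hU, Nat.card_zpowers, ozC] at hle
    norm_num at hle
  -- the complement M
  let N : Subgroup C := Subgroup.zpowers zC
  have hNn : N.Normal := by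
    refine ⟨fun n hn g => ?_⟩
    obtain ⟨k, rfl⟩ := Subgroup.mem_zpowers_iff.mp hn
    have : g * zC ^ k * g⁻¹ = zC ^ k := by
      have hz' : g * zC * g⁻¹ = zC := Subtype.ext (hzc g)
      rw [← conj_zpow, hz']
    rw [this]
    exact Subgroup.zpow_mem _ (Subgroup.mem_zpowers _) k
  have hNcard : Nat.card N = 2 := by rw [Nat.card_zpowers]; exact ozC
  have hNidx : Nat.card N * N.index = Nat.card C := Subgroup.card_mul_index N
  have hcop : Nat.Coprime (Nat.card N) N.index := by
    rw [hNcard] at hNidx ⊢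
    rw [Nat.coprime_two_left]
    rw [Nat.odd_iff]
    by_contra hodd
    apply hC4
    rw [← hNidx]
    omega
  obtain ⟨M₀, hM₀⟩ := Subgroup.exists_right_complement'_of_coprime hcop
  have hM₀card : 2 * Nat.card M₀ = Nat.card C := by
    have := hM₀.card_mul_card
    rw [← hNcard]
    exact this
  let M : Subgroup G := M₀.map C.subtype
  have hMC : M ≤ C := Subgroup.map_subtype_le M₀
  have hMcard : Nat.card M = Nat.card M₀ :=
    Subgroup.card_map_of_injective C.subtype_injective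
  have hzM : (z : G) ∉ M := by
    intro hzM
    obtain ⟨m, hm, hmz⟩ := hzM
    have hmz' : m = zC := Subtype.ext hmz
    have hmem : zC ∈ N ⊓ M₀ := ⟨Subgroup.mem_zpowers _, hmz' ▸ hm⟩
    rw [hM₀.disjoint.eq_bot, Subgroup.mem_bot] at hmem
    have : (z : G) = 1 := congrArg Subtype.val hmem
    exact hz1 (Subtype.ext this)
  have hcardZ2 : Nat.card (C.subgroupOf S) = 2 := by
    have hne : C.subgroupOf S ≠ ⊥ := by
      intro hbot
      have hzmem : z ∈ C.subgroupOf S := Subgroup.mem_subgroupOf.mpr hzC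
      rw [hbot, Subgroup.mem_bot] at hzmem
      exact hz1 hzmem
    have h1 : Nat.card (C.subgroupOf S) ≠ 1 := fun h => hne (Subgroup.card_eq_one.mp h)
    have h0 : 0 < Nat.card (C.subgroupOf S) := Nat.card_pos
    omega
  have hrel60 : C.relIndex S = 60 := by
    have h := Subgroup.index_mul_card (C.subgroupOf S)
    rw [hcardS, hcardZ2] at h
    have : C.relIndex S = (C.subgroupOf S).index := rfl
    rw [this]
    omega
  have hCidx : C.index = 60 ∨ C.index = 120 := by
    have h1 := Subgroup.relIndex_mul_index (show C ≤ G₀ from le_sup_right)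
    have h2 : C.relIndex G₀ = C.relIndex S := Subgroup.relIndex_sup_right S C
    rw [h2, hrel60] at h1
    rcases hidx with h | h
    · left; rw [← h1, h]
    · right; rw [← h1, h]
  refine ⟨M, hMC, ?_, ?_, hCidx, hC3, hC5, hC4⟩
  · rw [eq_bot_iff]
    intro g hg
    rw [Subgroup.mem_bot]
    rcases hSC g hg.1 (hMC hg.2) with h | h
    · exact h
    · exact absurd (h ▸ hg.2) hzM
  · rw [hMcard]
    exact hM₀card

end cf

section main89

variable {p : ℕ} [Fact p.Prime] {V : Type v} [AddCommGroup V] [Module (ZMod p) V] [Finite V]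

theorem hI_of_nonsolv (H : Subgroup (V ≃ₗ[ZMod p] V)) (hsolv : ¬ Group.IsSolvable H) :
    ∀ A : Subgroup H, A.Normal → IsCyclic A → ∃ W : Submodule (ZMod p) V, W ≠ ⊥ ∧ W ≠ ⊤ ∧
      ∀ a ∈ A, ∀ v ∈ W, ((a : H) : V ≃ₗ[ZMod p] V) v ∈ W := by
  intro A hAn hAc
  by_contra hcon
  push Not at hcon
  apply hsolv
  have hfinGL : Finite (V ≃ₗ[ZMod p] V) := DFunLike.finite (V ≃ₗ[ZMod p] V)
  obtain ⟨S, hSdef⟩ : ∃ S : Subalgebra (ZMod p) (Module.End (ZMod p) V),
      S = Subalgebra.centralizer (ZMod p) (Set.range (fun n : A => S0687.iota H (n : H))) :=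
    ⟨_, rfl⟩
  have hS : ∀ r ∈ S, r ≠ 0 → Function.Injective r := by
    intro r hr hr0
    have hker : ∀ a ∈ A, ∀ v ∈ LinearMap.ker r,
        ((a : H) : V ≃ₗ[ZMod p] V) v ∈ LinearMap.ker r := by
      intro a ha v hv
      rw [LinearMap.mem_ker] at hv ⊢
      rw [hSdef, Subalgebra.mem_centralizer_iff] at hr
      have hc : S0687.iota H a * r = r * S0687.iota H a := hr _ ⟨⟨a, ha⟩, rfl⟩
      have h1 := congrArg (fun φ : Module.End (ZMod p) V => φ v) hc
      have h2 : r (((a : H) : V ≃ₗ[ZMod p] V) v) = S0687.iota H a (r v) := h1.symm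
      rw [h2, hv, map_zero]
    by_contra hinj
    have hk0 : LinearMap.ker r ≠ ⊥ := fun h => hinj (LinearMap.ker_eq_bot.mp h)
    have hktop : LinearMap.ker r ≠ ⊤ := fun h => hr0 (LinearMap.ker_eq_top.mp h)
    obtain ⟨a, ha, v, hv, hnot⟩ := hcon _ hk0 hktop
    exact hnot (hker a ha v hv)
  have hcomm := S0687.comm_of_inj S hS
  have hmem : ∀ x ∈ Subgroup.centralizer (A : Set H), S0687.iota H x ∈ S := by
    intro x hx
    rw [hSdef, Subalgebra.mem_centralizer_iff]
    rintro _ ⟨a, rfl⟩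
    have h1 := (Subgroup.mem_centralizer_iff.mp hx) a a.2
    rw [← S0687.iota_mul, ← S0687.iota_mul, h1]
  have hC : ∀ x ∈ Subgroup.centralizer (A : Set H),
      ∀ y ∈ Subgroup.centralizer (A : Set H), x * y = y * x := by
    intro x hx y hy
    have h2 := hcomm _ (hmem x hx) _ (hmem y hy)
    rw [← S0687.iota_mul, ← S0687.iota_mul] at h2
    exact S0687.iota_inj H h2
  have hCs : Group.IsSolvable (Subgroup.centralizer (A : Set H)) :=
    Group.isSolvable_of_comm (fun a b => Subtype.ext (hC a a.2 b b.2))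
  have hAut : Group.IsSolvable (MulAut A) := by
    apply Group.isSolvable_of_comm
    intro a b
    have e := IsCyclic.mulAutMulEquiv A
    apply e.injective
    rw [map_mul, map_mul, mul_comm]
  refine Group.isSolvable_of_ker_le_range (Subgroup.centralizer (A : Set H)).subtype
    (MulAut.conjNormal (H := A)) ?_
  intro g hg
  rw [MonoidHom.mem_ker] at hg
  rw [Subgroup.range_subtype, Subgroup.mem_centralizer_iff]
  intro a ha
  have h1 := congrArg (fun φ : MulAut A => ((φ ⟨a, ha⟩ : A) : H)) hg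
  have h2 : g * a * g⁻¹ = a := h1
  calc a * g = (g * a * g⁻¹) * g := by rw [h2]
    _ = g * a := by group

theorem s0689_main
    (hZ : ∀ (K : Type v) [Group K] [Finite K] (Γ : Subgroup (MulAut K)),
      (∀ φ ∈ Γ, φ ≠ 1 → ∀ k : K, φ k = k → k = 1) → commutator Γ = ⊤ → Γ ≠ ⊥ →
      Nonempty (Γ ≃* Matrix.SpecialLinearGroup (Fin 2) (ZMod 5)))
    (H : Subgroup (V ≃ₗ[ZMod p] V)) (hreg : ∀ v w : V, v ≠ 0 → w ≠ 0 → ∃! h : H, (h : V ≃ₗ[ZMod p] V) v = w) (hsolv : ¬ Group.IsSolvable H) : (Nat.card V = 121 ∧ Nonempty (H ≃* Matrix.SpecialLinearGroup (Fin 2) (ZMod 5))) ∨ (Nat.card V = 841 ∧ Nonempty (H ≃* Matrix.SpecialLinearGroup (Fin 2) (ZMod 5) × Multiplicative (ZMod 7))) ∨ (Nat.card V = 3481 ∧ Nonempty (H ≃* Matrix.SpecialLinearGroup (Fin 2) (ZMod 5) × Multiplicative (ZMod 29))) := by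
  have hp := (Fact.out : p.Prime)
  have hfpf := fpf_of_reg H hreg
  have hfinGL : Finite (V ≃ₗ[ZMod p] V) := DFunLike.finite (V ≃ₗ[ZMod p] V)
  have hI := hI_of_nonsolv H hsolv
  obtain ⟨W₀, hW₀bot, -, -⟩ := hI ⊥ inferInstance inferInstance
  have htop : (⊤ : Submodule (ZMod p) V) ≠ ⊥ := by
    intro h
    apply hW₀bot
    rw [eq_bot_iff, ← h]
    exact le_top
  obtain ⟨w0, -, hw0⟩ := (Submodule.ne_bot_iff _).mp htop
  have hab := ab_of_reg H hfpf htop
  have hinv := inv_of_reg H hfpf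
  obtain ⟨A, ⟨hAn, hAab⟩, hAmaxc⟩ : ∃ A : Subgroup H,
      (A.Normal ∧ ∀ a ∈ A, ∀ b ∈ A, a * b = b * a) ∧
      ∀ B : Subgroup H, (B.Normal ∧ ∀ a ∈ B, ∀ b ∈ B, a * b = b * a) →
        Nat.card B ≤ Nat.card A := by
    have hne : ({B : Subgroup H | B.Normal ∧ ∀ a ∈ B, ∀ b ∈ B, a * b = b * a}).Nonempty :=
      ⟨⊥, inferInstance, by
        intro a ha b hb
        rw [Subgroup.mem_bot] at ha hb
        rw [ha, hb]⟩
    obtain ⟨A, hA, hmax⟩ := Set.exists_max_image _ (fun B : Subgroup H => Nat.card B)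
      (Set.toFinite _) hne
    exact ⟨A, hA, fun B hB => hmax B hB⟩
  have hAmax : ∀ B : Subgroup H, B.Normal → (∀ a ∈ B, ∀ b ∈ B, a * b = b * a) → A ≤ B →
      B = A := by
    intro B hBn hBab hAB
    exact (Subgroup.eq_of_le_of_card_ge hAB (hAmaxc B ⟨hBn, hBab⟩)).symm
  have hAc : IsMulCommutative A := ⟨⟨fun a b => Subtype.ext (hAab a a.2 b b.2)⟩⟩
  have hAmax' : ∀ B : Subgroup H, B.Normal → IsMulCommutative B → A ≤ B → B = A := by
    intro B hBn hBc hAB
    exact hAmax B hBn
      (fun a ha b hb => congrArg Subtype.val (hBc.is_comm.comm ⟨a, ha⟩ ⟨b, hb⟩)) hAB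
  obtain ⟨-, hCna⟩ := S0685.result H hreg hI A hAn hAc hAmax'
  obtain ⟨N, ⟨hNn, hNle, hNna⟩, hNminc⟩ : ∃ N : Subgroup H,
      (N.Normal ∧ N ≤ Subgroup.centralizer (A : Set H) ∧ ¬ IsMulCommutative N) ∧
      ∀ M : Subgroup H,
        (M.Normal ∧ M ≤ Subgroup.centralizer (A : Set H) ∧ ¬ IsMulCommutative M) →
        Nat.card N ≤ Nat.card M := by
    have hne : ({M : Subgroup H | M.Normal ∧ M ≤ Subgroup.centralizer (A : Set H) ∧
        ¬ IsMulCommutative M}).Nonempty :=
      ⟨Subgroup.centralizer (A : Set H), inferInstance, le_rfl, hCna⟩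
    obtain ⟨N, hN, hmin⟩ := Set.exists_min_image _ (fun B : Subgroup H => Nat.card B)
      (Set.toFinite _) hne
    exact ⟨N, hN, fun M hM => hmin M hM⟩
  have hNmin' : ∀ M : Subgroup H, M.Normal → M ≤ N → ¬ IsMulCommutative M → M = N := by
    intro M hMn hMN hMna
    exact Subgroup.eq_of_le_of_card_ge hMN (hNminc M ⟨hMn, hMN.trans hNle, hMna⟩)
  obtain ⟨-, hCNeq⟩ := S0687.result H hreg hI A hAn hAc hAmax' N hNn hNle hNna hNmin'
  have hNA : ∀ n ∈ N, ∀ a ∈ A, n * a = a * n := by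
    intro n hn a ha
    exact ((Subgroup.mem_centralizer_iff.mp (hNle hn)) a ha).symm
  have hNna' : ∃ x ∈ N, ∃ y ∈ N, x * y ≠ y * x := by
    by_contra hcon
    push Not at hcon
    exact hNna ⟨⟨fun a b => Subtype.ext (hcon a a.2 b b.2)⟩⟩
  have hNmin : ∀ M : Subgroup H, M.Normal → M ≤ N → (∃ x ∈ M, ∃ y ∈ M, x * y ≠ y * x) →
      M = N := by
    rintro M hMn hMN ⟨x, hx, y, hy, hxy⟩
    apply hNmin' M hMn hMN
    intro hMc
    exact hxy (congrArg Subtype.val (hMc.is_comm.comm ⟨x, hx⟩ ⟨y, hy⟩))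
  have hCN : ∀ h : H, (∀ n ∈ N, h * n = n * h) → h ∈ A := by
    intro h hh
    rw [← hCNeq, Subgroup.mem_centralizer_iff]
    intro n hn
    exact (hh n hn).symm
  have hprop : ∀ M : Subgroup H, M.Normal → M ≤ N → M ≠ N → M ≤ A :=
    fun M hM hMN hne => S0688.le_A_of_proper A N hAn hAab hAmax hNA hNmin M hM hMN hne
  have hAs : Group.IsSolvable A :=
    Group.isSolvable_of_comm (fun a b => Subtype.ext (hAab a a.2 b b.2))
  by_cases hperf : ⁅N, N⁆ = N
  swap
  · exfalso
    have hle : ⁅N, N⁆ ≤ N := Subgroup.commutator_le_right N N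
    have hA := hprop ⁅N, N⁆ inferInstance hle hperf
    have hcomm : ∀ x ∈ N, ∀ y ∈ N, x * y * x⁻¹ * y⁻¹ ∈ A := by
      intro x hx y hy
      have hc := Subgroup.commutator_mem_commutator hx hy
      rw [commutatorElement_def] at hc
      exact hA hc
    obtain ⟨r, hrp, hr⟩ := S0688.exists_exp A N hAn hNn hNA hcomm hprop hNna'
    have hr2 := S0688.exp_two A N hab hAab hNA hcomm hNna' r hrp hr
    subst hr2
    have hc2 := S0688.comm_pow A N hNA hcomm 2 hr
    obtain ⟨z, i, j, hz1, hz2, hzA, hiN, hjN, hi2, hj2, hij, hcz⟩ :=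
      S0688.quat_pair A N hab hinv hAab hNA hcomm hNna' hr hc2
    have hidx := S0688.quat_index A N hinv hNn hNA hNmin hCN z i j hz1 hz2 hiN hjN hi2 hj2
      hij hcz
    apply hsolv
    have hQs : Group.IsSolvable (H ⧸ A) := by
      apply Cfsg.Agent.S3378.solv_lt_60 (Nat.card (H ⧸ A)) (H ⧸ A) rfl
      rw [← Subgroup.index_eq_card]
      rcases hidx with h | h | h | h | h <;> rw [h] <;> norm_num
    exact Cfsg.Agent.S3378.solv_of_normal A hAs hQs
  have hNbot : N ≠ ⊥ := by
    intro hbot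
    obtain ⟨x, hx, y, hy, hxy⟩ := hNna'
    rw [hbot, Subgroup.mem_bot] at hx hy
    rw [hx, hy] at hxy
    exact hxy rfl
  obtain ⟨φ⟩ := perfect_case hZ H hfpf N hperf hNbot
  have hab' : ∀ B : Subgroup H, IsMulCommutative B → IsCyclic B := fun B hB =>
    hab B (fun a ha b hb => congrArg Subtype.val (hB.is_comm.comm ⟨a, ha⟩ ⟨b, hb⟩))
  have hinv' : ∀ s t : H, orderOf s = 2 → orderOf t = 2 → s = t := by
    intro s t hs ht
    apply hinv s t
    · rw [← hs]; exact pow_orderOf_eq_one s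
    · rw [← ht]; exact pow_orderOf_eq_one t
    · intro h; rw [h, orderOf_one] at hs; omega
    · intro h; rw [h, orderOf_one] at ht; omega
  obtain ⟨M, hMC, hNM, hMcard, hidx, h3, h5, h4⟩ := core_full hab' hinv' N φ
  have hMC0 := hMC
  rw [hCNeq] at hMC hMcard hidx h3 h5 h4
  obtain ⟨hcyc, W, hW0, hWtop, hWinv, hWmin, hdvd⟩ := S0684.result H hreg hI A hAn hAc hAmax'
  have hH := S0688.card_H H hreg w0 hw0
  have hcV : Nat.card V = p ^ Module.finrank (ZMod p) V := by
    rw [Module.natCard_eq_pow_finrank (K := ZMod p) (V := V), Nat.card_zmod]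
  have hk1 : 1 ≤ Module.finrank (ZMod p) W := by
    by_contra hcon
    have h0 : Module.finrank (ZMod p) W = 0 := by omega
    exact hW0 (Submodule.finrank_eq_zero.mp h0)
  have hkn : Module.finrank (ZMod p) W < Module.finrank (ZMod p) V := Submodule.finrank_lt hWtop
  have hHA : A.index * Nat.card A + 1 = p ^ Module.finrank (ZMod p) V := by
    rw [Subgroup.index_mul_card, hH, hcV]
  have h2 : 2 ∣ Nat.card A := ⟨Nat.card M, hMcard.symm⟩
  obtain ⟨h60, hfin⟩ := arith89 p _ _ (Nat.card A) A.index hp hk1 hkn hHA hidx hdvd h2 h4 h3 h5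
  rw [← hcV] at hfin
  have hcardN : Nat.card N = 120 := by
    rw [Nat.card_congr φ.toEquiv]; exact Cfsg.Agent.Lib.Helper63.FrobComp.card_SL25
  have hcardH : Nat.card H = Nat.card N * Nat.card M := by
    rw [← Subgroup.index_mul_card A, h60, hcardN, ← hMcard]; ring
  have hcommNM : ∀ (n : N) (m : M), Commute (N.subtype n) (M.subtype m) := by
    intro n m
    exact (Subgroup.mem_centralizer_iff.mp (hMC0 m.2)) n n.2
  obtain ⟨f, hf⟩ : ∃ f : N × M →* H, ∀ n m, f (n, m) = (n : H) * (m : H) :=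
    ⟨MonoidHom.noncommCoprod N.subtype M.subtype hcommNM, fun n m => rfl⟩
  have hf_inj : Function.Injective f := by
    rw [injective_iff_map_eq_one]
    rintro ⟨n, m⟩ h
    rw [hf] at h
    have hn : (n : H) ∈ N ⊓ M := ⟨n.2, by
      have : (n : H) = (m : H)⁻¹ := eq_inv_of_mul_eq_one_left h
      rw [this]; exact M.inv_mem m.2⟩
    rw [hNM, Subgroup.mem_bot] at hn
    have hm : (m : H) = 1 := by rw [hn, one_mul] at h; exact h
    exact Prod.ext (Subtype.ext hn) (Subtype.ext hm)
  have hf_bij : Function.Bijective f :=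
    hf_inj.bijective_of_nat_card_le (by rw [Nat.card_prod, hcardH])
  obtain ⟨e⟩ : Nonempty (H ≃* N × M) := ⟨(MulEquiv.ofBijective f hf_bij).symm⟩
  rcases hfin with ⟨hV, hA⟩ | ⟨hV, hA⟩ | ⟨hV, hA⟩
  · left
    refine ⟨hV, ?_⟩
    have hM1 : Nat.card M = 1 := by omega
    haveI : Subsingleton M := (Nat.card_eq_one_iff_unique.mp hM1).1
    haveI : Unique M := uniqueOfSubsingleton 1
    exact ⟨(e.trans MulEquiv.prodUnique).trans φ⟩
  · right; left
    refine ⟨hV, ?_⟩
    have hM7 : Nat.card M = 7 := by omega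
    haveI : Fact (Nat.Prime 7) := ⟨by norm_num⟩
    have hcycM : IsCyclic M := isCyclic_of_prime_card hM7
    have e7 : Multiplicative (ZMod (Nat.card M)) ≃* M := zmodCyclicMulEquiv hcycM
    rw [hM7] at e7
    exact ⟨e.trans (MulEquiv.prodCongr φ e7.symm)⟩
  · right; right
    refine ⟨hV, ?_⟩
    have hM29 : Nat.card M = 29 := by omega
    haveI : Fact (Nat.Prime 29) := ⟨by norm_num⟩
    have hcycM : IsCyclic M := isCyclic_of_prime_card hM29
    have e29 : Multiplicative (ZMod (Nat.card M)) ≃* M := zmodCyclicMulEquiv hcycM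
    rw [hM29] at e29
    exact ⟨e.trans (MulEquiv.prodCongr φ e29.symm)⟩

end main89

end Cfsg.Agent.Lib.Helper63.Sharp2
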