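import Mathlib

/-!
S5980 piece TD2-NEGCP (helper98): a symplectic matrix `M` with `M * M = -1` has characteristic
polynomial `(X ^ 2 + 1) ^ d`.
-/

set_option autoImplicit false

namespace Cfsg.Agent.Lib.Helper98.TD2

open Matrix Polynomial
open scoped Kronecker

universe u

/-! ### TD2-NEGCP -/
theorem charpoly_of_sq_neg_one {F : Type*} [Field F] (h2 : (2 : F) ≠ 0) {d : ℕ}
    (M : Matrix (Fin d ⊕ Fin d) (Fin d ⊕ Fin d) F) (hM : M ∈ Matrix.symplecticGroup (Fin d) F)
    (hsq : M * M = -1) :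
    M.charpoly = (X ^ 2 + 1) ^ d := by
  have hJ := Matrix.J_squared (Fin d) F
  rw [SymplecticGroup.mem_iff] at hM
  -- `Mᵀ = J M J`
  have h1 : J (Fin d) F * Mᵀ = -(M * J (Fin d) F) := by
    have e1 : J (Fin d) F * Mᵀ = -(M * M) * (J (Fin d) F * Mᵀ) := by
      rw [hsq, neg_neg, Matrix.one_mul]
    have e2 : -(M * M) * (J (Fin d) F * Mᵀ) = -(M * (M * J (Fin d) F * Mᵀ)) := by
      simp only [Matrix.neg_mul, Matrix.mul_assoc]
    rw [e1, e2, hM]
  have hT : Mᵀ = J (Fin d) F * M * J (Fin d) F := by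
    have e1 : Mᵀ = -(J (Fin d) F * J (Fin d) F) * Mᵀ := by
      rw [hJ, neg_neg, Matrix.one_mul]
    rw [e1, Matrix.neg_mul, Matrix.mul_assoc, h1, Matrix.mul_neg, neg_neg, Matrix.mul_assoc]
  -- `-M` and `M` have the same characteristic polynomial
  have hneg : (-M).charpoly = M.charpoly := by
    rw [← Matrix.charpoly_transpose M, hT, Matrix.mul_assoc, Matrix.charpoly_mul_comm,
      Matrix.mul_assoc, hJ, Matrix.mul_neg, Matrix.mul_one]
  -- the product of the two characteristic polynomials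
  have hprod : M.charpoly * (-M).charpoly = (X ^ 2 + 1) ^ (2 * d) := by
    unfold Matrix.charpoly
    rw [← Matrix.det_mul]
    have hmat : charmatrix M * charmatrix (-M) =
        (X ^ 2 + 1 : F[X]) • (1 : Matrix (Fin d ⊕ Fin d) (Fin d ⊕ Fin d) F[X]) := by
      unfold charmatrix
      have hc : Matrix.scalar (Fin d ⊕ Fin d) (X : F[X]) * (C : F →+* F[X]).mapMatrix M =
          (C : F →+* F[X]).mapMatrix M * Matrix.scalar (Fin d ⊕ Fin d) (X : F[X]) :=
        Matrix.scalar_comm X (fun r => Commute.all X r) _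
      have hNN : (C : F →+* F[X]).mapMatrix M * (C : F →+* F[X]).mapMatrix M = -1 := by
        rw [← map_mul, hsq, map_neg, map_one]
      have hSS : Matrix.scalar (Fin d ⊕ Fin d) (X : F[X]) *
          Matrix.scalar (Fin d ⊕ Fin d) (X : F[X]) =
          (X ^ 2 : F[X]) • (1 : Matrix (Fin d ⊕ Fin d) (Fin d ⊕ Fin d) F[X]) := by
        rw [← map_mul, ← pow_two, Matrix.scalar_apply, Matrix.smul_one_eq_diagonal]
      rw [map_neg, sub_neg_eq_add, sub_mul, mul_add, mul_add, hSS, hNN, hc, add_smul, one_smul]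
      abel
    rw [hmat, Matrix.det_smul, Matrix.det_one, mul_one, Fintype.card_sum, Fintype.card_fin]
    congr 1
    ring
  rw [hneg] at hprod
  have hsq2 : M.charpoly * M.charpoly = (X ^ 2 + 1 : F[X]) ^ d * (X ^ 2 + 1) ^ d := by
    rw [hprod, ← pow_add]
    congr 1
    ring
  rcases mul_self_eq_mul_self_iff.mp hsq2 with h | h
  · exact h
  · exfalso
    have hm1 : M.charpoly.leadingCoeff = 1 := (Matrix.charpoly_monic M).leadingCoeff
    have hmon : ((X ^ 2 + 1 : F[X]) ^ d).Monic :=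
      (Polynomial.monic_X_pow_add (n := 2) (p := (1 : F[X]))
        (by rw [Polynomial.degree_one]; norm_num)).pow d
    rw [h, Polynomial.leadingCoeff_neg, hmon.leadingCoeff] at hm1
    apply h2
    linear_combination -hm1

end Cfsg.Agent.Lib.Helper98.TD2
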