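import Mathlib
import Cfsg.Prelude.Def_GeometricClasses
import Cfsg.Prelude.Def_ClassicalGeometry
import Cfsg.Prelude.Def_LieClassical
import Cfsg.Agent.Lib.Helper98.U84Defs
import Cfsg.Agent.Lib.Helper18.UnitaryTv
import Cfsg.Agent.Lib.Helper87.SURoot

/-!
S5984 piece U84-TVU (helper98): a unitary transvection with an isotropic centre.
-/

set_option autoImplicit false

namespace Cfsg.Agent.Lib.Helper98.U84

open Matrix Polynomial

/-! ### U84-TVU -/
theorem exists_unitary_transv {F : Type*} [Field F] [Fintype F] {p q n : ℕ} [Fact p.Prime]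
    [CharP F p] (hF : Fintype.card F = q ^ 2) (v : Fin n → F) (hv : v ≠ 0)
    (hiso : Cfsg.hermForm n F q v v = 0) :
    ∃ T : Matrix (Fin n) (Fin n) F,
      (∀ u w, Cfsg.hermForm n F q (T *ᵥ u) (T *ᵥ w) = Cfsg.hermForm n F q u w) ∧
      T.det = 1 ∧ T ^ p = 1 ∧ (T - 1).rank = 1 := by
  classical
  obtain ⟨c, hc0, hc⟩ := Cfsg.Agent.Lib.Helper87.exists_tz_ne_zero hF
  obtain ⟨N, hN⟩ : ∃ N : Matrix (Fin n) (Fin n) F,
      N = Matrix.vecMulVec (c • v) (fun j => v j ^ q) := ⟨_, rfl⟩
  have hT : Cfsg.unitaryTransvection n q v c = 1 + N := by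
    rw [hN]; exact Cfsg.Agent.Lib.Helper18.transvection_eq_vecMulVec n v c
  have hNN : N * N = 0 := by
    rw [hN, Matrix.vecMulVec_mul_vecMulVec]
    have h1 : (fun j => v j ^ q) ⬝ᵥ (c • v) = c * Cfsg.hermForm n F q v v := by
      simp only [dotProduct, Cfsg.hermForm, Pi.smul_apply, smul_eq_mul, Finset.mul_sum]
      refine Finset.sum_congr rfl fun j _ => ?_
      ring
    rw [h1, hiso, mul_zero]
    ext i j
    simp [Matrix.vecMulVec_apply]
  refine ⟨Cfsg.unitaryTransvection n q v c,
    fun u w => Cfsg.Agent.Lib.Helper18.transvection_preserves hF n v c hiso hc u w,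
    Cfsg.Agent.Lib.Helper18.transvection_det n v c hiso, ?_, ?_⟩
  · have hpow : ∀ k : ℕ, (1 + N) ^ k = 1 + (k : F) • N := by
      intro k
      induction k with
      | zero => simp
      | succ k ih =>
        rw [pow_succ, ih]
        simp only [mul_add, add_mul, mul_one, one_mul, Matrix.smul_mul, hNN, smul_zero, add_zero,
          Nat.cast_succ, add_smul, one_smul]
        abel
    rw [hT, hpow, CharP.cast_eq_zero F p, zero_smul, add_zero]
  · rw [hT, add_sub_cancel_left]
    apply le_antisymm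
    · rw [hN]; exact Matrix.rank_vecMulVec_le _ _
    · obtain ⟨i, hi⟩ := Function.ne_iff.1 hv
      have hi' : v i ≠ 0 := hi
      have hNi : N i i ≠ 0 := by
        rw [hN]
        simp only [Matrix.vecMulVec_apply, Pi.smul_apply, smul_eq_mul]
        exact mul_ne_zero (mul_ne_zero hc0 hi') (pow_ne_zero _ hi')
      rw [Nat.succ_le_iff, Matrix.rank, Module.finrank_pos_iff_exists_ne_zero]
      refine ⟨⟨N *ᵥ Pi.single i 1, ⟨Pi.single i 1, rfl⟩⟩, ?_⟩
      intro h
      have h2 : N *ᵥ Pi.single i 1 = 0 := congrArg Subtype.val h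
      have h3 := congrFun h2 i
      rw [Matrix.mulVec_single_one] at h3
      exact hNi h3

end Cfsg.Agent.Lib.Helper98.U84
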