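import Mathlib
import Cfsg.Agent.Lib.Helper44.UDDefs

/-!
# S5655 piece Q2A (helper44): `q = 2`, a non-monomial element gives a centre of weight `≥ 4`
-/

set_option autoImplicit false
set_option linter.unusedSectionVars false
set_option linter.unusedVariables false

namespace Cfsg.Agent.Lib.Helper44.UD

open Matrix Cfsg.Agent.Lib.Helper93 Cfsg.Agent.Lib.Helper18 Cfsg.Agent.Lib.Helper7

/-- pointwise combinatorics: if no `f + ε f'` has three nonzero coordinates, then `f` and `f'`
vanish outside three nonzero coordinates of `f` -/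
private theorem udq2a_supp {F : Type*} [Field F] {ι : Type*} (h2 : (2 : F) = 0) (ω : F)
    (hω0 : ω ≠ 0) (hω1 : ω ≠ 1) (f f' : ι → F)
    (H : ∀ ε : F, ε ≠ 0 → ∀ r s t : ι, r ≠ s → r ≠ t → s ≠ t →
      f r + ε * f' r ≠ 0 → f s + ε * f' s ≠ 0 → f t + ε * f' t ≠ 0 → False)
    (a b c : ι) (hab : a ≠ b) (hac : a ≠ c) (hbc : b ≠ c)
    (ha : f a ≠ 0) (hb : f b ≠ 0) (hc : f c ≠ 0)
    (d : ι) (hda : d ≠ a) (hdb : d ≠ b) (hdc : d ≠ c) : f d = 0 ∧ f' d = 0 := by
  have hdis : ∀ r : ι, f r ≠ 0 → ∀ ε₁ ε₂ : F, ε₁ ≠ ε₂ →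
      f r + ε₁ * f' r = 0 → f r + ε₂ * f' r = 0 → False := by
    intro r hr ε₁ ε₂ hne h1 h2'
    have h3 : (ε₁ - ε₂) * f' r = 0 := by linear_combination h1 - h2'
    rcases mul_eq_zero.mp h3 with h4 | h4
    · exact hne (sub_eq_zero.mp h4)
    · rw [h4, mul_zero, add_zero] at h1
      exact hr h1
  have h1ω : (1 : F) + ω ≠ 0 := by
    intro h
    apply hω1
    linear_combination h - h2
  have inner : ∀ ε : F, ε ≠ 0 → ∀ r s t : ι, r ≠ s → r ≠ t → s ≠ t →
      f r ≠ 0 → f s ≠ 0 → f t ≠ 0 →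
      f r + ε * f' r = 0 → f s + ε * f' s = 0 → False := by
    intro ε hε r s t hrs hrt hst hr hs ht h1 h2'
    have hε1 : ε * ω ≠ 0 := mul_ne_zero hε hω0
    have hε2 : ε * (1 + ω) ≠ 0 := mul_ne_zero hε h1ω
    have hne1 : ε ≠ ε * ω := by
      intro h
      apply hω1
      have h5 : ε * (ω - 1) = 0 := by linear_combination -h
      rcases mul_eq_zero.mp h5 with h6 | h6
      · exact absurd h6 hε
      · exact sub_eq_zero.mp h6
    have hne2 : ε ≠ ε * (1 + ω) := by
      intro h
      apply hω0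
      have h5 : ε * ω = 0 := by linear_combination -h
      rcases mul_eq_zero.mp h5 with h6 | h6
      · exact absurd h6 hε
      · exact h6
    have hne3 : ε * ω ≠ ε * (1 + ω) := by
      intro h
      apply hε
      linear_combination -h
    have ht1 : f t + (ε * ω) * f' t = 0 := by
      by_contra hcon
      exact H (ε * ω) hε1 r s t hrs hrt hst (fun h => hdis r hr ε (ε * ω) hne1 h1 h)
        (fun h => hdis s hs ε (ε * ω) hne1 h2' h) hcon
    have ht2 : f t + (ε * (1 + ω)) * f' t = 0 := by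
      by_contra hcon
      exact H (ε * (1 + ω)) hε2 r s t hrs hrt hst (fun h => hdis r hr ε _ hne2 h1 h)
        (fun h => hdis s hs ε _ hne2 h2' h) hcon
    exact hdis t ht _ _ hne3 ht1 ht2
  have hd : ∀ ε : F, ε ≠ 0 → f d + ε * f' d = 0 := by
    intro ε hε
    by_contra hcon
    have hab' : f a + ε * f' a = 0 ∨ f b + ε * f' b = 0 := by
      by_contra h
      exact H ε hε a b d hab hda.symm hdb.symm (not_or.mp h).1 (not_or.mp h).2 hcon
    have hac' : f a + ε * f' a = 0 ∨ f c + ε * f' c = 0 := by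
      by_contra h
      exact H ε hε a c d hac hda.symm hdc.symm (not_or.mp h).1 (not_or.mp h).2 hcon
    have hbc' : f b + ε * f' b = 0 ∨ f c + ε * f' c = 0 := by
      by_contra h
      exact H ε hε b c d hbc hdb.symm hdc.symm (not_or.mp h).1 (not_or.mp h).2 hcon
    rcases hab' with h1 | h1
    · rcases hac' with h3 | h3
      · rcases hbc' with h4 | h4
        · exact inner ε hε a b c hab hac hbc ha hb hc h1 h4
        · exact inner ε hε a c b hac hab hbc.symm ha hc hb h1 h4
      · exact inner ε hε a c b hac hab hbc.symm ha hc hb h1 h3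
    · rcases hac' with h3 | h3
      · exact inner ε hε a b c hab hac hbc ha hb hc h3 h1
      · exact inner ε hε b c a hbc hab.symm hac.symm hb hc ha h1 h3
  have e1 := hd 1 one_ne_zero
  have e2 := hd ω hω0
  have hf' : f' d = 0 := by
    have h5 : (1 - ω) * f' d = 0 := by linear_combination e1 - e2
    rcases mul_eq_zero.mp h5 with h6 | h6
    · exact absurd (sub_eq_zero.mp h6).symm hω1
    · exact h6
  refine ⟨?_, hf'⟩
  rw [hf', mul_zero, add_zero] at e1
  exact e1

section
variable {F : Type*} [Field F] [Fintype F]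

private theorem udq2a_cube (hF : Fintype.card F = 2 ^ 2) (k : F) (hk : k ≠ 0) :
    k * k ^ 2 = 1 := by
  have h := cube_eq_one_of_card hF k hk
  rw [← h]
  ring

/-- an isotropic vector with three nonzero coordinates has a fourth one -/
private theorem udq2a_wt4 (hF : Fintype.card F = 2 ^ 2) {n : ℕ} (v : Fin n → F)
    (hv : Cfsg.hermForm n F 2 v v = 0) (a b c : Fin n) (hab : a ≠ b) (hac : a ≠ c)
    (hbc : b ≠ c) (ha : v a ≠ 0) (hb : v b ≠ 0) (hc : v c ≠ 0) : Wt4 v := by
  classical
  by_contra hcon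
  have hz : ∀ d : Fin n, d ∉ ({a, b, c} : Finset (Fin n)) → v d * v d ^ 2 = 0 := by
    intro d hd
    simp only [Finset.mem_insert, Finset.mem_singleton, not_or] at hd
    have h0 : v d = 0 := by
      by_contra hd0
      exact hcon ⟨a, b, c, d, hab, hac, fun h => hd.1 h.symm, hbc, fun h => hd.2.1 h.symm,
        fun h => hd.2.2 h.symm, ha, hb, hc, hd0⟩
    rw [h0]
    ring
  have hsum : Cfsg.hermForm n F 2 v v = v a * v a ^ 2 + (v b * v b ^ 2 + v c * v c ^ 2) := by
    unfold Cfsg.hermForm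
    rw [← Finset.sum_subset (Finset.subset_univ ({a, b, c} : Finset (Fin n)))
      (fun d _ hd => hz d hd)]
    rw [Finset.sum_insert (by simp [hab, hac]), Finset.sum_pair hbc]
  rw [hsum, udq2a_cube hF _ ha, udq2a_cube hF _ hb, udq2a_cube hF _ hc] at hv
  have h2 := two_eq_zero_of_card hF
  have h10 : (1 : F) = 0 := by linear_combination hv - h2
  exact one_ne_zero h10

/-- a unit vector with two nonzero coordinates has a third one -/
private theorem udq2a_third (hF : Fintype.card F = 2 ^ 2) {n : ℕ} (v : Fin n → F)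
    (hv : Cfsg.hermForm n F 2 v v = 1) (a b : Fin n) (hab : a ≠ b)
    (ha : v a ≠ 0) (hb : v b ≠ 0) : ∃ c, c ≠ a ∧ c ≠ b ∧ v c ≠ 0 := by
  classical
  by_contra hcon
  have hcon' : ∀ c, c ≠ a → c ≠ b → v c = 0 := fun c h1 h2 => by
    by_contra h3
    exact hcon ⟨c, h1, h2, h3⟩
  have hz : ∀ d : Fin n, d ∉ ({a, b} : Finset (Fin n)) → v d * v d ^ 2 = 0 := by
    intro d hd
    simp only [Finset.mem_insert, Finset.mem_singleton, not_or] at hd
    rw [hcon' d hd.1 hd.2]
    ring
  have hsum : Cfsg.hermForm n F 2 v v = v a * v a ^ 2 + v b * v b ^ 2 := by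
    unfold Cfsg.hermForm
    rw [← Finset.sum_subset (Finset.subset_univ ({a, b} : Finset (Fin n)))
      (fun d _ hd => hz d hd), Finset.sum_pair hab]
  rw [hsum, udq2a_cube hF _ ha, udq2a_cube hF _ hb] at hv
  have h2 := two_eq_zero_of_card hF
  have h10 : (1 : F) = 0 := by linear_combination h2 - hv
  exact one_ne_zero h10

/-- the weight-two isotropic vectors are centres (their transvections are monomial) -/
private theorem udq2a_cen2 (hF : Fintype.card F = 2 ^ 2) {n : ℕ} (X : Subgroup (GL (Fin n) F))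
    (hM : MonSU 2 X) (i j : Fin n) (hij : i ≠ j) (ε : F) (hε : ε ≠ 0) :
    Cen 2 X (Pi.single j 1 + ε • Pi.single i 1) := by
  classical
  have h2 := two_eq_zero_of_card hF
  have hcube := cube_eq_one_of_card hF ε hε
  obtain ⟨u, hu⟩ : ∃ u : Fin n → F, u = Pi.single j 1 + ε • Pi.single i 1 := ⟨_, rfl⟩
  rw [← hu]
  have huj : u j = 1 := by simp [hu, hij.symm]
  have hui : u i = ε := by simp [hu, hij]
  have huk : ∀ k, k ≠ i → k ≠ j → u k = 0 := by
    intro k h1 h2'
    simp [hu, h1, h2']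
  have hform : ∀ w : Fin n → F, Cfsg.hermForm n F 2 u w = w j ^ 2 + ε * w i ^ 2 := by
    intro w
    rw [hu, hf_add_left, hf_smul_left, hf_single_left, hf_single_left]
  have huu : Cfsg.hermForm n F 2 u u = 0 := by
    rw [hform, huj, hui]
    linear_combination hcube + h2
  refine ⟨huu, fun c hc => ?_⟩
  have hc01 : c = 0 ∨ c = 1 := by
    have h5 : c * (1 + c) = 0 := by linear_combination hc
    rcases mul_eq_zero.mp h5 with h | h
    · exact Or.inl h
    · right
      linear_combination h - h2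
  rcases hc01 with rfl | rfl
  · have h1 : Cfsg.unitaryTransvection n 2 u (0 : F) = 1 := by
      unfold Cfsg.unitaryTransvection
      rw [zero_smul, add_zero]
    rw [h1]
    exact MIn.one X
  · obtain ⟨t, ht, htm⟩ := exists_gl_of_pres (q := 2) (A := Cfsg.unitaryTransvection n 2 u 1)
        (transvection_preserves hF n u 1 huu hc) (transvection_det n u 1 huu)
    refine ⟨t, hM t (Subgroup.mem_inf.mp htm).1 (by rw [ht]; exact transvection_det n u 1 huu) ?_,
      ht⟩
    rw [ht]
    have hent : ∀ r k, Cfsg.unitaryTransvection n 2 u (1 : F) r k =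
        (if r = k then 1 else 0) + u r * u k ^ 2 := by
      intro r k
      simp [Cfsg.unitaryTransvection, Matrix.vecMulVec_apply, Matrix.one_apply]
    unfold IsMono
    intro k
    by_cases hki : k = i
    · refine ⟨j, fun r hr => ?_⟩
      rw [hent, hki, hui] at hr
      by_contra hrj
      apply hr
      by_cases hri : r = i
      · rw [hri, hui, if_pos rfl]
        linear_combination hcube + h2
      · rw [huk r hri hrj, if_neg hri]
        ring
    · by_cases hkj : k = j
      · refine ⟨i, fun r hr => ?_⟩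
        rw [hent, hkj, huj] at hr
        by_contra hri
        apply hr
        by_cases hrj : r = j
        · rw [hrj, huj, if_pos rfl]
          linear_combination h2
        · rw [huk r hri hrj, if_neg hrj]
          ring
      · refine ⟨k, fun r hr => ?_⟩
        rw [hent, huk k hki hkj] at hr
        by_contra hrk
        apply hr
        rw [if_neg hrk]
        ring

/-- centres are permuted by `X ≤ GU` -/
private theorem udq2a_cen_map {n : ℕ} {X : Subgroup (GL (Fin n) F)} (hX : X ≤ Cfsg.GU n F 2)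
    {v : Fin n → F} (hv : Cen 2 X v) (x : GL (Fin n) F) (hx : x ∈ X) :
    Cen 2 X ((x : Matrix (Fin n) (Fin n) F) *ᵥ v) := by
  have hpres : ∀ a b, Cfsg.hermForm n F 2 ((x : Matrix (Fin n) (Fin n) F) *ᵥ a)
      ((x : Matrix (Fin n) (Fin n) F) *ᵥ b) = Cfsg.hermForm n F 2 a b := hX hx
  refine ⟨by rw [hpres]; exact hv.1, fun c hc => ?_⟩
  exact MIn.conj ⟨x, hx, rfl⟩ (hv.2 c hc) (conj_transvection _ hpres v c)

end

theorem ud_q2a {F : Type*} [Field F] [Fintype F] (q : ℕ) : Q2AStmt F := by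
  classical
  intro hF n hn X hX hM ⟨x, hx, hmono⟩
  by_contra hno
  have h2 := two_eq_zero_of_card hF
  obtain ⟨ω, hω0, hω1⟩ : ∃ ω : F, ω ≠ 0 ∧ ω ≠ 1 := by
    by_contra hcon
    have hall : ∀ ω : F, ω = 0 ∨ ω = 1 := by
      intro ω
      by_contra h
      exact hcon ⟨ω, (not_or.mp h).1, (not_or.mp h).2⟩
    have hsub : (Finset.univ : Finset F) ⊆ {0, 1} := by
      intro ω _
      rcases hall ω with h | h <;> simp [h]
    have hcard := Finset.card_le_card hsub
    rw [Finset.card_univ, hF] at hcard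
    have h3 : ({0, 1} : Finset F).card ≤ 2 := Finset.card_le_two
    have h4 : (2 : ℕ) ^ 2 = 4 := by norm_num
    omega
  have hmono' : ∃ j, ∀ i, ∃ i', (x : Matrix (Fin n) (Fin n) F) i' j ≠ 0 ∧ i' ≠ i := by
    by_contra hcon
    apply hmono
    intro j
    by_contra hj
    apply hcon
    refine ⟨j, fun i => ?_⟩
    by_contra hi
    apply hj
    refine ⟨i, fun i' hi' => ?_⟩
    by_contra hne
    exact hi ⟨i', hi', hne⟩
  obtain ⟨j, hj⟩ := hmono'
  obtain ⟨a, ha, -⟩ := hj ⟨0, by omega⟩
  obtain ⟨b, hb, hba⟩ := hj a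
  have hpres : ∀ u v, Cfsg.hermForm n F 2 ((x : Matrix (Fin n) (Fin n) F) *ᵥ u)
      ((x : Matrix (Fin n) (Fin n) F) *ᵥ v) = Cfsg.hermForm n F 2 u v := hX hx
  have hcol : ∀ k : Fin n, (x : Matrix (Fin n) (Fin n) F) *ᵥ Pi.single k 1 =
      fun r => (x : Matrix (Fin n) (Fin n) F) r k := by
    intro k
    funext r
    simp
  have hunit : Cfsg.hermForm n F 2 (fun r => (x : Matrix (Fin n) (Fin n) F) r j)
      (fun r => (x : Matrix (Fin n) (Fin n) F) r j) = 1 := by
    rw [← hcol j, hpres, hf_single_left]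
    simp
  obtain ⟨c, hca, hcb, hc⟩ := udq2a_third hF _ hunit a b hba.symm ha hb
  have H : ∀ i : Fin n, i ≠ j → ∀ ε : F, ε ≠ 0 → ∀ r s t : Fin n, r ≠ s → r ≠ t → s ≠ t →
      (x : Matrix (Fin n) (Fin n) F) r j + ε * (x : Matrix (Fin n) (Fin n) F) r i ≠ 0 →
      (x : Matrix (Fin n) (Fin n) F) s j + ε * (x : Matrix (Fin n) (Fin n) F) s i ≠ 0 →
      (x : Matrix (Fin n) (Fin n) F) t j + ε * (x : Matrix (Fin n) (Fin n) F) t i ≠ 0 →
      False := by
    intro i hij ε hε r s t hrs hrt hst h1 h2' h3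
    have hcen := udq2a_cen_map hX (udq2a_cen2 hF X hM i j hij ε hε) x hx
    have hval : ∀ r', ((x : Matrix (Fin n) (Fin n) F) *ᵥ
        (Pi.single j 1 + ε • Pi.single i 1)) r' =
        (x : Matrix (Fin n) (Fin n) F) r' j + ε * (x : Matrix (Fin n) (Fin n) F) r' i := by
      intro r'
      rw [Matrix.mulVec_add, Matrix.mulVec_smul, hcol, hcol]
      rfl
    apply hno
    refine ⟨_, hcen, udq2a_wt4 hF _ hcen.1 r s t hrs hrt hst ?_ ?_ ?_⟩
    · rw [hval]
      exact h1
    · rw [hval]
      exact h2'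
    · rw [hval]
      exact h3
  obtain ⟨d, hd⟩ : ∃ d : Fin n, d ∉ ({a, b, c} : Finset (Fin n)) := by
    by_contra hcon
    have hsub : (Finset.univ : Finset (Fin n)) ⊆ {a, b, c} := by
      intro d _
      by_contra hd
      exact hcon ⟨d, hd⟩
    have hcard := Finset.card_le_card hsub
    rw [Finset.card_univ, Fintype.card_fin] at hcard
    have h3 : ({a, b, c} : Finset (Fin n)).card ≤ 3 := Finset.card_le_three
    omega
  simp only [Finset.mem_insert, Finset.mem_singleton, not_or] at hd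
  obtain ⟨i₀, hi₀⟩ : ∃ i₀ : Fin n, i₀ ≠ j := by
    by_cases h0 : j = ⟨0, by omega⟩
    · refine ⟨⟨1, by omega⟩, ?_⟩
      rw [h0]
      intro h
      have := congrArg Fin.val h
      simp at this
    · exact ⟨⟨0, by omega⟩, fun h => h0 h.symm⟩
  have hrow : ∀ k, (x : Matrix (Fin n) (Fin n) F) d k = 0 := by
    intro k
    by_cases hk : k = j
    · rw [hk]
      exact (udq2a_supp h2 ω hω0 hω1 _ _ (H i₀ hi₀) a b c hba.symm hca.symm hcb.symm ha hb hc
        d hd.1 hd.2.1 hd.2.2).1
    · exact (udq2a_supp h2 ω hω0 hω1 _ _ (H k hk) a b c hba.symm hca.symm hcb.symm ha hb hc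
        d hd.1 hd.2.1 hd.2.2).2
  have hinv : (x : Matrix (Fin n) (Fin n) F) *
      ((x⁻¹ : GL (Fin n) F) : Matrix (Fin n) (Fin n) F) = 1 := by
    rw [← Units.val_mul, mul_inv_cancel, Units.val_one]
  have h11 := congrFun (congrFun hinv d) d
  rw [Matrix.mul_apply, Matrix.one_apply_eq] at h11
  rw [Finset.sum_eq_zero (fun k _ => by rw [hrow k, zero_mul])] at h11
  exact zero_ne_one h11

end Cfsg.Agent.Lib.Helper44.UD
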