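import Mathlib
import Cfsg.Prelude.Def_GeometricClasses
import Cfsg.Prelude.Def_LieClassical

/-!
S5982 piece UF-INDEXGRP (helper96): the index of the similarity group of a unitary form in
`SL_n(F)` times a cofactor times `|SU_n(q₀)|` is `|SL_n(F)|`.
-/

set_option autoImplicit false

universe u

namespace Cfsg.Agent.Lib.Helper63.Uf

open Polynomial Matrix
open scoped MatrixGroups

-- PIECE INDEXGRP
theorem index_mul_eq {F : Type*} [Field F] [Fintype F] (q₀ n : ℕ)
    (f : (Fin n → F) → (Fin n → F) → F) (Y : Matrix (Fin n) (Fin n) F) (hY : IsUnit Y.det)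
    (hfY : ∀ u v, f u v = Cfsg.hermForm n F q₀ (Y *ᵥ u) (Y *ᵥ v)) :
    ∃ t : ℕ, (Cfsg.Geo.similarityGroup f).relIndex (Cfsg.Geo.specialLinear (Fin n) F) * t *
      Nat.card ↥(Cfsg.SU n F q₀) = Nat.card (Matrix.SpecialLinearGroup (Fin n) F) := by
  classical
  obtain ⟨Yu, hYu⟩ : ∃ Yu : GL (Fin n) F, (Yu : Matrix (Fin n) (Fin n) F) = Y :=
    ⟨((Matrix.isUnit_iff_isUnit_det Y).2 hY).unit, rfl⟩
  obtain ⟨φ, hφ⟩ : ∃ φ : Matrix.SpecialLinearGroup (Fin n) F →* GL (Fin n) F,
      ∀ s, φ s = Yu⁻¹ * Matrix.SpecialLinearGroup.toGL s * Yu :=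
    ⟨(MulAut.conj Yu⁻¹).toMonoidHom.comp Matrix.SpecialLinearGroup.toGL,
      fun s => by simp⟩
  have hφinj : Function.Injective φ := by
    intro a b hab
    rw [hφ, hφ] at hab
    have h1 : Matrix.SpecialLinearGroup.toGL a = Matrix.SpecialLinearGroup.toGL b := by
      have := congrArg (fun x => Yu * x * Yu⁻¹) hab
      simpa [mul_assoc] using this
    exact Matrix.SpecialLinearGroup.toGL_injective h1
  -- the special linear group is the range of `toGL`
  have hS : Cfsg.Geo.specialLinear (Fin n) F =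
      (Matrix.SpecialLinearGroup.toGL :
        Matrix.SpecialLinearGroup (Fin n) F →* GL (Fin n) F).range := by
    ext x
    rw [Cfsg.Geo.specialLinear, MonoidHom.mem_ker, MonoidHom.mem_range]
    constructor
    · intro hx
      have hdet : (x : Matrix (Fin n) (Fin n) F).det = 1 := by
        have := congrArg Units.val hx
        simpa using this
      exact ⟨⟨(x : Matrix (Fin n) (Fin n) F), hdet⟩, Units.ext rfl⟩
    · rintro ⟨A, rfl⟩
      apply Units.ext
      rw [Matrix.GeneralLinearGroup.val_det_apply]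
      exact A.2
  have hcardS : Nat.card ↥(Cfsg.Geo.specialLinear (Fin n) F) =
      Nat.card (Matrix.SpecialLinearGroup (Fin n) F) := by
    rw [hS, MonoidHom.range_eq_map,
      Subgroup.card_map_of_injective Matrix.SpecialLinearGroup.toGL_injective, Subgroup.card_top]
  -- the conjugate of `SU`
  obtain ⟨K0, hK0⟩ : ∃ K0 : Subgroup (GL (Fin n) F), K0 = (Cfsg.SU n F q₀).map φ := ⟨_, rfl⟩
  have hcardK : Nat.card K0 = Nat.card ↥(Cfsg.SU n F q₀) := by
    rw [hK0, Subgroup.card_map_of_injective hφinj]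
  have hK0le : K0 ≤ Cfsg.Geo.similarityGroup f ⊓ Cfsg.Geo.specialLinear (Fin n) F := by
    rw [hK0]
    rintro _ ⟨s, hs, rfl⟩
    have hYY : (Yu : Matrix (Fin n) (Fin n) F) * ((Yu⁻¹ : GL (Fin n) F) : Matrix (Fin n) (Fin n) F)
        = 1 := by
      rw [← Units.val_mul, mul_inv_cancel, Units.val_one]
    have hYY' : ((Yu⁻¹ : GL (Fin n) F) : Matrix (Fin n) (Fin n) F) * (Yu : Matrix (Fin n) (Fin n) F)
        = 1 := by
      rw [← Units.val_mul, inv_mul_cancel, Units.val_one]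
    have hval : ((φ s : GL (Fin n) F) : Matrix (Fin n) (Fin n) F) =
        ((Yu⁻¹ : GL (Fin n) F) : Matrix (Fin n) (Fin n) F) *
          (s : Matrix (Fin n) (Fin n) F) * (Yu : Matrix (Fin n) (Fin n) F) := by
      rw [hφ]; rfl
    refine ⟨⟨1, fun u v => ?_⟩, ?_⟩
    · rw [Units.val_one, one_mul, hfY, hfY, Matrix.mulVec_mulVec, Matrix.mulVec_mulVec, hval, hYu]
      have h1 : Y * (((Yu⁻¹ : GL (Fin n) F) : Matrix (Fin n) (Fin n) F) *
          (s : Matrix (Fin n) (Fin n) F) * Y) = (s : Matrix (Fin n) (Fin n) F) * Y := by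
        rw [← Matrix.mul_assoc, ← Matrix.mul_assoc, ← hYu, hYY, Matrix.one_mul]
      rw [h1, ← Matrix.mulVec_mulVec, ← Matrix.mulVec_mulVec]
      exact hs (Y *ᵥ u) (Y *ᵥ v)
    · show φ s ∈ (Matrix.GeneralLinearGroup.det : GL (Fin n) F →* Fˣ).ker
      rw [MonoidHom.mem_ker]
      apply Units.ext
      rw [Matrix.GeneralLinearGroup.val_det_apply, hval, Matrix.det_mul, Matrix.det_mul, s.2,
        mul_one, ← Matrix.det_mul, hYY', Matrix.det_one, Units.val_one]
  refine ⟨K0.relIndex (Cfsg.Geo.similarityGroup f ⊓ Cfsg.Geo.specialLinear (Fin n) F), ?_⟩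
  rw [← hcardS, ← hcardK, ← Subgroup.relIndex_bot_left (H := K0),
    ← Subgroup.inf_relIndex_right (Cfsg.Geo.similarityGroup f) (Cfsg.Geo.specialLinear (Fin n) F),
    ← Subgroup.relIndex_bot_left (H := Cfsg.Geo.specialLinear (Fin n) F),
    mul_comm ((Cfsg.Geo.similarityGroup f ⊓ Cfsg.Geo.specialLinear (Fin n) F).relIndex _),
    Subgroup.relIndex_mul_relIndex _ _ _ hK0le inf_le_right, mul_comm,
    Subgroup.relIndex_mul_relIndex _ _ _ bot_le (hK0le.trans inf_le_right)]

end Cfsg.Agent.Lib.Helper63.Uf
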